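import Cfsg.Agent.H16.CV3
import Cfsg.Agent.H14.Sp3

/-! `Sp₆` in characteristic three is covered by two classes of subgroups. -/

set_option autoImplicit false
set_option linter.unusedSectionVars false
set_option linter.unusedSimpArgs false
set_option linter.unusedVariables false

namespace H16.CV

open Module Polynomial H23 H23.Form H14.Wall

universe u
variable {F : Type u} {V : Type*} [Field F] [AddCommGroup V] [Module F V] [FiniteDimensional F V]
  {Φ : Form (RingHom.id F) V} (hΦ : Φ.Nondeg) (hε : Φ.ε = -1) (hκ : Φ.κ = 0) (h3 : (3 : F) = 0)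
  {g θ : End F V}
include hΦ hε hκ h3

theorem two_ne : (2 : F) ≠ 0 := fun h => one_ne_zero (α := F) (by linear_combination h3 - h)

theorem sa_mv (hθ : adj hΦ θ = θ) (i : ℕ) (v w : V) : Φ.B ((θ ^ i) v) w = Φ.B v ((θ ^ i) w) := by
  rw [← B_adj hΦ, (anti_adj hΦ).pow, hθ]

theorem sa_pow (hθ : adj hΦ θ = θ) (i j : ℕ) (v : V) : Φ.B ((θ ^ i) v) ((θ ^ j) v) = 0 := by
  rw [sa_mv hΦ hε hκ h3 hθ, ← Module.End.mul_apply, ← pow_add]
  have := Φ.symm v ((θ ^ (i + j)) v)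
  rw [sa_mv hΦ hε hκ h3 hθ, hε, RingHom.id_apply] at this
  linear_combination -this + Φ.B v ((θ ^ (i + j)) v) * h3

theorem cubic_sa (hV : finrank F V = 6) (θ : End F V) (hθ : adj hΦ θ = θ) :
    ∃ m : F[X], m ≠ 0 ∧ m.natDegree ≤ 3 ∧ aeval θ m = 0 := by
  obtain ⟨x, hx⟩ := Module.exists_ker_toSpanSingleton_eq_annihilator F[X] (AEval' θ)
  obtain ⟨v, rfl⟩ := (AEval'.of θ).surjective x
  obtain ⟨c, h1, i, hi⟩ := Fintype.not_linearIndependent_iff.1
    (show ¬ LinearIndependent F fun i : Fin 4 => (θ ^ i.1) v from fun h => by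
      have := hΦ.two_mul_finrank_le (totSing_span (s := Set.range fun i : Fin 4 => (θ ^ i.1) v)
        (by rintro _ ⟨i, rfl⟩ _ ⟨j, rfl⟩; exact sa_pow hΦ hε hκ h3 hθ _ _ _) fun _ _ => Q_of_κ hκ _)
      rw [finrank_span_eq_card h, hV] at this
      simp at this)
  refine ⟨∑ i : Fin 4, monomial i.1 (c i), fun h => hi ?_,
    natDegree_sum_le_of_forall_le _ _ fun i _ => (natDegree_monomial_le _).trans (by omega), ?_⟩
  · simpa [coeff_monomial, Fin.val_inj] using congrArg (coeff · i.1) h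
  · rw [← RingHom.mem_ker, ← AEval.annihilator_eq_ker_aeval (M := V), ← hx, LinearMap.mem_ker,
      LinearMap.toSpanSingleton_apply]
    refine (AEval.of_aeval_smul θ _ v).symm.trans ((AEval'.of θ).map_eq_zero_iff.2 ?_)
    simpa [aeval_monomial, Algebra.algebraMap_eq_smul_one, LinearMap.sum_apply] using h1

theorem fm_hyp (hV : 3 ≤ finrank F V) : Fm (Pres Φ)
    fun M => ∃ W, (∃ v w, Φ.B v w = 1 ∧ W = Submodule.span F {v, w}) ∧ M = stab W := by
  have li : ∀ v w, Φ.B v w = 1 → LinearIndependent F ![v, w] := fun v w h =>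
    (LinearIndependent.pair_iff' (by rintro rfl; simp at h)).2 fun a e => by
      simp [← e, B_self_alt hε] at h
  refine fm_sub ?_ ?_
  · rintro _ _ ⟨v, w, h, rfl⟩ ⟨v', w', h', rfl⟩
    obtain ⟨g, hg, e⟩ := hΦ.witt_family (li v w h) (li v' w' h') (fun i j => by
      fin_cases i <;> fin_cases j <;> simp [B_self_alt hε, h, h', Φ.symm v w, Φ.symm v' w'])
      fun _ => by simp [Q_of_κ hκ]
    exact ⟨_, pres_O ⟨g, hg⟩, by
      simp [Submodule.map_span, Set.image_pair, show g v = v' from e 0, show g w = w' from e 1]⟩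
  · rintro _ ⟨v, w, h, rfl⟩
    obtain ⟨x, hx⟩ : ∃ x, x ∉ Submodule.span F {v, w} := by
      by_contra hc
      push Not at hc
      have := finrank_span_eq_card (li v w h)
      rw [Matrix.range_cons_cons_empty, Submodule.eq_top_iff'.2 hc] at this
      simp at this; omega
    obtain ⟨y, hy⟩ := hΦ.exists_ne (x := x) (by rintro rfl; simp at hx)
    exact ⟨_, ⟨x, y, hy, rfl⟩, fun k => hx (k (Submodule.subset_span (by simp)))⟩

theorem hyp_of_nd {A : Submodule F V} (hn : (Φ.restrict A).Nondeg) (h : finrank F A = 2) :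
    ∃ v w, Φ.B v w = 1 ∧ A = Submodule.span F {v, w} := by
  obtain ⟨v, hv, h0⟩ := A.exists_mem_ne_zero_of_ne_bot (by rintro rfl; simp at h)
  obtain ⟨w, hw⟩ := hn.exists_ne (x := ⟨v, hv⟩) (by simpa using h0)
  replace hw : Φ.B v w = 1 := hw
  refine ⟨v, w, hw, (Submodule.eq_of_le_of_finrank_eq (Submodule.span_le.2 ?_) ?_).symm⟩
  · rintro _ (rfl | rfl)
    exacts [hv, w.2]
  · have := finrank_span_eq_card ((LinearIndependent.pair_iff' h0).2 fun (a : F) (e : a • v = w) => by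
      simp [← e, B_self_alt hε] at hw)
    rw [Matrix.range_cons_cons_empty, Fintype.card_fin] at this
    exact this.trans h.symm

theorem exists_frame (hV : finrank F V = 6) {e : F} (he : ∀ x, x ^ 3 - x ≠ e)
    (hθ : adj hΦ θ = θ) (h : θ ^ 3 - θ - e • 1 = 0) : ∃ v w, LinearIndependent F
      ![v, θ v, θ (θ v), w, θ w, θ (θ w)] ∧ ∀ i j, Φ.B (![v, θ v, θ (θ v), w, θ w, θ (θ w)] i)
        (![v, θ v, θ (θ v), w, θ w, θ (θ w)] j) = !![0, 0, 0, 1, 0, 0; 0, 0, 0, 0, 0, e;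
          0, 0, 0, 0, e, 0; -1, 0, 0, 0, 0, 0; 0, 0, -e, 0, 0, 0; 0, -e, 0, 0, 0, 0] i j := by
  have : Nontrivial V := Module.nontrivial_of_finrank_pos (R := F) (by omega)
  obtain ⟨v, hv⟩ := exists_ne (0 : V)
  have h0 : e ≠ 0 := fun h => he 0 (by simp [h])
  have h1 : ∀ x, θ (θ (θ x)) = θ x + e • x := fun x => by
    have := LinearMap.congr_fun h x
    simp only [pow_succ, pow_zero, one_mul, Module.End.mul_apply, LinearMap.sub_apply,
      LinearMap.smul_apply, Module.End.one_apply, LinearMap.zero_apply] at this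
    linear_combination (norm := module) this
  obtain ⟨w, h2, h4⟩ := hΦ.exists_perp_eq_one (W := Submodule.span F {θ v, θ (θ v)}) (x := -v) (by
    rw [Submodule.mem_span_pair]
    rintro ⟨a, b, hab⟩
    obtain ⟨s, t, hst⟩ := (asp_irred (by omega) le_rfl he).coprime_iff_not_dvd.2
      (not_dvd_of_natDegree_lt (p := asp 3 e) (q := C b * X ^ 2 + C a * X + C 1)
        (fun h => by simpa using congrArg (coeff · 0) h)
        (by rw [(asp_deg (by omega) e).2]; exact Nat.lt_succ_of_le natDegree_quadratic_le))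
    have := LinearMap.congr_fun (congrArg (aeval θ) hst) v
    rw [map_add, map_mul, map_mul, aeval_asp, h, mul_zero, zero_add, Module.End.mul_apply,
      show aeval θ (C b * X ^ 2 + C a * X + C 1) v = 0 from by
        simp [Algebra.algebraMap_eq_smul_one, pow_two]; linear_combination (norm := module) hab] at this
    exact hv (by simpa using this.symm))
  have sy : ∀ x y, Φ.B y x = -Φ.B x y := fun x y => by rw [Φ.symm, hε]; simp
  have mv : ∀ x y, Φ.B x (θ y) = Φ.B (θ x) y := fun x y => by rw [← B_adj hΦ, hθ]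
  have a0 : Φ.B v w = 1 := by rw [sy, ← map_neg, h4]
  have a1 : Φ.B (θ v) w = 0 := by rw [sy, h2 _ (Submodule.subset_span (by simp)), neg_zero]
  have a2 : Φ.B (θ (θ v)) w = 0 := by rw [sy, h2 _ (Submodule.subset_span (by simp)), neg_zero]
  have z : ∀ x, Φ.B x x = 0 ∧ Φ.B (θ x) x = 0 ∧ Φ.B (θ (θ x)) x = 0 := fun x =>
    ⟨B_self_alt hε x, by simpa using sa_pow hΦ hε hκ h3 hθ 1 0 x,
      by simpa [pow_two] using sa_pow hΦ hε hκ h3 hθ 2 0 x⟩
  have G : ∀ i j, Φ.B (![v, θ v, θ (θ v), w, θ w, θ (θ w)] i)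
      (![v, θ v, θ (θ v), w, θ w, θ (θ w)] j) = !![0, 0, 0, 1, 0, 0; 0, 0, 0, 0, 0, e;
        0, 0, 0, 0, e, 0; -1, 0, 0, 0, 0, 0; 0, 0, -e, 0, 0, 0; 0, -e, 0, 0, 0, 0] i j := by
    have b0 : Φ.B w v = -1 := by rw [sy, a0]
    have b1 : Φ.B (θ w) v = 0 := by rw [← mv, sy, a1, neg_zero]
    have b2 : Φ.B (θ (θ w)) v = 0 := by rw [← mv, ← mv, sy, a2, neg_zero]
    intro i j
    fin_cases i <;> fin_cases j <;> simp [mv, h1, a0, a1, a2, b0, b1, b2, z]
  refine ⟨v, w, linearIndependent_of_dual (Φ := Φ)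
    (w := fun i => ![v, θ v, θ (θ v), w, θ w, θ (θ w)] (![3, 5, 4, 0, 2, 1] i)) (fun i j h => ?_)
    fun i => ?_, G⟩
  · rw [G]; fin_cases i <;> fin_cases j <;> simp at h ⊢
  · rw [G]; fin_cases i <;> simp [h0]

theorem fm_sp6 (hV : finrank F V = 6) {e : F} (he : ∀ x, x ^ 3 - x ≠ e) :
    Fm (Pres Φ) fun M => ∃ θ, (adj hΦ θ = θ ∧ θ ^ 3 - θ - e • 1 = 0) ∧ M = nrm ⊤ θ := by
  refine fm_nrm (fun θ θ' h h' => ?_) fun θ h => ?_
  · obtain ⟨v, w, a1, a2⟩ := exists_frame hΦ hε hκ h3 hV he h.1 h.2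
    obtain ⟨v', w', b1, b2⟩ := exists_frame hΦ hε hκ h3 hV he h'.1 h'.2
    obtain ⟨g, hg, k⟩ := hΦ.witt_family a1 b1 (fun i j => (a2 i j).trans (b2 i j).symm)
      fun _ => by simp [Q_of_κ hκ]
    have h1 : ∀ θ : End F V, θ ^ 3 - θ - e • 1 = 0 → ∀ x, θ (θ (θ x)) = θ x + e • x := fun θ h x => by
      have := LinearMap.congr_fun h x
      simp only [pow_succ, pow_zero, one_mul, Module.End.mul_apply, LinearMap.sub_apply,
        LinearMap.smul_apply, Module.End.one_apply, LinearMap.zero_apply] at this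
      linear_combination (norm := module) this
    refine ⟨_, pres_O ⟨g, hg⟩, (LinearMap.isUnit_iff_isUnit_det _).2 g.isUnit_det',
      LinearMap.ext_on_range (a1.span_eq_top_of_card_eq_finrank (by simp [hV])) fun i => ?_⟩
    have k0 : g v = v' := k 0
    have k1 : g (θ v) = θ' v' := k 1
    have k2 : g (θ (θ v)) = θ' (θ' v') := k 2
    have k3 : g w = w' := k 3
    have k4 : g (θ w) = θ' w' := k 4
    have k5 : g (θ (θ w)) = θ' (θ' w') := k 5
    fin_cases i <;> simp [k0, k1, k2, k3, k4, k5, h1 θ h.2, h1 θ' h'.2]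
  · have : Nontrivial V := Module.nontrivial_of_finrank_pos (R := F) (by omega)
    obtain ⟨u, h0⟩ := exists_ne (0 : V)
    obtain ⟨g, hg, -, h2⟩ := hΦ.exists_qrefl hκ (d := u) (c := 1) (by simp [hε, B_self_alt hε])
    obtain ⟨v, hv⟩ := hΦ.exists_ne h0
    exact ⟨_, pres_O ⟨g, hg⟩, notMem_nrm (no_eig he h.2) (Or.inr (by omega)) (φ := Φ.B u) (w := v)
      h0 (by simp [hv]) (by simpa using h2)⟩

theorem fin_cubes (hV : finrank F V = 6) (hg : Pres Φ g) (c e : F)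
    (h : ∀ r ∈ ed g, ∃ p, p ∣ X ^ 2 - C c * X + 1 ∧ r = p ^ 3) :
    ∃ θ, (adj hΦ θ = θ ∧ θ ^ 3 - θ - e • 1 = 0) ∧ g ∈ nrm ⊤ θ := by
  have : Nontrivial V := Module.nontrivial_of_finrank_pos (R := F) (by omega)
  have c0 := adj_mul_self hΦ hg.B
  refine finish hΦ h3 hg (fun r hr => ?_) (c := c) rfl ?_ (cubic_sa hΦ hε hκ h3 hV) rfl
  · obtain ⟨p, -, rfl⟩ := h r hr
    simp [derivative_pow, h3]
  have h1 : aeval g ((X ^ 2 - C c * X + 1) ^ 3) = 0 := (aeval_eq_zero_iff_ed _ _).2 fun r hr => by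
    obtain ⟨p, h1, rfl⟩ := h r hr; exact pow_dvd_pow_of_dvd h1 3
  have h2 : Commute (adj hΦ g) g := c0.trans (mul_eq_one_comm.1 c0).symm
  rw [show g + adj hΦ g - c • 1 = adj hΦ g * aeval g (X ^ 2 - C c * X + 1) from by
    simp [Algebra.algebraMap_eq_smul_one, pow_two, mul_add, mul_sub, ← mul_assoc, c0]; abel,
    Commute.mul_pow, ← map_pow, h1, mul_zero]
  exact LinearMap.ext fun v => aeval_comm_of_comm (LinearMap.congr_fun h2.eq) _ v

section
variable [Fintype F] (hV : finrank F V = 6) (hg : Pres Φ g)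
  (hn : ∀ A : Submodule F V, (Φ.restrict A).Nondeg → (∀ x ∈ A, g x ∈ A) → finrank F A ≠ 2)
include hV hg hn

theorem ed_eq_nd {A : Submodule F V} {hA : ∀ x ∈ A, g x ∈ A} (h : (Φ.restrict A).Nondeg)
    (h0 : ed (g.restrict hA) ≠ 0) : ed g = ed (g.restrict hA) := by
  have a1 := hn A h hA
  have a2 := hn _ (hΦ.nondeg_restrict_perp (Φ.nondeg_restrict_iff.1 h)) (hg.perp_inv hΦ hA)
  have a3 := hΦ.finrank_perp_add A
  obtain ⟨k, hk⟩ := even_finrank_alt h hε
  have a4 := (ed_eq_zero_iff _).not.1 h0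
  rw [← ed_of_nondeg hΦ hg hA h, (ed_eq_zero_iff (g.restrict (hg.perp_inv hΦ hA))).2 (by omega),
    add_zero]

theorem sp6_uni {j : ℕ} (hj : 1 ≤ j) (h : (X - C 1) ^ j ∈ ed g) (e : F) :
    ∃ θ, (adj hΦ θ = θ ∧ θ ^ 3 - θ - e • 1 = 0) ∧ g ∈ nrm ⊤ θ := by
  classical
  have h2 := two_ne hΦ hε hκ h3
  have key : ∀ ν : Multiset ℕ, ν ≠ 0 → (∀ a ∈ ν, a = j) → uni F ν ≤ ed g →
      (∀ i, Odd (i + 1) → Even (ν.count (i + 1))) → (ν.sum = 6 → j = 3 ∨ j = 6) →
      ∃ θ, (adj hΦ θ = θ ∧ θ ^ 3 - θ - e • 1 = 0) ∧ g ∈ nrm ⊤ θ := fun ν a1 a2 a3 a4 a5 => by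
    obtain ⟨A, hA, b1, b2⟩ := unip_nd h2 hΦ hg (fun a ha => by rw [a2 a ha]; omega)
      (fun i hi => a4 i ((eps_pow_ne h2 i).1 (hε ▸ hi))) a3
    have b3 := ed_eq_nd hΦ hε hκ h3 hV hg hn (hA := hA) b1 (by simpa [b2, uni] using a1)
    rw [b2] at b3
    refine fin_cubes hΦ hε hκ h3 hV hg 2 e fun r hr => ?_
    obtain ⟨a, ha, rfl⟩ := Multiset.mem_map.1 (b3 ▸ hr : r ∈ uni F ν)
    have e1 : (X ^ 2 - C 2 * X + 1 : F[X]) = (X - C 1) ^ 2 := by
      rw [map_ofNat, map_one]; ring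
    rw [a2 a ha, e1]
    rcases a5 (by rw [← finrank_of_uni b3, hV]) with rfl | rfl
    · exact ⟨_, dvd_pow_self _ two_ne_zero, rfl⟩
    · exact ⟨_, dvd_rfl, by ring⟩
  rcases Nat.even_or_odd j with h1 | h1
  · refine key {j} (by simp) (by simp) (by simpa [uni] using h) (fun i hi => ?_) (by simp +contextual)
    rw [Multiset.count_singleton, if_neg (by rintro rfl; exact Nat.not_even_iff_odd.2 hi h1)]; simp
  · obtain ⟨i, rfl⟩ : ∃ i, j = i + 1 := ⟨j - 1, by omega⟩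
    obtain ⟨k, hk⟩ := H14.Wall.RS.ev h2 (rs_of hΦ hg) (c := 1) (by simp) (j := i) (hε ▸ (eps_pow_ne h2 i).2 h1)
    have := Multiset.count_pos.2 h
    refine key (Multiset.replicate 2 (i + 1)) (by simp) (fun a => Multiset.eq_of_mem_replicate)
      (by rw [uni, Multiset.map_replicate, ← Multiset.le_count_iff_replicate_le]; omega)
      (fun l _ => ?_) (by simp; omega)
    rw [Multiset.count_replicate]; split_ifs <;> simp

theorem sp6_free (hf : ∀ r ∈ ed g, IsCoprime (X ^ 2 - 1) r) {r : F[X]} (hr : r ∈ ed g) :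
    ed g = {r} ∧ rev r = r ∧ r.natDegree = 6 ∨ ed g = {r, rev r} ∧ r.natDegree = 3 := by
  have h0 := ed_coeff_ne hΦ hg
  have h1 := ed_dual_of_B hΦ hg.B
  rw [map_dual_id] at h1
  have rs : ∀ s ≤ ed g, s.map rev = s → RS (RingHom.id F) Φ.ε Φ.κ s := fun s hs h => by
    obtain ⟨Ψ, k, h⟩ := exists_alt_free (fun q hq => ed_isPP (Multiset.mem_of_le hs hq))
      (fun q hq => h0 q (Multiset.mem_of_le hs hq)) h fun q hq => hf q (Multiset.mem_of_le hs hq)
    exact ⟨_, Ψ, k, hε ▸ hκ ▸ h⟩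
  have key : ∀ s ≤ ed g, s.map rev = s → s ≠ 0 → ed g = s := fun s hs h h' => by
    obtain ⟨t, ht⟩ := Multiset.le_iff_exists_add.1 hs
    obtain ⟨A, hA, a1, a2⟩ := (uq_free hΦ hg hf).exists_nondeg (rs s hs h)
      (rs t (by simp [ht]) (by rw [ht, Multiset.map_add, h] at h1; exact add_left_cancel h1)) ht
    rw [← a2]; exact ed_eq_nd hΦ hε hκ h3 hV hg hn a1 (a2 ▸ h')
  have h4 := sum_natDegree_ed g
  by_cases h : rev r = r
  · have := key {r} (by simpa) (by simpa) (by simp)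
    exact Or.inl ⟨this, h, by simpa [this, hV] using h4⟩
  · have := key {r, rev r} (by simpa [dual_id] using orbit_le hΦ hg hr (by rwa [dual_id]))
      (by simpa [rev_rev (ed_isPP hr).monic (h0 r hr)] using Multiset.pair_comm _ _) (by simp)
    refine Or.inr ⟨this, ?_⟩
    simp [this, natDegree_rev (h0 r hr), hV] at h4; omega

theorem sp6_cover_free (hf : ∀ r ∈ ed g, IsCoprime (X ^ 2 - 1) r) {e : F} (he : ∀ x, x ^ 3 - x ≠ e) :
    ∃ θ, (adj hΦ θ = θ ∧ θ ^ 3 - θ - e • 1 = 0) ∧ g ∈ nrm ⊤ θ := by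
  have : Nontrivial V := Module.nontrivial_of_finrank_pos (R := F) (by omega)
  have An := anti_adj hΦ
  have c0 := adj_mul_self hΦ hg.B
  have c0' := mul_eq_one_comm.1 c0
  obtain ⟨z, hz⟩ : ∃ z, z = g + adj hΦ g := ⟨_, rfl⟩
  have z1 : adj hΦ z = z := by rw [hz, An.add, An.inv, add_comm]
  have z2 : g * z = g * g + 1 := by rw [hz, mul_add, c0']
  have z3 : z * g = g * z := by rw [z2, hz, add_mul, c0]
  by_cases h : ∃ c, (minpoly F z).IsRoot c
  · obtain ⟨c, hc⟩ := h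
    obtain ⟨v, hv⟩ := (Module.End.hasEigenvalue_of_isRoot hc).exists_hasEigenvector
    obtain ⟨r, hr, h1⟩ : ∃ r ∈ ed g, ¬ IsCoprime (X ^ 2 - C c * X + 1) r := by
      by_contra hc
      push Not at hc
      refine hv.2 (((Module.End.isUnit_iff _).1 ((isUnit_aeval_iff_ed g _).2 hc)).1 ?_)
      have := LinearMap.congr_fun z2 v
      rw [Module.End.mul_apply, hv.apply_eq_smul, map_smul] at this
      simp [pow_two, Algebra.algebraMap_eq_smul_one, this]
    obtain ⟨p, j, a1, a2, a3, rfl⟩ := ed_isPP hr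
    have a4 : p ∣ X ^ 2 - C c * X + 1 := by
      by_contra k; exact h1 (a2.coprime_iff_not_dvd.2 k).symm.pow_right
    have a5 : p.natDegree ≤ 2 := (natDegree_le_of_dvd a4 fun k => by
      simpa using congrArg (coeff · 0) k).trans (by compute_degree)
    obtain ⟨a6, a7⟩ := base_dual hΦ hg a1 a2 a3 hr
    have a8 := a2.natDegree_pos
    refine fin_cubes hΦ hε hκ h3 hV hg c e fun s hs => ?_
    rcases sp6_free hΦ hε hκ h3 hV hg hn hf hr with ⟨b1, b2, b3⟩ | ⟨b1, b3⟩ <;>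
      rw [a1.natDegree_pow] at b3 <;> rw [b1] at hs
    · obtain ⟨k, hk⟩ := even_of_free (s := {p}) (by simpa using isPP_of_irred a1 a2) (by simpa)
        (by simpa [dual_id] using a7 (by rwa [dual_id]))
        (by simpa using (IsCoprime.pow_right_iff a3).1 (hf _ hr))
      obtain rfl : j = 3 := by
        have : p.natDegree = 2 := by simp at hk; omega
        rw [this] at b3; omega
      exact ⟨p, a4, by simpa using hs⟩
    · have b4 : p.natDegree = 1 := by
        have : p.natDegree ≠ 2 := fun k => by rw [k] at b3; omega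
        omega
      obtain rfl : j = 3 := by rw [b4] at b3; omega
      obtain ⟨l, rfl⟩ : ∃ l, p = X - C l := ⟨-p.coeff 0, by simpa using a1.eq_X_add_C b4⟩
      have b5 : l ≠ 0 := by simpa using a6
      rcases Multiset.mem_cons.1 hs with rfl | hs
      · exact ⟨_, a4, rfl⟩
      refine ⟨X - C l⁻¹, ?_, by
        rw [Multiset.mem_singleton.1 hs, ← dual_id, dual_pow, dual_id, rev_X_sub_C b5]⟩
      simp only [dvd_iff_isRoot, IsRoot.def, eval_add, eval_sub, eval_mul, eval_pow, eval_X, eval_C,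
        eval_one] at a4 ⊢
      field_simp; linear_combination a4
  push Not at h
  have hi : IsIntegral F z := Algebra.IsIntegral.isIntegral z
  obtain ⟨m, m1, m2, m3⟩ := cubic_sa hΦ hε hκ h3 hV z z1
  have m4 := (natDegree_le_of_dvd (minpoly.dvd F z m3) m1).trans m2
  have m5 := minpoly.natDegree_pos hi
  have m6 := irreducible_of_degree_le_three_of_not_isRoot (Finset.mem_Icc.2 ⟨m5, m4⟩) h
  have m7 : (minpoly F z).natDegree ≠ 1 := fun k => by
    obtain ⟨x, hx⟩ := exists_root_of_degree_eq_one ((degree_eq_iff_natDegree_eq_of_pos one_pos).2 k)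
    exact h x hx
  have m8 : (minpoly F z).natDegree ≠ 2 := fun k => by
    obtain ⟨a, b, hab⟩ : ∃ a b, minpoly F z = X ^ 2 + C a * X + C b :=
      (isMonicOfDegree_two_iff).1 ⟨k, minpoly.monic hi⟩
    have d1 := minpoly.aeval F z
    obtain ⟨M, hM⟩ : ∃ M : F[X], M = (X ^ 2 + 1) ^ 2 + C a * X * (X ^ 2 + 1) + C b * X ^ 2 := ⟨_, rfl⟩
    have d2 : aeval g M = 0 := by
      simp only [hab, hM, map_add, map_mul, map_pow, aeval_X, aeval_C, map_one,
        Algebra.algebraMap_eq_smul_one, smul_mul_assoc, one_mul, pow_two, ← z2] at d1 ⊢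
      rw [mul_assoc, ← mul_assoc z, z3, ← mul_zero (g * g), ← d1]
      simp only [mul_add, mul_smul_comm, mul_one, mul_assoc]
    have d3 : M.natDegree = 4 := by rw [hM]; compute_degree!
    have d4 : M ≠ 0 := fun k => by simp [k] at d3
    obtain ⟨p, j, -, -, -, hr⟩ := exists_mem_ed g (by omega)
    obtain ⟨t, ht⟩ := (aeval_eq_zero_iff_ed _ _).1 d2 _ hr
    rw [ht, natDegree_mul (left_ne_zero_of_mul (ht ▸ d4)) (right_ne_zero_of_mul (ht ▸ d4))] at d3
    obtain ⟨x, hx⟩ := exists_root_of_degree_eq_one ((degree_eq_iff_natDegree_eq_of_pos one_pos).2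
      (show t.natDegree = 1 by
        rcases sp6_free hΦ hε hκ h3 hV hg hn hf hr with ⟨-, -, b⟩ | ⟨-, b⟩ <;> omega))
    have d5 : M.eval x = 0 := by rw [ht, eval_mul, hx.eq_zero, mul_zero]
    simp only [hM, eval_add, eval_mul, eval_pow, eval_X, eval_C, eval_one] at d5
    have d6 : x ≠ 0 := fun k => by simp [k] at d5
    refine h (x + x⁻¹) ?_
    simp only [hab, IsRoot.def, eval_add, eval_mul, eval_pow, eval_X, eval_C]
    field_simp; linear_combination d5
  obtain ⟨s, t, ht⟩ := exists_root (asp_irred (k := 3) (by omega) le_rfl he) m6 (by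
    rw [(asp_deg (by omega) e).2]; exact ⟨1, by omega⟩)
  refine ⟨aeval z s, ⟨by rw [adj_aeval, z1], ?_⟩, 0, trivial, ?_⟩
  · rw [← aeval_asp, ← aeval_comp, ht, map_mul, minpoly.aeval, zero_mul]
  · simpa using LinearMap.ext fun v => aeval_comm_of_comm (LinearMap.congr_fun z3.symm) s v

theorem sp6_cover {e : F} (he : ∀ x, x ^ 3 - x ≠ e) :
    ∃ θ, (adj hΦ θ = θ ∧ θ ^ 3 - θ - e • 1 = 0) ∧ g ∈ nrm ⊤ θ := by
  by_cases hf : ∀ r ∈ ed g, IsCoprime (X ^ 2 - 1) r
  · exact sp6_cover_free hΦ hε hκ h3 hV hg hn hf he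
  push Not at hf
  obtain ⟨r, hr, h⟩ := hf
  obtain ⟨p, j, a1, a2, a3, rfl⟩ := ed_isPP hr
  by_cases h1 : p = X - C 1
  · exact sp6_uni hΦ hε hκ h3 hV hg hn a3 (h1 ▸ hr) e
  obtain rfl : p = X - C (-1) := by_contra fun h2 => h (isCoprime_of_ne a1 a2 h1 h2).pow_right
  obtain ⟨θ, h2, c, -, h4⟩ := sp6_uni hΦ hε hκ h3 hV (g := (-1 : F) • g)
    ⟨fun x y => by simp [hg.B], fun _ => by simp [Q_of_κ hκ]⟩
    (fun A b1 b2 => hn A b1 ((smul_inv_iff (by simp)).1 b2)) a3 (by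
      rw [ed_smul g (by simp)]
      exact Multiset.mem_map.2 ⟨_, hr, by rw [pow_scaleRoots_of_isReduced, X_sub_C_scaleRoots]; simp⟩) e
  exact ⟨θ, h2, c, trivial, by simpa using h4⟩

end

omit hΦ hε hκ in
theorem cov_sp6 [Fintype F] : Cov (Matrix.symplecticGroup (Fin 3) F) := by
  classical
  have hΦ := spForm_nondeg (F := F) 3
  obtain ⟨e, he⟩ := exists_asp (F := F) (k := 3) (by omega)
  refine cover ((lin _ F).comp (Matrix.symplecticGroup (Fin 3) F).subtype) sp_pres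
    (fun f => exists_sp) (fm_hyp hΦ rfl rfl h3 (by simp)) (fm_sp6 hΦ rfl rfl h3 (by simp) he)
    fun f hf => ?_
  by_cases hn : ∀ A : Submodule F _, ((spForm 3 F).restrict A).Nondeg → (∀ x ∈ A, f x ∈ A) →
    finrank F A ≠ 2
  · obtain ⟨θ, h1, h2⟩ := sp6_cover hΦ rfl rfl h3 (by simp) hf hn he
    exact ⟨_, Or.inr ⟨θ, h1, rfl⟩, h2⟩
  · push Not at hn
    obtain ⟨A, h1, h2, h4⟩ := hn
    exact ⟨_, Or.inl ⟨A, hyp_of_nd hΦ rfl rfl h3 h1 h4, rfl⟩, h2⟩

end H16.CV
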