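import Mathlib

/-! A non-split extension argument (piece GQ). -/

set_option autoImplicit false
set_option linter.unusedSectionVars false
open Subgroup

namespace H16.Gq

variable {C : Type*} [Group C] [Finite C] {S : Type*} [Group S] [Finite S] [IsSimpleGroup S]

theorem conj_inj (hna : ¬ IsMulCommutative S) : Function.Injective (MulAut.conj : S →* MulAut S) := by
  rw [← MonoidHom.ker_eq_bot_iff]
  refine (IsSimpleGroup.eq_bot_or_eq_top_of_normal _ inferInstance).resolve_right fun e => hna ⟨⟨fun a b => ?_⟩⟩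
  have h : MulAut.conj a = 1 := e.ge (mem_top a)
  have := DFunLike.congr_fun h b
  rw [MulAut.conj_apply, MulAut.one_apply, mul_inv_eq_iff_eq_mul] at this
  exact this

theorem perf (hna : ¬ IsMulCommutative S) : ⁅(⊤ : Subgroup S), (⊤ : Subgroup S)⁆ = ⊤ := by
  refine (IsSimpleGroup.eq_bot_or_eq_top_of_normal _ inferInstance).resolve_left fun e => hna ⟨⟨fun a b => ?_⟩⟩
  rw [commutator_eq_bot_iff_le_centralizer] at e
  exact e (mem_top b) a (mem_top a)

theorem gq (hna : ¬ IsMulCommutative S) (hA : Nat.card (MulAut S) = 2 * Nat.card S)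
    (Q N : Subgroup C) [Q.Normal] [N.Normal] (hQN : Q ≤ N) (hN : Nat.card N = 3 * Nat.card Q)
    (hns : ∀ K : Subgroup C, K ⊓ N = Q → K ⊔ N = ⊤ → False) (e : C ⧸ N ≃* MulAut S) :
    ∃ M : Subgroup C, ⁅M, N⁆ ≤ Q ∧ N ≤ ⁅M, M⁆ ⊔ Q := by
  let f : C →* MulAut S := e.toMonoidHom.comp (QuotientGroup.mk' N)
  have fs : Function.Surjective f := e.surjective.comp (QuotientGroup.mk'_surjective N)
  have kf : f.ker = N := by
    ext x
    rw [MonoidHom.mem_ker]
    change e (x : C ⧸ N) = 1 ↔ _
    rw [map_eq_one_iff _ e.injective, QuotientGroup.eq_one_iff]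
  let I : Subgroup (MulAut S) := (MulAut.conj : S →* MulAut S).range
  have cI : Nat.card I = Nat.card S := (Nat.card_congr (MonoidHom.ofInjective (conj_inj hna)).toEquiv).symm
  have iI : I.index = 2 := by
    have := I.card_mul_index
    rw [cI, hA, mul_comm] at this
    exact Nat.eq_of_mul_eq_mul_right Nat.card_pos this
  have pI : ⁅I, I⁆ = I := by
    simp only [I, MonoidHom.range_eq_map]
    rw [← map_commutator, perf hna]
  let M := I.comap f
  have iM : M.index = 2 := (index_comap_of_surjective I fs).trans iI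
  haveI : M.Normal := normal_of_index_eq_two iM
  have NM : N ≤ M := kf.ge.trans (ker_le_comap _ _)
  have mM : M.map f = I := map_comap_eq_self_of_surjective fs I
  have hM : ⁅M, M⁆ ⊔ N = M := by
    rw [← kf, ← comap_map_eq, map_commutator, mM, pI]
  have rQ : Q.relIndex N = 3 := by
    have := (Q.subgroupOf N).card_mul_index
    rw [Nat.card_congr (subgroupOfEquivOfLe hQN).toEquiv, hN, mul_comm] at this
    exact Nat.eq_of_mul_eq_mul_right Nat.card_pos this
  have key : N ≤ ⁅M, M⁆ ⊔ Q := by
    by_contra hD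
    set D := ⁅M, M⁆ ⊔ Q with hDdef
    have DN : D ⊔ N = M := by rw [hDdef, sup_assoc, sup_eq_right.2 hQN, hM]
    have h1 := relIndex_mul_relIndex Q (D ⊓ N) N (le_inf le_sup_right hQN) inf_le_right
    rw [rQ, inf_relIndex_right] at h1
    have h2 : D.relIndex N = 3 := ((Nat.dvd_prime Nat.prime_three).1 (Dvd.intro_left _ h1)).resolve_left
      fun e => hD (relIndex_eq_one.1 e)
    have h3 : D ⊓ N ≤ Q := relIndex_eq_one.1 (by rw [h2] at h1; omega)
    have h4 : D.index = 6 := by
      rw [← relIndex_mul_index (DN.le.trans' le_sup_left), iM, ← DN, relIndex_sup_left, h2]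
    obtain ⟨K0, hK0⟩ := Sylow.exists_subgroup_card_pow_prime (G := C ⧸ D) 2 (n := 1)
      (by rw [← index, h4]; norm_num)
    have h5 : K0.index = 3 := by
      have := K0.card_mul_index
      rw [hK0, ← index, h4] at this
      omega
    let K := K0.comap (QuotientGroup.mk' D)
    have iK : K.index = 3 := (index_comap_of_surjective K0 (QuotientGroup.mk'_surjective D)).trans h5
    have DK : D ≤ K := (QuotientGroup.ker_mk' D).ge.trans (ker_le_comap _ _)
    have NK : ¬ N ≤ K := fun h => by
      have := index_dvd_of_le (DN.ge.trans (sup_le DK h))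
      rw [iM, iK] at this
      omega
    have h6 := relIndex_mul_relIndex Q (K ⊓ N) N (le_inf (le_sup_right.trans DK) hQN) inf_le_right
    rw [rQ, inf_relIndex_right] at h6
    have h7 : K.relIndex N = 3 := ((Nat.dvd_prime Nat.prime_three).1 (Dvd.intro_left _ h6)).resolve_left
      fun e => NK (relIndex_eq_one.1 e)
    refine hns K (le_antisymm (relIndex_eq_one.1 (by rw [h7] at h6; omega))
      (le_inf (le_sup_right.trans DK) hQN)) ?_
    have h8 := relIndex_mul_index (H := K) (K := K ⊔ N) le_sup_left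
    rw [iK] at h8
    rcases (Nat.dvd_prime Nat.prime_three).1 (Dvd.intro_left _ h8) with h9 | h9
    · exact index_eq_one.1 h9
    · rw [h9] at h8
      exact absurd (le_sup_right.trans ((relIndex_eq_one (H := K) (K := K ⊔ N)).1 (by omega))) NK
  refine ⟨M, ?_, key⟩
  let q := QuotientGroup.mk' Q
  have kq : q.ker = Q := QuotientGroup.ker_mk' Q
  haveI : (N.map q).Normal := Normal.map inferInstance q (QuotientGroup.mk'_surjective Q)
  have cN : Nat.card (N.map q) = 3 := by rw [← relIndex_ker, kq, rQ]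
  haveI : Fact (Nat.Prime 3) := ⟨Nat.prime_three⟩
  haveI : IsCyclic (N.map q) := isCyclic_of_prime_card cN
  have hc : ∀ x y : MulAut (N.map q), x * y = y * x := fun x y =>
    (IsCyclic.mulAutMulEquiv (N.map q)).injective (by rw [map_mul, map_mul, mul_comm])
  let φ : C →* MulAut (N.map q) := MulAut.conjNormal.comp q
  have h1 : ⁅M, M⁆ ≤ φ.ker := commutator_le.2 fun a _ b _ => by
    rw [MonoidHom.mem_ker, map_commutatorElement, commutatorElement_eq_one_iff_mul_comm]
    exact hc _ _
  have h2 : Q ≤ φ.ker := fun a ha => by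
    rw [MonoidHom.mem_ker]
    change MulAut.conjNormal (q a) = 1
    rw [show q a = 1 from kq.ge ha, map_one]
  have h3 : M ≤ φ.ker := hM.ge.trans (sup_le h1 (key.trans (sup_le h1 h2)))
  refine commutator_le.2 fun m hm n hn => kq.le ?_
  have h4 := congrArg Subtype.val (DFunLike.congr_fun (show φ m = 1 from h3 hm) ⟨q n, n, hn, rfl⟩)
  rw [MonoidHom.mem_ker, map_commutatorElement, commutatorElement_eq_one_iff_mul_comm]
  exact mul_inv_eq_iff_eq_mul.1 h4

theorem bq (hna : ¬ IsMulCommutative S) (hA : Nat.card (MulAut S) = 2 * Nat.card S)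
    (N M : Subgroup C) [N.Normal] [M.Normal] (hNM : N ≤ M) (hM : M.index = 2)
    (hout : ∀ c : C, (∀ m ∈ M, c * m * c⁻¹ * m⁻¹ ∈ N) → c ∈ M)
    (h : Nonempty ((M ⧸ N.subgroupOf M) ≃* S)) : Nonempty (C ⧸ N ≃* MulAut S) := by
  obtain ⟨e0⟩ := h
  let q := QuotientGroup.mk' N
  have qs : Function.Surjective q := QuotientGroup.mk'_surjective N
  have kq : q.ker = N := QuotientGroup.ker_mk' N
  have k1 : N.subgroupOf M = (q.comp M.subtype).ker := by
    rw [← MonoidHom.comap_ker, kq]; rfl
  have k2 : (q.comp M.subtype).range = M.map q := by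
    rw [MonoidHom.range_comp, range_subtype]
  have : (M.map q).Normal := Normal.map inferInstance q qs
  let e : M.map q ≃* S := (((QuotientGroup.quotientMulEquivOfEq k1).trans
    (QuotientGroup.quotientKerEquivRange _)).trans (MulEquiv.subgroupCongr k2)).symm.trans e0
  let φ : C ⧸ N →* MulAut S := (MulAut.congr e).toMonoidHom.comp MulAut.conjNormal
  have hi : Function.Injective φ := by
    rw [injective_iff_map_eq_one]
    intro x hx
    obtain ⟨c, rfl⟩ := qs x
    have h1 : (MulAut.conjNormal (q c) : MulAut (M.map q)) = 1 :=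
      (map_eq_one_iff _ (MulAut.congr e).injective).1 hx
    have h2 : ∀ y : M.map q, q c * y * (q c)⁻¹ = y := fun y =>
      congrArg Subtype.val (DFunLike.congr_fun h1 y)
    have h3 : c ∈ M := hout c fun m hm => kq.le (by
      rw [MonoidHom.mem_ker, map_mul, map_mul, map_mul, map_inv, map_inv, h2 ⟨q m, m, hm, rfl⟩,
        mul_inv_cancel])
    have h4 : e ⟨q c, c, h3, rfl⟩ = 1 := conj_inj hna (by
      rw [map_one]
      ext s
      obtain ⟨y, rfl⟩ := e.surjective s
      rw [MulAut.conj_apply, MulAut.one_apply, ← map_inv, ← map_mul, ← map_mul]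
      exact congrArg e (Subtype.ext (h2 y)))
    exact congrArg Subtype.val ((map_eq_one_iff _ e.injective).1 h4)
  have h5 := (M.map q).card_mul_index
  rw [index_map_eq _ qs (kq.le.trans hNM), hM, Nat.card_congr e.toEquiv] at h5
  exact ⟨MulEquiv.ofBijective φ (hi.bijective_of_nat_card_le (by omega))⟩

theorem aq (hna : ¬ IsMulCommutative S) (K : Subgroup (MulAut S)) (hK : K.Normal)
    (h2 : IsPGroup 2 K) : K = ⊥ := by
  have h1 : K.comap (MulAut.conj : S →* MulAut S) = ⊥ := by
    refine (IsSimpleGroup.eq_bot_or_eq_top_of_normal _ inferInstance).resolve_right fun e => ?_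
    have h3 := h2.comap_of_injective _ (conj_inj hna)
    rw [e] at h3
    have h4 : IsPGroup 2 S := h3.of_equiv topEquiv
    have : Fact (Nat.Prime 2) := ⟨Nat.prime_two⟩
    have := h4.isNilpotent
    exact hna ⟨⟨IsSimpleGroup.comm_iff_isSolvable.2 inferInstance⟩⟩
  refine eq_bot_iff.2 fun k hk => ?_
  rw [mem_bot]
  ext s
  have h5 : k s * s⁻¹ ∈ K.comap (MulAut.conj : S →* MulAut S) := by
    have h6 : MulAut.conj (k s * s⁻¹) = k * (MulAut.conj s * k⁻¹ * (MulAut.conj s)⁻¹) := by
      ext t
      simp [mul_assoc]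
    rw [mem_comap, h6]
    exact mul_mem hk (hK.conj_mem _ (inv_mem hk) _)
  rw [h1, mem_bot, mul_inv_eq_one] at h5
  exact h5

end H16.Gq
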