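import Cfsg.Agent.H16.Gq
import Cfsg.Prelude.Def_KGroupFacts

/-! Order of the automorphism group from the order of the outer automorphism group. -/

set_option autoImplicit false
open Subgroup

namespace H16.Gq2

theorem hA_of_out {S : Type*} [Group S] [Finite S] [IsSimpleGroup S] (hna : ¬ IsMulCommutative S)
    {k : ℕ} (h : Nat.card (Cfsg.Out S) = k) : Nat.card (MulAut S) = k * Nat.card S := by
  rw [card_eq_card_quotient_mul_card_subgroup (Cfsg.Inn S), ← h]
  exact congrArg _ (Nat.card_congr (MonoidHom.ofInjective (H16.Gq.conj_inj hna)).toEquiv).symm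

theorem hna_of_card {S : Type*} [Group S] [Finite S] [IsSimpleGroup S] (h : ¬ (Nat.card S).Prime) :
    ¬ IsMulCommutative S := fun hc =>
  h (let _ : CommGroup S := { mul_comm := hc.1.1 }; IsSimpleGroup.prime_card)

end H16.Gq2
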