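import Cfsg.Agent.H16.LA9
import Cfsg.Agent.H17.Gen
import Cfsg.Agent.H17.Ind
import Cfsg.Agent.H23.Mat
import Cfsg.Prelude.Def_LinearParabolics

/-! Partial flags, pairs of flags and contingency tables. -/

namespace H16
open Module Finset

universe u v
variable {F : Type u} [Field F] {V : Type*} [AddCommGroup V] [Module F V] {m : ℕ}
  {ι : Type*} [Fintype ι]

/-- partial sums -/
def ps (α : Fin m → ℕ) (k : ℕ) : ℕ := ∑ j, if j.val < k then α j else 0

theorem ps_zero (α : Fin m → ℕ) : ps α 0 = 0 := by simp [ps]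

theorem ps_of_le (α : Fin m → ℕ) {k : ℕ} (h : m ≤ k) : ps α k = ∑ j, α j :=
  sum_congr rfl fun j _ => if_pos (j.2.trans_le h)

theorem ps_succ (α : Fin m → ℕ) (j : Fin m) : ps α (j + 1) = ps α j + α j := by
  have : α j = ∑ i, if i = j then α i else 0 := by simp
  rw [this, ps, ps, ← sum_add_distrib]
  refine sum_congr rfl fun i _ => ?_
  by_cases h : i = j
  · simp [h]
  · have : i.val ≠ j.val := fun e => h (Fin.ext e)
    split_ifs <;> omega

theorem ps_succ' (α : Fin (m + 1) → ℕ) (k : ℕ) : ps α (k + 1) = α 0 + ps (Fin.tail α) k := by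
  simp [ps, Fin.sum_univ_succ, Fin.tail]

theorem ps_injective {α β : Fin m → ℕ} (h : ∀ k, ps α k = ps β k) : α = β := by
  funext j
  have h1 := ps_succ α j
  have h2 := ps_succ β j
  rw [h, h] at h1
  omega

theorem ps_mono (α : Fin m → ℕ) : Monotone (ps α) := fun k l h =>
  sum_le_sum fun j _ => by split_ifs <;> omega

/-- number of `i` with label `j` -/
def lc (a : ι → Fin m) (j : Fin m) : ℕ := ∑ i, if a i = j then 1 else 0

/-- contingency table of two labelings -/
def tb (a c : ι → Fin m) (j k : Fin m) : ℕ := ∑ i, if a i = j ∧ c i = k then 1 else 0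

theorem sum_tb_right (a c : ι → Fin m) (j : Fin m) : ∑ k, tb a c j k = lc a j := by
  simp only [tb, lc]
  rw [sum_comm]
  exact sum_congr rfl fun i _ => by by_cases h : a i = j <;> simp [h]

theorem sum_tb_left (a c : ι → Fin m) (k : Fin m) : ∑ j, tb a c j k = lc c k := by
  simp only [tb, lc]
  rw [sum_comm]
  exact sum_congr rfl fun i _ => by by_cases h : c i = k <;> simp [h]

theorem ps_lc (a : ι → Fin m) (k : ℕ) : ps (lc a) k = ∑ i, if (a i).val < k then 1 else 0 := by
  simp only [ps, lc]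
  have : ∀ j : Fin m, (if j.val < k then ∑ i, if a i = j then 1 else 0 else 0) =
      ∑ i, if a i = j then (if j.val < k then 1 else 0) else 0 := fun j => by
    split_ifs <;> simp
  simp only [this]
  rw [sum_comm]
  simp

theorem ps_tb (a c : ι → Fin m) (k l : ℕ) : ps (fun j => ps (tb a c j) l) k =
    ∑ i, if (a i).val < k ∧ (c i).val < l then 1 else 0 := by
  simp only [ps, tb]
  have : ∀ j : Fin m, (if j.val < k then ∑ j' : Fin m, (if j'.val < l then
      ∑ i, if a i = j ∧ c i = j' then 1 else 0 else 0) else 0) =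
      ∑ i, ∑ j' : Fin m, if a i = j then (if c i = j' then
        (if j.val < k ∧ j'.val < l then 1 else 0) else 0) else 0 := fun j => by
    rw [sum_comm]
    by_cases h : j.val < k
    · simp only [h, if_true, true_and]
      refine sum_congr rfl fun j' _ => ?_
      by_cases h' : j'.val < l
      · simp only [h', if_true, ite_and]
      · simp [h']
    · simp [h]
  simp only [this]
  rw [sum_comm]
  simp

theorem exists_perm_of_fiber {β : Type*} [DecidableEq β] {f g : ι → β}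
    (h : ∀ b, (∑ i, if f i = b then 1 else 0) = ∑ i, if g i = b then 1 else 0) :
    ∃ σ : Equiv.Perm ι, ∀ i, g (σ i) = f i := by
  have : ∀ b, Fintype.card {i // f i = b} = Fintype.card {i // g i = b} := fun b => by
    simpa [Fintype.card_subtype] using h b
  exact ⟨Equiv.ofFiberEquiv fun b => Fintype.equivOfCardEq (this b),
    Equiv.ofFiberEquiv_map _⟩

theorem exists_perm_of_tb {a c a' c' : ι → Fin m} (h : tb a c = tb a' c') :
    ∃ σ : Equiv.Perm ι, ∀ i, a' (σ i) = a i ∧ c' (σ i) = c i := by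
  obtain ⟨σ, hσ⟩ := exists_perm_of_fiber (f := fun i => (a i, c i)) (g := fun i => (a' i, c' i))
    fun b => by simpa only [Prod.ext_iff, tb] using congrFun (congrFun h b.1) b.2
  exact ⟨σ, fun i => Prod.ext_iff.1 (hσ i)⟩

theorem tb_comp (a c : ι → Fin m) (σ : Equiv.Perm ι) : tb (a ∘ σ) (c ∘ σ) = tb a c := by
  funext j k
  exact Equiv.sum_comp σ fun i => if a i = j ∧ c i = k then 1 else 0

theorem lc_comp (a : ι → Fin m) (σ : Equiv.Perm ι) : lc (a ∘ σ) = lc a := by
  funext j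
  exact Equiv.sum_comp σ fun i => if a i = j then 1 else 0

theorem exists_tb (M : Fin m → Fin m → ℕ) (h : ∑ j, ∑ k, M j k = Fintype.card ι) :
    ∃ a c : ι → Fin m, tb a c = M := by
  have e : ι ≃ (Σ p : Fin m × Fin m, Fin (M p.1 p.2)) :=
    Fintype.equivOfCardEq (by simp [← h, Fintype.sum_prod_type])
  refine ⟨fun i => (e i).1.1, fun i => (e i).1.2, ?_⟩
  funext j k
  rw [tb, Equiv.sum_comp e (fun x => if x.1.1 = j ∧ x.1.2 = k then 1 else 0), Fintype.sum_sigma]
  rw [sum_eq_single (j, k) (fun b _ hb => sum_eq_zero fun _ _ => if_neg fun h => hb (Prod.ext h.1 h.2))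
    (by simp)]
  simp

/-- contingency tables with given marginals -/
def Tab (α β : Fin m → ℕ) : Set (Fin m → Fin m → ℕ) :=
  {M | (∀ j, ∑ k, M j k = α j) ∧ ∀ k, ∑ j, M j k = β k}

theorem tb_mem {a c : ι → Fin m} : tb a c ∈ Tab (lc a) (lc c) :=
  ⟨sum_tb_right a c, sum_tb_left a c⟩

theorem exists_tb_of_mem {α β : Fin m → ℕ} (hα : ∑ j, α j = Fintype.card ι) {M} (h : M ∈ Tab α β) :
    ∃ a c : ι → Fin m, lc a = α ∧ lc c = β ∧ tb a c = M := by
  obtain ⟨a, c, rfl⟩ := exists_tb (ι := ι) M (by simp only [h.1, hα])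
  exact ⟨a, c, funext fun j => (sum_tb_right a c j).symm.trans (h.1 j),
    funext fun j => (sum_tb_left a c j).symm.trans (h.2 j), rfl⟩

theorem sum_fix_mul {G X Y Z : Type*} [Group G] [Fintype G] [MulAction G X] [MulAction G Y]
    [Finite X] [Finite Y] (φ : X × Y → Z) (h : ∀ a b, (∃ g : G, g • b = a) ↔ φ a = φ b) :
    ∑ g : G, Nat.card (MulAction.fixedBy X g) * Nat.card (MulAction.fixedBy Y g) =
      Nat.card (Set.range φ) * Nat.card G := by
  classical
  have := Fintype.ofFinite X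
  have := Fintype.ofFinite Y
  have := Fintype.ofFinite (Quotient (MulAction.orbitRel G (X × Y)))
  have h1 := MulAction.sum_card_fixedBy_eq_card_orbits_mul_card_group G (X × Y)
  have h2 : Nat.card (Set.range φ) = Nat.card (Quotient (MulAction.orbitRel G (X × Y))) := by
    rw [← card_range_eq_of_ker (f := Quotient.mk (MulAction.orbitRel G (X × Y)))
      fun a b => Quotient.eq.trans (h a b), Set.range_eq_univ.2 Quotient.mk_surjective,
      Nat.card_univ]
  rw [h2, Nat.card_eq_fintype_card, Nat.card_eq_fintype_card (α := G), ← h1]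
  refine sum_congr rfl fun g _ => ?_
  rw [← Nat.card_prod, ← Nat.card_eq_fintype_card]
  exact Nat.card_congr ⟨fun x => ⟨(x.1.1, x.2.1), Prod.ext x.1.2 x.2.2⟩,
    fun x => (⟨x.1.1, congrArg Prod.fst x.2⟩, ⟨x.1.2, congrArg Prod.snd x.2⟩),
    fun _ => rfl, fun _ => rfl⟩

theorem fpc_eq {G X : Type*} [Group G] [Finite G] [MulAction G X] [Finite X]
    (h : ∀ x y : X, ∃ g : G, g • x = y) (x : X) {H : Subgroup G} (hH : ∀ g, g ∈ H ↔ g • x = x)
    (g : G) : Cfsg.fixedPointCharacter H g = Nat.card (MulAction.fixedBy X g) := by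
  have := Fintype.ofFinite G
  have : MulAction.IsPretransitive G X := ⟨h⟩
  obtain rfl : H = MulAction.stabilizer G x := Subgroup.ext hH
  exact congrFun ((H17.indFun_one_eq_perm _).symm.trans (H17.perm_eq_indFun X x).symm) g

/-! ### labelings -/

variable (ι) in
/-- labelings of a given type -/
def Lab (α : Fin m → ℕ) : Type _ := {a : ι → Fin m // lc a = α}

instance (α : Fin m → ℕ) : Finite (Lab ι α) := by unfold Lab; infer_instance

instance (α : Fin m → ℕ) : MulAction (Equiv.Perm ι) (Lab ι α) where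
  smul σ a := ⟨a.1 ∘ σ.symm, (lc_comp _ _).trans a.2⟩
  one_smul _ := rfl
  mul_smul _ _ _ := rfl

theorem Lab.smul_val {α : Fin m → ℕ} (σ : Equiv.Perm ι) (a : Lab ι α) :
    (σ • a).1 = a.1 ∘ σ.symm := rfl

theorem sum_fix_Lab [DecidableEq ι] {α β : Fin m → ℕ} (hα : ∑ j, α j = Fintype.card ι) :
    ∑ g : Equiv.Perm ι, Nat.card (MulAction.fixedBy (Lab ι α) g) *
      Nat.card (MulAction.fixedBy (Lab ι β) g) = Nat.card (Tab α β) * Nat.card (Equiv.Perm ι) := by
  rw [sum_fix_mul (fun x : Lab ι α × Lab ι β => tb x.1.1 x.2.1)]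
  · congr 3
    ext M
    refine ⟨?_, fun h => ?_⟩
    · rintro ⟨⟨⟨a, rfl⟩, ⟨c, rfl⟩⟩, rfl⟩
      exact tb_mem
    · obtain ⟨a, c, ha, hc, rfl⟩ := exists_tb_of_mem hα h
      exact ⟨(⟨a, ha⟩, ⟨c, hc⟩), rfl⟩
  · refine fun x y => ⟨?_, fun h => ?_⟩
    · rintro ⟨σ, rfl⟩
      exact tb_comp _ _ _
    · obtain ⟨σ, hσ⟩ := exists_perm_of_tb h
      exact ⟨σ.symm, Prod.ext (Subtype.ext (funext fun i => (hσ i).1))
        (Subtype.ext (funext fun i => (hσ i).2))⟩

theorem Lab.trans {α : Fin m → ℕ} (a c : Lab ι α) : ∃ σ : Equiv.Perm ι, σ • a = c := by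
  obtain ⟨σ, hσ⟩ := exists_perm_of_fiber (f := c.1) (g := a.1)
    fun b => congrFun (c.2.trans a.2.symm) b
  exact ⟨σ.symm, Subtype.ext (funext hσ)⟩

theorem compLabel_lt_iff {n : ℕ} {μ : Fin n → ℕ} (h : ∑ j, μ j = n) (i : Fin n) (k : ℕ) :
    Cfsg.compLabel μ i < k ↔ i.val < ps μ k := by
  have hS : ∀ j : Fin n, (∑ k ∈ univ.filter (fun k : Fin n => k ≤ j), μ k) = ps μ (j + 1) :=
    fun j => by rw [sum_filter]; exact sum_congr rfl fun k _ => by simp
  simp only [Cfsg.compLabel, hS]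
  rcases k with _ | k
  · simp [ps_zero]
  by_cases hk : n ≤ k
  · rw [ps_of_le _ (by omega), h]
    have := card_filter_le (univ : Finset (Fin n)) fun j : Fin n => ps μ (j + 1) ≤ i.val
    simp only [card_univ, Fintype.card_fin] at this
    exact ⟨fun _ => i.2, fun _ => by omega⟩
  push Not at hk
  constructor
  · intro h1
    by_contra h2
    have : Iic (⟨k, hk⟩ : Fin n) ⊆ univ.filter fun j : Fin n => ps μ (j + 1) ≤ i.val :=
      fun j hj => by
        have : j.val ≤ k := Fin.le_def.1 (mem_Iic.1 hj)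
        have := ps_mono μ (show j.val + 1 ≤ k + 1 by omega)
        simp only [mem_filter, mem_univ, true_and]; omega
    have := card_le_card this
    rw [Fin.card_Iic] at this
    simp only at this
    omega
  · intro h1
    have : (univ.filter fun j : Fin n => ps μ (j + 1) ≤ i.val) ⊆ Iio (⟨k, hk⟩ : Fin n) :=
      fun j hj => by
        simp only [mem_filter, mem_univ, true_and] at hj
        rw [mem_Iio, Fin.lt_def]
        by_contra h3
        have := ps_mono μ (show k + 1 ≤ j.val + 1 by simp only at h3; omega)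
        omega
    have := card_le_card this
    rw [Fin.card_Iio] at this
    simp only at this
    omega

/-- the standard labeling -/
def cl {n : ℕ} {μ : Fin n → ℕ} (h : ∑ j, μ j = n) : Lab (Fin n) μ :=
  ⟨fun i => ⟨Cfsg.compLabel μ i, (compLabel_lt_iff h i n).2 (by rw [ps_of_le _ le_rfl, h]; exact i.2)⟩,
    ps_injective fun k => by
      rw [ps_lc]
      simp only [compLabel_lt_iff h]
      have : ps μ k ≤ n := (ps_mono μ (le_max_left k n)).trans (by rw [ps_of_le _ (le_max_right _ _), h])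
      rw [Fin.sum_univ_eq_sum_range (fun i => if i < ps μ k then 1 else 0), ← card_filter]
      rw [show (range n).filter (fun i => i < ps μ k) = range (ps μ k) by ext; simp; omega, card_range]⟩

theorem fpc_young {n : ℕ} {μ : Fin n → ℕ} (h : ∑ j, μ j = n) (σ : Equiv.Perm (Fin n)) :
    Cfsg.fixedPointCharacter (Cfsg.youngSubgroup μ) σ =
      Nat.card (MulAction.fixedBy (Lab (Fin n) μ) σ) := by
  refine fpc_eq Lab.trans (cl h) (fun g => ?_) σ
  rw [← inv_mem_iff]
  exact ⟨fun hg => Subtype.ext (funext fun i => Fin.ext (hg i)),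
    fun hg i => congrArg Fin.val (congrFun (congrArg Subtype.val hg) i)⟩

/-! ### flags -/

theorem exists_adapted_set [FiniteDimensional F V] {U W : ℕ → Submodule F V} (hU : Monotone U)
    (hW : Monotone W) (hU1 : U m = ⊤) (hW0 : W 0 = ⊥) (hW1 : W m = ⊤) (T : Submodule F V) :
    ∃ s : Set V, LinearIndepOn F id s ∧ s ⊆ T ∧
      (∀ k, U k ⊓ T ≤ Submodule.span F (s ∩ U k)) ∧ ∀ k, W k ⊓ T ≤ Submodule.span F (s ∩ W k) := by
  classical
  induction' hn : finrank F T using Nat.strong_induction_on with n ih generalizing T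
  by_cases hT : T = ⊥
  · exact ⟨∅, by simp, by simp, by simp [hT], by simp [hT]⟩
  have h1 : ∃ k, U k ⊓ T ≠ ⊥ := ⟨m, by rwa [hU1, top_inf_eq]⟩
  obtain ⟨v, hv, hv0⟩ := (Submodule.ne_bot_iff _).1 (Nat.find_spec h1)
  have h2 : ∃ l, v ∈ W (l + 1) := ⟨m, hW m.le_succ (by simp [hW1])⟩
  have h3 : v ∉ W (Nat.find h2) := by
    rcases h : Nat.find h2 with _ | l
    · simpa [hW0]
    · exact Nat.find_min h2 (by omega)
  obtain ⟨φ, hφ, hφ'⟩ := Submodule.exists_dual_map_eq_bot_of_notMem h3 inferInstance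
  have hlt : T ⊓ LinearMap.ker φ < T := lt_of_le_of_ne inf_le_left fun h =>
    hφ (h.ge hv.2).2
  obtain ⟨s, hs1, hs2, hs3, hs4⟩ := ih _ (hn ▸ Submodule.finrank_lt_finrank_of_lt hlt) _ rfl
  have key : ∀ X : Submodule F V, X ⊓ (T ⊓ LinearMap.ker φ) ≤ Submodule.span F (s ∩ X) →
      (v ∈ X ∨ X ⊓ T ≤ LinearMap.ker φ) → X ⊓ T ≤ Submodule.span F (insert v s ∩ X) := by
    intro X hX h x hx
    have hm : Submodule.span F (s ∩ X) ≤ Submodule.span F (insert v s ∩ X) :=
      Submodule.span_mono (Set.inter_subset_inter_left _ (Set.subset_insert _ _))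
    rcases h with h | h
    · have : x - (φ x / φ v) • v ∈ X ⊓ (T ⊓ LinearMap.ker φ) :=
        ⟨X.sub_mem hx.1 (X.smul_mem _ h), T.sub_mem hx.2 (T.smul_mem _ hv.2), by
          simp [div_mul_cancel₀ _ hφ]⟩
      rw [← sub_add_cancel x ((φ x / φ v) • v)]
      exact add_mem (hm (hX this)) (Submodule.smul_mem _ _ (Submodule.subset_span ⟨.inl rfl, h⟩))
    · exact hm (hX ⟨hx.1, hx.2, h hx⟩)
  refine ⟨insert v s, hs1.id_insert fun h => hφ (Submodule.span_le.2 hs2 h).2,
    Set.insert_subset hv.2 fun x hx => (hs2 hx).1, fun k => key _ (hs3 k) ?_,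
    fun k => key _ (hs4 k) ?_⟩
  · by_cases hk : k < Nat.find h1
    · exact .inr (by rw [not_not.1 (Nat.find_min h1 hk)]; exact bot_le)
    · exact .inl (hU (not_lt.1 hk) hv.1)
  · by_cases hk : k ≤ Nat.find h2
    · refine .inr fun x hx => ?_
      have : φ x ∈ (W (Nat.find h2)).map φ := ⟨x, hW hk hx.1, rfl⟩
      rwa [hφ'] at this
    · exact .inl (hW (by omega) (Nat.find_spec h2))

variable (F V) in
/-- partial flags of type `α` -/
def Fl (α : Fin m → ℕ) : Type _ :=
  {U : ℕ → Submodule F V // Monotone U ∧ ∀ k, finrank F (U k) = ps α k}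

instance (α : Fin m → ℕ) : MulAction (V ≃ₗ[F] V) (Fl F V α) where
  smul g U := ⟨fun k => (U.1 k).map g.toLinearMap, fun _ _ h => Submodule.map_mono (U.2.1 h),
    fun k => (LinearEquiv.finrank_map_eq _ _).trans (U.2.2 k)⟩
  one_smul _ := Subtype.ext (funext fun _ => Submodule.map_id _)
  mul_smul _ _ _ := Subtype.ext (funext fun _ => Submodule.map_comp _ _ _)

theorem Fl.smul_val {α : Fin m → ℕ} (g : V ≃ₗ[F] V) (U : Fl F V α) (k : ℕ) :
    (g • U).1 k = (U.1 k).map g.toLinearMap := rfl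

theorem Fl.eq_top [FiniteDimensional F V] {α : Fin m → ℕ} (h : ∑ j, α j = finrank F V)
    (U : Fl F V α) {k : ℕ} (hk : m ≤ k) : U.1 k = ⊤ :=
  Submodule.eq_top_of_finrank_eq (by rw [U.2.2, ps_of_le _ hk, h])

theorem Fl.eq_bot [FiniteDimensional F V] {α : Fin m → ℕ} (U : Fl F V α) : U.1 0 = ⊥ :=
  Submodule.finrank_eq_zero.1 (by rw [U.2.2, ps_zero])

instance [Finite F] [FiniteDimensional F V] (α : Fin m → ℕ) : Finite (Fl F V α) := by
  have := finite_submodule (F := F) (V := V)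
  refine Finite.of_injective (fun U (k : Fin (m + 1)) => U.1 k) fun U W h =>
    Subtype.ext (funext fun k => ?_)
  by_cases hk : k ≤ m
  · exact congrFun h ⟨k, by omega⟩
  have : ∀ U : Fl F V α, U.1 m = U.1 k := fun U =>
    Submodule.eq_of_le_of_finrank_eq (U.2.1 (by omega))
      (by rw [U.2.2, U.2.2, ps_of_le _ le_rfl, ps_of_le _ (by omega)])
  rw [← this, ← this]
  exact congrFun h (Fin.last m)

/-- coordinate subspace -/
def csp (b : Basis ι F V) (P : ι → Prop) : Submodule F V := Submodule.span F (b '' {i | P i})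

omit [Fintype ι] in
theorem mem_csp {b : Basis ι F V} {P : ι → Prop} {v : V} :
    v ∈ csp b P ↔ ∀ i, ¬ P i → b.repr v i = 0 := by
  rw [csp, b.mem_span_image]
  exact forall_congr' fun i => by rw [mem_coe, Finsupp.mem_support_iff, not_imp_comm]; rfl

omit [Fintype ι] in
theorem csp_inf (b : Basis ι F V) (P Q : ι → Prop) :
    csp b P ⊓ csp b Q = csp b fun i => P i ∧ Q i := by
  ext v
  simp only [Submodule.mem_inf, mem_csp, not_and_or, or_imp, forall_and]

theorem finrank_csp (b : Basis ι F V) (P : ι → Prop) [DecidablePred P] :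
    finrank F (csp b P) = ∑ i, if P i then 1 else 0 := by
  rw [csp, Set.image_eq_range, ← card_filter, ← Fintype.card_subtype]
  exact finrank_span_eq_card (b.linearIndependent.comp _ Subtype.val_injective)

/-- coordinate flag -/
def cfl (b : Basis ι F V) {α : Fin m → ℕ} (a : Lab ι α) : Fl F V α :=
  ⟨fun k => csp b fun i => (a.1 i).val < k,
    fun _ _ h => Submodule.span_mono (Set.image_mono fun _ hi => lt_of_lt_of_le hi h),
    fun k => by rw [finrank_csp, ← ps_lc, a.2]⟩

theorem exists_cfl_of_adapted [FiniteDimensional F V] {α : Fin m → ℕ} (h : ∑ j, α j = finrank F V)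
    (U : Fl F V α) (b : Basis ι F V) (hb : ∀ k, U.1 k ≤ Submodule.span F (Set.range b ∩ U.1 k)) :
    ∃ a : Lab ι α, U = cfl b a := by
  classical
  have h1 : ∀ i, ∃ k, b i ∈ U.1 (k + 1) := fun i => ⟨m, by simp [U.eq_top h m.le_succ]⟩
  have h2 : ∀ i k, Nat.find (h1 i) < k ↔ b i ∈ U.1 k := fun i k => by
    refine ⟨fun hk => U.2.1 (by omega) (Nat.find_spec (h1 i)), fun hk => ?_⟩
    rcases k with _ | k
    · exact absurd (by simpa [U.eq_bot] using hk) (b.ne_zero i)
    · exact Nat.lt_succ_of_le (Nat.find_min' _ hk)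
  have h3 : ∀ k, U.1 k = csp b fun i => Nat.find (h1 i) < k := fun k => by
    refine le_antisymm ((hb k).trans (Submodule.span_mono ?_)) (Submodule.span_le.2 ?_)
    · rintro _ ⟨⟨i, rfl⟩, hi⟩
      exact ⟨i, (h2 i k).2 hi, rfl⟩
    · rintro _ ⟨i, hi, rfl⟩
      exact (h2 i k).1 hi
  refine ⟨⟨fun i => ⟨Nat.find (h1 i), (h2 i m).2 (by simp [U.eq_top h le_rfl])⟩,
    ps_injective fun k => ?_⟩, Subtype.ext (funext h3)⟩
  rw [ps_lc, ← U.2.2, congrArg (fun W : Submodule F V => finrank F W) (h3 k), finrank_csp]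

theorem exists_cfl_pair [FiniteDimensional F V] {α β : Fin m → ℕ} (hα : ∑ j, α j = finrank F V)
    (hβ : ∑ j, β j = finrank F V) (b₀ : Basis ι F V) (U : Fl F V α) (W : Fl F V β) :
    ∃ (b : Basis ι F V) (a : Lab ι α) (c : Lab ι β), U = cfl b a ∧ W = cfl b c := by
  obtain ⟨s, h1, -, h2, h3⟩ := exists_adapted_set U.2.1 W.2.1 (U.eq_top hα le_rfl) W.eq_bot
    (W.eq_top hβ le_rfl) ⊤
  simp only [inf_top_eq] at h2 h3
  have h4 : ⊤ ≤ Submodule.span F (Set.range (Subtype.val : s → V)) := by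
    have := h2 m
    rw [U.eq_top hα le_rfl] at this
    simpa using this
  let b := Basis.mk h1 h4
  have hb : Set.range (b.reindex (b.indexEquiv b₀)) = s := by simp [b]
  obtain ⟨a, ha⟩ := exists_cfl_of_adapted hα U _ (hb ▸ h2)
  obtain ⟨c, hc⟩ := exists_cfl_of_adapted hβ W _ (hb ▸ h3)
  exact ⟨_, a, c, ha, hc⟩

theorem finrank_cfl_inf (b : Basis ι F V) {α β : Fin m → ℕ} (a : Lab ι α) (c : Lab ι β) (k l : ℕ) :
    finrank F ↥((cfl b a).1 k ⊓ (cfl b c).1 l) = ps (fun j => ps (tb a.1 c.1 j) l) k := by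
  rw [ps_tb, ← finrank_csp b, ← csp_inf]; rfl

theorem ps2_injective : Function.Injective
    fun (M : Fin m → Fin m → ℕ) (k l : ℕ) => ps (fun j => ps (M j) l) k := fun M _ h =>
  funext fun j => ps_injective fun l =>
    congrFun (ps_injective (α := fun j => ps (M j) l) fun k => congrFun (congrFun h k) l) j

theorem exists_det_one (b b' : Basis ι F V) (σ : Equiv.Perm ι) :
    ∃ g : V ≃ₗ[F] V, LinearMap.det g.toLinearMap = 1 ∧
      ∀ P : ι → Prop, (csp b fun i => P (σ i)).map g.toLinearMap = csp b' P := by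
  classical
  let g₀ := b.equiv b' σ
  have h0 : ∀ P : ι → Prop, (csp b fun i => P (σ i)).map g₀.toLinearMap = csp b' P := fun P => by
    rw [csp, Submodule.map_span, csp, Set.image_image]
    congr 1
    ext x
    simp only [g₀, LinearEquiv.coe_coe, Basis.equiv_apply, Set.mem_image, Set.mem_ofPred_eq]
    exact ⟨fun ⟨i, h, e⟩ => ⟨σ i, h, e⟩, fun ⟨i, h, e⟩ => ⟨σ.symm i, by simpa, by simpa⟩⟩
  rcases isEmpty_or_nonempty ι with h | ⟨⟨i₀⟩⟩
  · exact ⟨g₀, by rw [← LinearMap.det_toMatrix b]; exact Matrix.det_isEmpty, h0⟩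
  let w : ι → Fˣ := Pi.mulSingle i₀ (LinearEquiv.det g₀)⁻¹
  let g₁ := b.equiv (b.unitsSMul w) (Equiv.refl ι)
  have h1 : ∀ i, g₁ (b i) = w i • b i := fun i => by simp [g₁, Basis.unitsSMul_apply]
  refine ⟨g₁.trans g₀, ?_, fun P => ?_⟩
  · have : LinearMap.toMatrix b b g₁.toLinearMap = Matrix.diagonal fun i => (w i : F) := by
      ext i j
      rw [LinearMap.toMatrix_apply, LinearEquiv.coe_coe, h1, Matrix.diagonal_apply]
      by_cases h : i = j <;> simp [h, Units.smul_def]
    rw [LinearEquiv.coe_trans, LinearMap.det_comp, ← LinearMap.det_toMatrix b g₁.toLinearMap, this,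
      Matrix.det_diagonal, ← Units.coe_prod, Finset.prod_pi_mulSingle', if_pos (mem_univ _),
      ← LinearEquiv.coe_det, Units.mul_inv]
  · have := Module.Finite.of_basis b
    rw [LinearEquiv.coe_trans, Submodule.map_comp, ← h0]
    congr 1
    refine Submodule.eq_of_le_of_finrank_eq ?_ (LinearEquiv.finrank_map_eq _ _)
    rw [csp, Submodule.map_span, Submodule.span_le]
    rintro _ ⟨_, ⟨i, hi, rfl⟩, rfl⟩
    rw [LinearEquiv.coe_coe, h1]
    exact Submodule.smul_mem _ _ (Submodule.subset_span ⟨i, hi, rfl⟩)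

theorem exists_smul_pair [FiniteDimensional F V] {α β : Fin m → ℕ} (hα : ∑ j, α j = finrank F V)
    (hβ : ∑ j, β j = finrank F V) {U U' : Fl F V α} {W W' : Fl F V β}
    (h : ∀ k l, finrank F ↥(U.1 k ⊓ W.1 l) = finrank F ↥(U'.1 k ⊓ W'.1 l)) :
    ∃ g : V ≃ₗ[F] V, LinearMap.det g.toLinearMap = 1 ∧ g • U = U' ∧ g • W = W' := by
  obtain ⟨b, a, c, rfl, rfl⟩ := exists_cfl_pair hα hβ (finBasis F V) U W
  obtain ⟨b', a', c', rfl, rfl⟩ := exists_cfl_pair hα hβ (finBasis F V) U' W'
  simp only [finrank_cfl_inf] at h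
  obtain ⟨σ, hσ⟩ := exists_perm_of_tb (ps2_injective (funext fun k => funext (h k)))
  obtain ⟨g, hg, hg'⟩ := exists_det_one b b' σ
  refine ⟨g, hg, Subtype.ext (funext fun k => ?_), Subtype.ext (funext fun k => ?_)⟩
  · have := hg' fun i => (a'.1 i).val < k
    rw [show (fun i => (a'.1 (σ i)).val < k) = fun i => (a.1 i).val < k from
      funext fun i => by rw [(hσ i).1]] at this
    exact this
  · have := hg' fun i => (c'.1 i).val < k
    rw [show (fun i => (c'.1 (σ i)).val < k) = fun i => (c.1 i).val < k from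
      funext fun i => by rw [(hσ i).2]] at this
    exact this

theorem Fl.trans [FiniteDimensional F V] {α : Fin m → ℕ} (hα : ∑ j, α j = finrank F V)
    (U U' : Fl F V α) : ∃ g : V ≃ₗ[F] V, LinearMap.det g.toLinearMap = 1 ∧ g • U = U' := by
  have : ∀ (U : Fl F V α) k l, finrank F ↥(U.1 k ⊓ U.1 l) = ps α (min k l) := fun U k l => by
    rcases le_total k l with h | h
    · rw [inf_of_le_left (U.2.1 h), min_eq_left h, U.2.2]
    · rw [inf_of_le_right (U.2.1 h), min_eq_right h, U.2.2]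
  obtain ⟨g, h1, h2, -⟩ := exists_smul_pair hα hα (U := U) (U' := U') (W := U) (W' := U')
    fun k l => by rw [this, this]
  exact ⟨g, h1, h2⟩

/-- number of fixed flags -/
noncomputable def nfix (α : Fin m → ℕ) (g : V ≃ₗ[F] V) : ℕ :=
  Nat.card (MulAction.fixedBy (Fl F V α) g)

theorem sum_nfix [Finite F] [FiniteDimensional F V] {α β : Fin m → ℕ}
    (hα : ∑ j, α j = finrank F V) (hβ : ∑ j, β j = finrank F V) {G : Type*} [Group G] [Fintype G]
    (ρ : G →* (V ≃ₗ[F] V)) (hρ : ∀ e : V ≃ₗ[F] V, LinearMap.det e.toLinearMap = 1 → e ∈ ρ.range) :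
    ∑ g : G, nfix α (ρ g) * nfix β (ρ g) = Nat.card (Tab α β) * Nat.card G := by
  let _ := MulAction.compHom (Fl F V α) ρ
  let _ := MulAction.compHom (Fl F V β) ρ
  rw [← Nat.card_image_of_injective ps2_injective]
  refine (sum_fix_mul (G := G)
    (fun (x : Fl F V α × Fl F V β) k l => finrank F ↥(x.1.1 k ⊓ x.2.1 l)) ?_).trans ?_
  · refine fun x y => ⟨?_, fun h => ?_⟩
    · rintro ⟨g, rfl⟩
      funext k l
      rw [← LinearEquiv.finrank_map_eq (ρ g) (y.1.1 k ⊓ y.2.1 l),
        Submodule.map_inf _ (ρ g).injective]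
      rfl
    · obtain ⟨g, h1, h2, h3⟩ := exists_smul_pair hα hβ fun k l => (congrFun (congrFun h k) l).symm
      obtain ⟨g, rfl⟩ := hρ g h1
      exact ⟨g, Prod.ext h2 h3⟩
  · congr 3
    ext D
    refine ⟨?_, ?_⟩
    · rintro ⟨⟨U, W⟩, rfl⟩
      obtain ⟨b, a, c, rfl, rfl⟩ := exists_cfl_pair hα hβ (finBasis F V) U W
      refine ⟨_, ?_, funext fun k => funext fun l => (finrank_cfl_inf b a c k l).symm⟩
      simpa only [a.2, c.2] using tb_mem (a := a.1) (c := c.1)
    · rintro ⟨M, h, rfl⟩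
      obtain ⟨a, c, ha, hc, rfl⟩ := exists_tb_of_mem (ι := Fin (finrank F V)) (by simpa) h
      exact ⟨(cfl (finBasis F V) ⟨a, ha⟩, cfl (finBasis F V) ⟨c, hc⟩),
        funext fun k => funext fun l => finrank_cfl_inf _ _ _ k l⟩

theorem isCharacter_nfix [Finite F] [FiniteDimensional F V] (α : Fin m → ℕ) {G : Type*} [Group G]
    (ρ : G →* (V ≃ₗ[F] V)) : Cfsg.IsCharacter G fun g => (nfix α (ρ g) : ℂ) :=
  H17.Cfsg.IsCharacter.comp (H17.isCharacter_perm (G := V ≃ₗ[F] V) (Fl F V α)) ρ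

theorem mem_parabolic_iff {n : ℕ} {μ : Fin n → ℕ} (h : ∑ j, μ j = n) (g : GL (Fin n) F) :
    g ∈ Cfsg.parabolicGL n F μ ↔
      H23.glE _ F g • cfl (Pi.basisFun F _) (cl h) = cfl (Pi.basisFun F _) (cl h) := by
  constructor
  · refine fun hg => Subtype.ext (funext fun k => ?_)
    refine Submodule.eq_of_le_of_finrank_eq ?_ (LinearEquiv.finrank_map_eq _ _)
    rintro _ ⟨v, hv, rfl⟩
    refine mem_csp.2 fun i hi => ?_
    have hv := mem_csp.1 hv
    simp only [Pi.basisFun_repr, LinearEquiv.coe_coe, H23.glE_apply, Matrix.mulVec, dotProduct]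
      at hv ⊢
    refine sum_eq_zero fun j _ => ?_
    by_cases hj : Cfsg.compLabel μ j < k
    · rw [hg (lt_of_lt_of_le hj (not_lt.1 hi)), zero_mul]
    · rw [hv j hj, mul_zero]
  · intro hg i j hij
    have h1 : Pi.basisFun F _ j ∈ (cfl (Pi.basisFun F _) (cl h)).1 (Cfsg.compLabel μ j + 1) :=
      Submodule.subset_span ⟨j, Nat.lt_succ_self _, rfl⟩
    have h2 := Submodule.mem_map_of_mem (f := (H23.glE _ F g).toLinearMap) h1
    rw [← Fl.smul_val, hg] at h2
    simpa [H23.glE_apply] using mem_csp.1 h2 i (not_lt.2 hij)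

theorem fpc_parabolic [Finite F] {n : ℕ} {μ : Fin n → ℕ} (h : ∑ j, μ j = n) (g : GL (Fin n) F) :
    Cfsg.fixedPointCharacter (Cfsg.parabolicGL n F μ) g = nfix μ (H23.glE _ F g) := by
  let _ := MulAction.compHom (Fl F (Fin n → F) μ) (H23.glE (Fin n) F).toMonoidHom
  refine fpc_eq (X := Fl F (Fin n → F) μ) (fun U W => ?_) _ (mem_parabolic_iff h) g
  obtain ⟨e, -, he⟩ := Fl.trans (by simpa) U W
  obtain ⟨g, rfl⟩ := (H23.glE (Fin n) F).surjective e
  exact ⟨g, he⟩

end H16
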