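import Cfsg.Agent.H16.LA10
import Cfsg.Agent.H16.LA11

/-! Counting flags, the Jacobi–Trudi identity and the unipotent characters of `GL_n`. -/

namespace H16
open Module Finset

universe u v
variable {F : Type u} [Field F] {V : Type*} [AddCommGroup V] [Module F V] {m n : ℕ}

/-- flags starting at `U` with all members in `I` -/
def FlI (I : Submodule F V → Prop) (α : Fin m → ℕ) (U : Submodule F V) : Type _ :=
  {W : ℕ → Submodule F V // Monotone W ∧ W 0 = U ∧
    ∀ k, I (W k) ∧ finrank F (W k) = finrank F U + ps α k}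

instance [Finite F] [FiniteDimensional F V] (I : Submodule F V → Prop) (α : Fin m → ℕ)
    (U : Submodule F V) : Finite (FlI I α U) := by
  have := finite_submodule (F := F) (V := V)
  refine Finite.of_injective (fun W (k : Fin (m + 1)) => W.1 k) fun W W' h =>
    Subtype.ext (funext fun k => ?_)
  by_cases hk : k ≤ m
  · exact congrFun h ⟨k, by omega⟩
  have : ∀ W : FlI I α U, W.1 m = W.1 k := fun W =>
    Submodule.eq_of_le_of_finrank_eq (W.2.1 (by omega))
      (by rw [(W.2.2.2 _).2, (W.2.2.2 _).2, ps_of_le _ le_rfl, ps_of_le _ (by omega)])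
  rw [← this, ← this]
  exact congrFun h (Fin.last m)

/-- number of such flags -/
noncomputable def nfl (I : Submodule F V → Prop) (α : Fin m → ℕ) (U : Submodule F V) : ℕ :=
  Nat.card (FlI I α U)

theorem nfl_zero [FiniteDimensional F V] {I : Submodule F V → Prop} (α : Fin 0 → ℕ)
    {U : Submodule F V} (h : I U) : nfl I α U = 1 := by
  refine Nat.card_eq_one_iff_exists.2 ⟨⟨fun _ => U, monotone_const, rfl, fun k => ⟨h, by simp [ps]⟩⟩,
    fun W => Subtype.ext (funext fun k => ?_)⟩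
  refine (Submodule.eq_of_le_of_finrank_eq (W.2.2.1.ge.trans (W.2.1 k.zero_le)) ?_).symm
  rw [(W.2.2.2 k).2]; simp [ps]

theorem nfl_succ [Finite F] [FiniteDimensional F V]
    {I : Submodule F V → Prop} (α : Fin (m + 1) → ℕ) {U : Submodule F V} (h : I U)
    (s : Finset (Submodule F V))
    (hs : ∀ W, W ∈ s ↔ U ≤ W ∧ I W ∧ finrank F W = finrank F U + α 0) :
    nfl I α U = ∑ W ∈ s, nfl I (Fin.tail α) W := by
  have := finite_submodule (F := F) (V := V)
  let _ := Fintype.ofFinite {W // U ≤ W ∧ I W ∧ finrank F W = finrank F U + α 0}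
  rw [sum_subtype _ hs (F := inferInstance)]
  simp only [nfl]
  rw [← Nat.card_sigma]
  refine (Nat.card_eq_of_bijective (fun x => (⟨fun k => Nat.casesOn k U x.2.1,
    monotone_nat_of_le_succ fun k => match k with
      | 0 => x.1.2.1.trans x.2.2.2.1.ge
      | k + 1 => x.2.2.1 k.le_succ, rfl, fun k => match k with
      | 0 => ⟨h, by simp [ps_zero]⟩
      | k + 1 => ⟨(x.2.2.2.2 k).1, ((x.2.2.2.2 k).2).trans
          (by rw [x.1.2.2.2, ps_succ', add_assoc])⟩⟩ : FlI I α U)) ⟨?_, ?_⟩).symm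
  · rintro ⟨⟨W, hW⟩, X, hX⟩ ⟨⟨W', hW'⟩, X', hX'⟩ e
    obtain rfl : X = X' := funext fun k => congrFun (congrArg Subtype.val e) (k + 1)
    obtain rfl : W = W' := hX.2.1.symm.trans hX'.2.1
    rfl
  · rintro ⟨W, h1, rfl, h3⟩
    have h4 : finrank F (W 1) = finrank F (W 0) + α 0 := by rw [(h3 1).2, ps_succ', ps_zero, add_zero]
    exact ⟨⟨⟨W 1, h1 zero_le_one, (h3 1).1, h4⟩, fun k => W (k + 1),
      fun _ _ h => h1 (Nat.succ_le_succ h), rfl, fun k => ⟨(h3 _).1, by
        rw [(h3 _).2, h4, ps_succ', add_assoc]⟩⟩, Subtype.ext (funext fun k => by cases k <;> rfl)⟩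

theorem nfix_eq_nfl [FiniteDimensional F V] (α : Fin m → ℕ) (g : V ≃ₗ[F] V) :
    nfix α g = nfl (fun U : Submodule F V => ∀ x ∈ U, g.toLinearMap x ∈ U) α ⊥ := by
  refine Nat.card_congr ⟨fun U => ⟨U.1.1, U.1.2.1, U.1.eq_bot, fun k => ⟨fun x hx => ?_, by
    rw [U.1.2.2, finrank_bot, zero_add]⟩⟩, fun W => ⟨⟨W.1, W.2.1, fun k => by
    rw [(W.2.2.2 k).2, finrank_bot, zero_add]⟩, Subtype.ext (funext fun k => ?_)⟩,
    fun _ => rfl, fun _ => rfl⟩
  · exact (congrFun (congrArg Subtype.val U.2) k).le ⟨x, hx, rfl⟩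
  · exact Submodule.eq_of_le_of_finrank_eq (Submodule.map_le_iff_le_comap.2 (W.2.2.2 k).1)
      (LinearEquiv.finrank_map_eq _ _)

theorem finrank_map_mkQ [FiniteDimensional F V] {U W : Submodule F V} (h : U ≤ W) :
    finrank F (W.map U.mkQ) + finrank F U = finrank F W := by
  have := (U.mkQ.domRestrict W).finrank_range_add_finrank_ker
  rwa [LinearMap.range_domRestrict, LinearMap.ker_domRestrict, Submodule.ker_mkQ,
    (Submodule.comapSubtypeEquivOfLe h).finrank_eq] at this

theorem card_ge_sub [FiniteDimensional F V] (U : Submodule F V) (k : ℕ) :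
    Nat.card {W : Submodule F V // U ≤ W ∧ finrank F W = finrank F U + k} = gb F (V ⧸ U) k := by
  refine Nat.card_congr ⟨fun W => ⟨W.1.map U.mkQ, ?_⟩, fun A => ⟨A.1.comap U.mkQ,
    Submodule.le_comap_mkQ _ _, ?_⟩, fun W => Subtype.ext ?_, fun A => Subtype.ext ?_⟩
  · have := finrank_map_mkQ W.2.1
    have := W.2.2
    omega
  · rw [← finrank_map_mkQ (Submodule.le_comap_mkQ U A.1),
      Submodule.map_comap_eq_self (by simp), A.2, add_comm]
  · simpa [Submodule.comap_map_mkQ] using W.2.1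
  · exact Submodule.map_comap_eq_self (by simp)

theorem nfl_mul_qf [Fintype F] [FiniteDimensional F V] (d : ℕ) (α : Fin m → ℕ) (U : Submodule F V)
    (h : finrank F V = finrank F U + (∑ i, α i + d)) :
    nfl (fun _ => True) α U * (∏ i, qf (Fintype.card F) (α i)) * qf (Fintype.card F) d =
      qf (Fintype.card F) (∑ i, α i + d) := by
  classical
  have := finite_submodule (F := F) (V := V)
  have := Fintype.ofFinite (Submodule F V)
  induction m generalizing U with
  | zero => simp [nfl_zero]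
  | succ m ih =>
    rw [Fin.sum_univ_succ] at h ⊢
    have h1 : ∀ W ∈ univ.filter (fun W => U ≤ W ∧ finrank F W = finrank F U + α 0),
        nfl (fun _ => True) (Fin.tail α) W * ((∏ i : Fin m, qf (Fintype.card F) (α i.succ)) *
          qf (Fintype.card F) d) = qf (Fintype.card F) (∑ i : Fin m, α i.succ + d) := fun W hW =>
      (mul_assoc _ _ _).symm.trans (ih (Fin.tail α) W (by
        have := (mem_filter.1 hW).2.2
        simp only [Fin.tail]; omega))
    rw [nfl_succ _ trivial (univ.filter (fun W => U ≤ W ∧ finrank F W = finrank F U + α 0))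
      (by simp), Fin.prod_univ_succ, mul_comm (qf _ _), ← mul_assoc, mul_right_comm,
      mul_assoc (∑ _ ∈ _, _), sum_mul, sum_congr rfl h1,
      sum_const, smul_eq_mul, mul_right_comm, add_assoc,
      ← gb_mul_qf_qf (F := F) (V := V ⧸ U) (k := α 0)
        (by have := U.finrank_quotient_add_finrank; omega),
      ← card_ge_sub, Nat.card_eq_fintype_card, Fintype.card_subtype]

/-- `q`-factorial -/
def Qf (q k : ℕ) : ℕ := ∏ j ∈ range k, gs q (j + 1)

theorem Qf_mul {q : ℕ} (hq : 1 ≤ q) (k : ℕ) : Qf q k * (q - 1) ^ k = qf q k := by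
  induction k with
  | zero => rfl
  | succ k ih => rw [Qf, prod_range_succ, qf_succ, ← ih, ← gs_mul hq, Qf]; ring

theorem Qf_pos (q k : ℕ) : 0 < Qf q k :=
  prod_pos fun j _ => by rw [gs, sum_range_succ']; simp

theorem nfix_one_mul [Fintype F] [FiniteDimensional F V] {α : Fin m → ℕ}
    (h : ∑ i, α i = finrank F V) :
    nfix α (1 : V ≃ₗ[F] V) * ∏ i, Qf (Fintype.card F) (α i) = Qf (Fintype.card F) (finrank F V) := by
  have hq : 1 < Fintype.card F := Fintype.one_lt_card
  have := nfl_mul_qf 0 α (⊥ : Submodule F V) (by simp [h])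
  rw [qf_zero, mul_one, add_zero, h] at this
  simp only [← Qf_mul hq.le] at this
  rw [prod_mul_distrib, prod_pow_eq_pow_sum, h, ← mul_assoc] at this
  rw [nfix_eq_nfl, show (fun U : Submodule F V => ∀ x ∈ U, (1 : V ≃ₗ[F] V).toLinearMap x ∈ U) =
    fun _ => True from funext fun U => eq_true fun _ h => h]
  exact Nat.eq_of_mul_eq_mul_right (pow_pos (by omega) _) this

/-! ### Jacobi–Trudi -/

section JT
open MvPolynomial

/-- monomial -/
noncomputable def mon (β : Fin n → ℕ) : MvPolynomial (Fin n) ℤ := ∏ j, X j ^ β j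

theorem mon_eq (β : Fin n → ℕ) : mon β = monomial (Finsupp.equivFunOnFinite.symm β) 1 := by
  rw [mon, prod_X_pow]; congr 2; ext i; simp

/-- coefficient -/
noncomputable def cf (β : Fin n → ℕ) (P : MvPolynomial (Fin n) ℤ) : ℤ :=
  coeff (Finsupp.equivFunOnFinite.symm β) P

theorem cf_mon (β γ : Fin n → ℕ) : cf β (mon γ) = if γ = β then 1 else 0 := by
  simp [cf, mon_eq, coeff_monomial]

theorem cf_mon_mul (β γ : Fin n → ℕ) (P : MvPolynomial (Fin n) ℤ) :
    cf β (mon γ * P) = if ∀ i, γ i ≤ β i then cf (fun i => β i - γ i) P else 0 := by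
  rw [cf, mon_eq, coeff_monomial_mul', one_mul]
  exact if_congr Iff.rfl (by rw [cf]; congr 1; ext; simp) rfl

/-- complete homogeneous symmetric polynomial -/
noncomputable def hh (n k : ℕ) : MvPolynomial (Fin n) ℤ := ∑ l ∈ piAntidiag univ k, mon l

theorem hh_zero : hh n 0 = 1 := by simp [hh, mon]

theorem cf_prod_hh (α β : Fin n → ℕ) : cf β (∏ i, hh n (α i)) = Nat.card (Tab α β) := by
  simp only [hh]
  rw [prod_univ_sum, cf, coeff_sum]
  have : ∀ M : Fin n → Fin n → ℕ, ∏ i, mon (M i) = mon fun j => ∑ i, M i j := fun M => by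
    simp only [mon]; rw [prod_comm]; simp only [prod_pow_eq_pow_sum]
  simp only [this]
  refine (sum_congr rfl fun M _ => cf_mon _ _).trans ?_
  rw [sum_boole, ← Nat.card_eq_finsetCard]
  congr 1
  exact Nat.card_congr (Equiv.subtypeEquivRight fun M => by simp [Tab, funext_iff])

theorem hh_eq_coeff (k : ℕ) : hh n k =
    PowerSeries.coeff k (∏ l, PowerSeries.mk fun k => (X l : MvPolynomial (Fin n) ℤ) ^ k) := by
  rw [PowerSeries.coeff_prod]
  refine sum_bij' (fun l _ => Finsupp.equivFunOnFinite.symm l) (fun l _ => l) ?_ ?_ ?_ ?_ ?_ <;>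
    simp [mon]

/-- Jacobi–Trudi matrix -/
noncomputable def Hm (lam : Fin n → ℕ) : Matrix (Fin n) (Fin n) (MvPolynomial (Fin n) ℤ) :=
  .of fun i k => if k.val ≤ lam i then hh n (lam i - k) else 0

/-- alternant matrix -/
noncomputable def Am (lam : Fin n → ℕ) : Matrix (Fin n) (Fin n) (MvPolynomial (Fin n) ℤ) :=
  .of fun i j => X j ^ lam i

/-- elementary matrix -/
noncomputable def Em (n : ℕ) : Matrix (Fin n) (Fin n) (MvPolynomial (Fin n) ℤ) :=
  .of fun k j => Polynomial.coeff (∏ l ∈ univ.erase j, (1 - Polynomial.C (X l) * Polynomial.X)) k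

theorem Hm_mul_Em (lam : Fin n → ℕ) : Hm lam * Em n = Am lam := by
  ext1 i j
  set E : Polynomial (MvPolynomial (Fin n) ℤ) :=
    ∏ l ∈ univ.erase j, (1 - Polynomial.C (X l) * Polynomial.X) with hE
  have h1 : (∏ l, PowerSeries.mk fun k => (X l : MvPolynomial (Fin n) ℤ) ^ k) * (E : PowerSeries _) =
      PowerSeries.mk fun k => X j ^ k := by
    rw [← mul_prod_erase _ _ (mem_univ j), hE, ← Polynomial.coeToPowerSeries.ringHom_apply, map_prod,
      mul_assoc, ← prod_mul_distrib, prod_eq_one, mul_one]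
    intro l _
    ext1 k
    rcases k with _ | k <;>
      simp [mul_sub, ← mul_assoc, PowerSeries.coeff_succ_mul_X, pow_succ, PowerSeries.coeff_one]
  have h2 : E.natDegree < n := by
    refine lt_of_le_of_lt (Polynomial.natDegree_prod_le _ _) ?_
    refine lt_of_le_of_lt (sum_le_card_nsmul _ _ 1 fun l _ => by compute_degree) ?_
    have := j.pos
    simp only [card_erase_of_mem (mem_univ j), card_univ, Fintype.card_fin, smul_eq_mul]; omega
  have h3 := congrArg (PowerSeries.coeff (lam i)) h1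
  rw [PowerSeries.coeff_mk, mul_comm, PowerSeries.coeff_mul,
    Finset.Nat.sum_antidiagonal_eq_sum_range_succ_mk] at h3
  simp only [← hh_eq_coeff, Polynomial.coeff_coe] at h3
  simp only [Matrix.mul_apply, Hm, Em, Am, Matrix.of_apply, ← hE, ← h3]
  rw [Fin.sum_univ_eq_sum_range (fun k => (if k ≤ lam i then hh n (lam i - k) else 0) * E.coeff k)]
  simp only [ite_mul, zero_mul, mul_comm (E.coeff _)]
  rw [← sum_filter]
  refine sum_subset (fun k hk => by simp at hk ⊢; omega) fun k h1 h2' => ?_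
  rw [Polynomial.coeff_eq_zero_of_natDegree_lt (by simp at h1 h2'; omega), mul_zero]

theorem det_Am (lam : Fin n → ℕ) :
    (Am lam).det = ∑ σ : Equiv.Perm (Fin n), C (σ.sign : ℤ) * mon (lam ∘ σ) := by
  simp [Matrix.det_apply', Am, mon]

theorem det_Hm (lam : Fin n → ℕ) : (Hm lam).det = ∑ κ : Equiv.Perm (Fin n),
    if ∀ i, (κ i).val ≤ lam i then C (κ.sign : ℤ) * ∏ i, hh n (lam i - κ i) else 0 := by
  rw [← Matrix.det_transpose, Matrix.det_apply']
  refine sum_congr rfl fun κ _ => ?_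
  simp [Hm, Fintype.prod_ite_zero]

theorem det_Am_eq (lam : Fin n → ℕ) : (Am lam).det = (Am Fin.val).det * (Hm lam).det := by
  rw [← Hm_mul_Em, ← Hm_mul_Em, Matrix.det_mul, Matrix.det_mul,
    Matrix.det_of_isLowerTriangular (Hm Fin.val) fun i j h => if_neg (not_le.2 h), mul_comm]
  simp [Hm, hh_zero]

theorem jt_orth {lam lam' : Fin n → ℕ} (h : StrictMono lam) (h' : StrictMono lam') :
    (∑ κ : Equiv.Perm (Fin n), ∑ κ' : Equiv.Perm (Fin n),
      if (∀ i, (κ i).val ≤ lam i) ∧ ∀ i, (κ' i).val ≤ lam' i then (κ.sign : ℤ) * κ'.sign *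
        Nat.card (Tab (fun i => lam i - κ i) fun i => lam' i - κ' i) else 0) =
      if lam = lam' then 1 else 0 := by
  have h1 := congrArg (cf lam') (det_Am_eq lam)
  have h2 : cf lam' (Am lam).det = if lam = lam' then 1 else 0 := by
    rw [det_Am, cf, coeff_sum, sum_eq_single 1 _ (by simp)]
    · simpa [cf] using cf_mon lam' lam
    · intro σ _ hσ
      rw [coeff_C_mul, ← cf, cf_mon, if_neg, mul_zero]
      intro e
      have : lam = lam' := (h.range_inj h').1 (by rw [← e, σ.surjective.range_comp])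
      exact hσ (Equiv.ext fun i => h.injective ((congrFun e i).trans (congrFun this i).symm))
  rw [← h2, h1, det_Am, det_Hm, sum_mul_sum, cf, coeff_sum, sum_comm]
  refine sum_congr rfl fun κ' _ => ?_
  rw [coeff_sum]
  refine sum_congr rfl fun κ _ => ?_
  by_cases hκ : ∀ i, (κ i).val ≤ lam i
  · rw [if_pos hκ, mul_mul_mul_comm, ← C_mul, coeff_C_mul, ← cf, cf_mon_mul, cf_prod_hh]
    simp [hκ, mul_comm]
  · rw [if_neg hκ, if_neg fun h => hκ h.1, mul_zero, coeff_zero]

end JT

/-! ### unipotent characters -/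

/-- the alternating sum of flag characters -/
noncomputable def uch (ν : Fin n → ℕ) (g : V ≃ₗ[F] V) : ℂ := ∑ κ : Equiv.Perm (Fin n),
  if ∀ i, (κ i).val ≤ ν i + i then ((κ.sign : ℤ) : ℂ) * nfix (fun i => ν i + i - κ i) g else 0

theorem sum_sub_perm {ν : Fin n → ℕ} {κ : Equiv.Perm (Fin n)} (h : ∀ i, (κ i).val ≤ ν i + i) :
    ∑ i, (ν i + i - κ i) = ∑ i, ν i := by
  rw [sum_tsub_distrib _ fun i _ => h i, sum_add_distrib, Equiv.sum_comp κ Fin.val,
    Nat.add_sub_cancel]

theorem unip_eq_uch [Finite F] {ν : Fin n → ℕ} (h : ∑ i, ν i = n) (g : GL (Fin n) F) :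
    Cfsg.unipotentCharacterGL n F ν g = uch ν (H23.glE _ F g) :=
  sum_congr rfl fun _ _ => if_ctx_congr Iff.rfl
    (fun hκ => by rw [fpc_parabolic ((sum_sub_perm hκ).trans h)]) fun _ => rfl

theorem isGen_uch [Finite F] [FiniteDimensional F V] (ν : Fin n → ℕ) {G : Type*} [Group G]
    (ρ : G →* (V ≃ₗ[F] V)) : Cfsg.IsGeneralizedCharacter G fun g => uch ν (ρ g) := by
  have : (fun g => uch ν (ρ g)) = ∑ κ : Equiv.Perm (Fin n), if ∀ i, (κ i).val ≤ ν i + i then
      ((κ.sign : ℤ) : ℂ) • fun g => (nfix (fun i => ν i + i - κ i) (ρ g) : ℂ) else 0 := by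
    funext g; simp [uch, ite_apply]
  rw [this]
  refine H17.isGen_sum _ _ fun κ _ => ?_
  split_ifs
  · exact H17.Cfsg.IsGeneralizedCharacter.intCast_smul
      (H17.Cfsg.IsCharacter.isGen (isCharacter_nfix _ ρ)) _
  · exact H17.isGen_zero

theorem strictMono_add {ν : Fin n → ℕ} (h : Monotone ν) : StrictMono fun i => ν i + i.val :=
  fun _ _ hij => add_lt_add_of_le_of_lt (h hij.le) hij

theorem inner_uch [Finite F] [FiniteDimensional F V] {ν ν' : Fin n → ℕ} (h : Monotone ν)
    (h' : Monotone ν') (hs : ∑ i, ν i = finrank F V) (hs' : ∑ i, ν' i = finrank F V) {G : Type*}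
    [Group G] [Fintype G] (ρ : G →* (V ≃ₗ[F] V))
    (hρ : ∀ e : V ≃ₗ[F] V, LinearMap.det e.toLinearMap = 1 → e ∈ ρ.range) :
    Cfsg.classInner (fun g => uch ν (ρ g)) (fun g => uch ν' (ρ g)) = if ν = ν' then 1 else 0 := by
  have h1 := congrArg (Int.cast : ℤ → ℂ) (jt_orth (strictMono_add h) (strictMono_add h'))
  have h2 : ((fun i => ν i + i.val) = fun i => ν' i + i.val) ↔ ν = ν' := by simp [funext_iff]
  simp only [h2] at h1
  push_cast at h1
  rw [← h1, Cfsg.classInner, inv_mul_eq_iff_eq_mul₀ H17.card_ne_zero_complex]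
  simp only [uch, map_sum, sum_mul_sum]
  simp only [mul_sum]
  rw [sum_comm]
  refine sum_congr rfl fun κ _ => ?_
  rw [sum_comm]
  refine sum_congr rfl fun κ' _ => ?_
  by_cases hκ : ∀ i, (κ i).val ≤ ν i + i
  swap
  · simp only [hκ, false_and, if_false, zero_mul, mul_zero, sum_const_zero]
  by_cases hκ' : ∀ i, (κ' i).val ≤ ν' i + i
  swap
  · simp only [hκ', and_false, if_false, map_zero, mul_zero, sum_const_zero]
  have := congrArg (Nat.cast : ℕ → ℂ)
    (sum_nfix ((sum_sub_perm hκ).trans hs) ((sum_sub_perm hκ').trans hs') ρ hρ)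
  push_cast at this
  simp only [if_pos hκ, if_pos hκ', if_pos (And.intro hκ hκ'), map_mul, map_intCast, map_natCast,
    mul_mul_mul_comm _ (nfix _ _ : ℂ), ← mul_sum, this]
  ring

theorem gs_add (q a b : ℕ) : gs q (a + b) = gs q a + q ^ a * gs q b := by
  simp [gs, sum_range_add, mul_sum, pow_add]

theorem Qf_mul_prod (q : ℕ) {a k : ℕ} (h : k ≤ a) :
    (Qf q (a - k) : ℂ) * ∏ j ∈ range k, ((gs q a : ℂ) - gs q j) = q ^ k.choose 2 * Qf q a := by
  induction k with
  | zero => simp
  | succ k ih =>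
    obtain ⟨d, rfl⟩ := Nat.exists_eq_add_of_le h
    have ih := ih (by omega)
    rw [show k + 1 + d - k = d + 1 by omega, Qf, prod_range_succ, ← Qf] at ih
    rw [prod_range_succ, Nat.add_sub_cancel_left, Nat.choose_succ_succ', Nat.choose_one_right,
      pow_add, mul_assoc, ← ih, show k + 1 + d = k + (d + 1) by omega, gs_add]
    push_cast; ring

theorem sum_choose_two (n : ℕ) : ∑ k : Fin n, k.val.choose 2 = n * (n - 1) * (n - 2) / 6 := by
  have : ∑ k : Fin n, k.val.choose 2 = n.choose 3 := by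
    induction n with
    | zero => rfl
    | succ n ih => rw [Fin.sum_univ_castSucc, Nat.choose_succ_succ', add_comm]; simp [ih]
  rw [this, Nat.choose_eq_descFactorial_div_factorial]
  simp only [Nat.descFactorial, Nat.factorial, Nat.sub_zero]
  congr 1; ring

theorem uch_one_mul [Fintype F] [FiniteDimensional F V] {ν : Fin n → ℕ}
    (hs : ∑ i, ν i = finrank F V) :
    uch ν (1 : V ≃ₗ[F] V) * (Fintype.card F : ℂ) ^ (n * (n - 1) * (n - 2) / 6) *
      ∏ i, (Qf (Fintype.card F) (ν i + i) : ℂ) = Qf (Fintype.card F) (finrank F V) *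
      ∏ i : Fin n, ∏ j ∈ Ioi i,
        ((gs (Fintype.card F) (ν j + j) : ℂ) - gs (Fintype.card F) (ν i + i)) := by
  set q := Fintype.card F
  rw [← Matrix.det_vandermonde, Matrix.det_eval_matrixOfPolynomials_eq_det_vandermonde _
    (fun k => ∏ j ∈ range k, (Polynomial.X - Polynomial.C (gs q j : ℂ)))
    (fun k => by
      rw [Polynomial.natDegree_prod_of_monic _ _ fun _ _ => Polynomial.monic_X_sub_C _]
      simp [-map_natCast])
    (fun k => Polynomial.monic_prod_of_monic _ _ fun _ _ => Polynomial.monic_X_sub_C _),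
    ← Matrix.det_transpose, Matrix.det_apply', uch, sum_mul, sum_mul, mul_sum]
  refine sum_congr rfl fun κ _ => ?_
  simp only [Matrix.transpose_apply, Matrix.of_apply, Polynomial.eval_prod, Polynomial.eval_sub,
    Polynomial.eval_X, Polynomial.eval_C]
  split_ifs with hκ
  · have h1 := congrArg (Nat.cast : ℕ → ℂ) (nfix_one_mul ((sum_sub_perm hκ).trans hs))
    have h2 := prod_congr (rfl : (univ : Finset (Fin n)) = _) fun i _ => Qf_mul_prod q (hκ i)
    rw [prod_mul_distrib, prod_mul_distrib, prod_pow_eq_pow_sum,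
      Equiv.sum_comp κ fun k => k.val.choose 2, sum_choose_two] at h2
    push_cast at h1
    rw [← h1, mul_assoc, ← h2]; ring
  · obtain ⟨i, hi⟩ := not_forall.1 hκ
    rw [prod_eq_zero (f := fun i => ∏ j ∈ range (κ i), ((gs q (ν i + i) : ℂ) - gs q j)) (mem_univ i)
      (prod_eq_zero (mem_range.2 (not_le.1 hi)) (sub_self _))]
    simp

theorem gs_strictMono {q : ℕ} (hq : 0 < q) : StrictMono (gs q) :=
  strictMono_nat_of_lt_succ fun k => by
    rw [gs, gs, sum_range_succ]; exact Nat.lt_add_of_pos_right (pow_pos hq _)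

theorem uch_one_re [Fintype F] [FiniteDimensional F V] {ν : Fin n → ℕ} (h : Monotone ν)
    (hs : ∑ i, ν i = finrank F V) : 0 ≤ (uch ν (1 : V ≃ₗ[F] V)).re := by
  have h1 := uch_one_mul hs
  set q := Fintype.card F
  have hq : 0 < q := Fintype.card_pos
  have h2 : (0 : ℝ) < (q : ℝ) ^ (n * (n - 1) * (n - 2) / 6) * ∏ i, (Qf q (ν i + i) : ℝ) :=
    mul_pos (by positivity) (prod_pos fun i _ => Nat.cast_pos.2 (Qf_pos _ _))
  have h3 : (0 : ℝ) ≤ Qf q (finrank F V) *
      ∏ i : Fin n, ∏ j ∈ Ioi i, ((gs q (ν j + j) : ℝ) - gs q (ν i + i)) :=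
    mul_nonneg (by positivity) (prod_nonneg fun i _ => prod_nonneg fun j hj => sub_nonneg.2
      (Nat.cast_le.2 ((gs_strictMono hq).monotone (strictMono_add h (mem_Ioi.1 hj)).le)))
  rw [← Complex.ofReal_re (_ * _), Complex.ofReal_mul] at h3
  push_cast at h3
  rw [← h1, mul_assoc] at h3
  refine nonneg_of_mul_nonneg_left ?_ h2
  rw [← Complex.re_mul_ofReal]
  push_cast
  exact h3

theorem isIrr_uch [Finite F] [FiniteDimensional F V] {ν : Fin n → ℕ} (h : Monotone ν)
    (hs : ∑ i, ν i = finrank F V) {G : Type*} [Group G] [Finite G] (ρ : G →* (V ≃ₗ[F] V))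
    (hρ : ∀ e : V ≃ₗ[F] V, LinearMap.det e.toLinearMap = 1 → e ∈ ρ.range) :
    Cfsg.IsIrrCharacter G fun g => uch ν (ρ g) := by
  have := Fintype.ofFinite G
  have := Fintype.ofFinite F
  exact H17.Cfsg.IsGeneralizedCharacter.isIrr_of_norm_one (isGen_uch ν ρ)
    ((inner_uch h h hs hs ρ hρ).trans (if_pos rfl)) (by rw [map_one]; exact uch_one_re h hs)

end H16
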