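import Cfsg.Agent.H16.LA12

/-! Values of the Steinberg character of `GL_n` at semisimple elements. -/

namespace H16
open Module Finset

universe u v
variable {F : Type u} [Field F] {V : Type*} [AddCommGroup V] [Module F V] {m n : ℕ}

/-- the composition attached to a permutation -/
def stc (κ : Equiv.Perm (Fin n)) (a : ℕ) (i : Fin n) : ℕ :=
  1 + i - κ i + if (κ i).val = 0 then a else 0

/-- the alternating sum -/
noncomputable def stS (I : Submodule F V → Prop) (n a : ℕ) (U : Submodule F V) : ℤ :=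
  ∑ κ : Equiv.Perm (Fin n), if ∀ i, (κ i).val ≤ 1 + i then (κ.sign : ℤ) * nfl I (stc κ a) U else 0

open Classical in
theorem nfl_cons [Finite F] [FiniteDimensional F V] [Fintype (Submodule F V)]
    {I : Submodule F V → Prop} (b : ℕ) (α : Fin m → ℕ) {U : Submodule F V} (h : I U) :
    (nfl I (Fin.cons b α) U : ℤ) =
      ∑ W, if U ≤ W ∧ I W ∧ finrank F W = finrank F U + b then (nfl I α W : ℤ) else 0 := by
  rw [nfl_succ _ h (univ.filter fun W => U ≤ W ∧ I W ∧ finrank F W = finrank F U + b) (by simp),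
    sum_filter]
  simp

theorem val_swap01 (x : Fin (n + 1)) : (Equiv.swap (0 : Fin (n + 2)) (Fin.succ 0) x.succ).val =
    if x.val = 0 then 0 else x.val + 1 := by
  induction x using Fin.cases with
  | zero => simp
  | succ x => rw [Equiv.swap_apply_of_ne_of_ne (Fin.succ_ne_zero _) (by simp [Fin.ext_iff])]; simp

open Classical in
theorem stS_succ [Finite F] [FiniteDimensional F V] [Fintype (Submodule F V)]
    {I : Submodule F V → Prop} (n a : ℕ) {U : Submodule F V} (h : I U) :
    stS I (n + 2) a U = (∑ W, if U ≤ W ∧ I W ∧ finrank F W = finrank F U + (1 + a) then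
      stS I (n + 1) 0 W else 0) - stS I (n + 1) (a + 1) U := by
  rw [stS, ← Equiv.sum_comp Equiv.Perm.decomposeFin.symm, Fintype.sum_prod_type, Fin.sum_univ_succ,
    Fin.sum_univ_succ, sum_eq_zero (s := (univ : Finset (Fin n))), add_zero, sub_eq_add_neg]
  · congr 1
    · have : ∀ W, (if U ≤ W ∧ I W ∧ finrank F W = finrank F U + (1 + a) then
          stS I (n + 1) 0 W else 0) = ∑ e : Equiv.Perm (Fin (n + 1)),
          if ∀ i, (e i).val ≤ 1 + i then (e.sign : ℤ) * (if U ≤ W ∧ I W ∧
            finrank F W = finrank F U + (1 + a) then (nfl I (stc e 0) W : ℤ) else 0) else 0 :=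
        fun W => by split_ifs <;> simp [stS]
      simp only [this]
      rw [sum_comm]
      refine sum_congr rfl fun e _ => ?_
      have h1 : stc (Equiv.Perm.decomposeFin.symm (0, e)) a = Fin.cons (1 + a) (stc e 0) := by
        funext i
        induction i using Fin.cases with
        | zero => simp [stc]
        | succ i => simp [stc]; omega
      rw [h1, nfl_cons _ _ h, mul_sum, sum_ite_irrel]
      simp [Fin.forall_fin_succ (n := n + 1), ← add_assoc]
    · rw [stS, ← sum_neg_distrib]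
      refine sum_congr rfl fun e _ => ?_
      have h1 : stc (Equiv.Perm.decomposeFin.symm (Fin.succ 0, e)) a =
          Fin.cons 0 (stc e (a + 1)) := by
        funext i
        induction i using Fin.cases with
        | zero => simp [stc]
        | succ i =>
          simp only [stc, Equiv.Perm.decomposeFin_symm_apply_succ, val_swap01, Fin.cons_succ,
            Fin.val_succ]
          by_cases h0 : (e i).val = 0 <;> simp [h0] <;> omega
      have h2 : (∀ i, (Equiv.Perm.decomposeFin.symm (Fin.succ 0, e) i).val ≤ 1 + i) ↔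
          ∀ i, (e i).val ≤ 1 + i := by
        rw [Fin.forall_fin_succ]
        simp only [Equiv.Perm.decomposeFin_symm_apply_succ, val_swap01, Fin.val_succ]
        refine (and_iff_right (by simp)).trans (forall_congr' fun i => ?_)
        split_ifs <;> omega
      rw [h1, nfl_cons _ _ h, sum_eq_single U _ (by simp), if_congr h2 rfl rfl]
      · simp [h, neg_ite]
      · exact fun W _ hW => if_neg fun h => hW (Submodule.eq_of_le_of_finrank_eq h.1 h.2.2.symm).symm
  · refine fun p _ => sum_eq_zero fun e _ => if_neg fun h => ?_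
    have := h 0
    simp at this

open Classical in
theorem stS_eq [Finite F] [FiniteDimensional F V] [Fintype (Submodule F V)]
    {I : Submodule F V → Prop} (hI : I ⊤) (mb : Submodule F V → ℤ) (h1 : mb ⊤ = 1)
    (h2 : ∀ U, I U → U ≠ ⊤ → (∑ W, if U ≤ W ∧ I W then mb W else 0) = 0) (n : ℕ) :
    ∀ (a : ℕ) (U : Submodule F V), I U → finrank F U + (n + 1) + a = finrank F V →
      stS I (n + 1) a U =
        (-1) ^ n * ∑ W, if U ≤ W ∧ I W ∧ finrank F U + a < finrank F W then mb W else 0 := by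
  induction n with
  | zero =>
    intro a U hU h
    have : stc (1 : Equiv.Perm (Fin 1)) a = Fin.cons (1 + a) ![] := by
      funext i; fin_cases i; simp [stc]
    show stS I 1 a U = _
    rw [stS, Fintype.sum_unique, Subsingleton.elim default 1, this, nfl_cons _ _ hU,
      sum_eq_single ⊤ _ (by simp), sum_eq_single ⊤ _ (by simp), nfl_zero _ hI]
    · simp [hI, h1, ← h]; omega
    · refine fun W _ hW => if_neg fun h' => hW (Submodule.eq_top_of_finrank_eq ?_)
      have := W.finrank_le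
      omega
    · exact fun W _ hW => if_neg fun h' => hW (Submodule.eq_top_of_finrank_eq (by omega))
  | succ n ih =>
    intro a U hU h
    have : ∀ W, I W → finrank F W = finrank F U + (1 + a) → stS I (n + 1) 0 W = (-1) ^ (n + 1) * mb W := by
      intro W hW hd
      have h3 := h2 W hW (by rintro rfl; rw [finrank_top] at hd; omega)
      rw [← add_sum_erase _ _ (mem_univ W), if_pos ⟨le_rfl, hW⟩] at h3
      rw [ih 0 W hW (by omega), ← add_sum_erase _ _ (mem_univ W), if_neg (by simp), zero_add,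
        eq_neg_of_add_eq_zero_left h3, pow_succ, mul_assoc, neg_one_mul, neg_neg]
      congr 1
      refine sum_congr rfl fun X hX => if_congr ⟨fun h => ⟨h.1, h.2.1⟩, fun h => ⟨h.1, h.2, ?_⟩⟩ rfl rfl
      exact Submodule.finrank_lt_finrank_of_lt (h.1.lt_of_ne (ne_of_mem_erase hX).symm)
    rw [stS_succ _ _ hU, ih _ _ hU (by omega), mul_sum, mul_sum, ← sum_sub_distrib]
    refine sum_congr rfl fun W _ => ?_
    by_cases h4 : U ≤ W ∧ I W
    · simp only [h4, true_and]
      split_ifs with h5 h6 h7 <;> first | omega | rw [this W h4.2 h5, mul_zero, sub_zero] | simp [pow_succ]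
    · rw [if_neg fun h => h4 ⟨h.1, h.2.1⟩, if_neg fun h => h4 ⟨h.1, h.2.1⟩,
        if_neg fun h => h4 ⟨h.1, h.2.1⟩]
      simp

open Classical in
theorem stS_bot [Finite F] [FiniteDimensional F V] [Fintype (Submodule F V)]
    {I : Submodule F V → Prop} (hI : I ⊤) (hI0 : I ⊥) (mb : Submodule F V → ℤ) (h1 : mb ⊤ = 1)
    (h2 : ∀ U, I U → U ≠ ⊤ → (∑ W, if U ≤ W ∧ I W then mb W else 0) = 0) :
    stS I (finrank F V) 0 ⊥ = (-1) ^ finrank F V * mb ⊥ := by
  rcases h : finrank F V with _ | n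
  · have : (⊥ : Submodule F V) = ⊤ := Submodule.eq_top_of_finrank_eq (by simp [h])
    simp [stS, nfl_zero _ hI, this, h1]
  have h3 := h2 ⊥ hI0 fun e => by
    have := finrank_top F V; rw [← e, finrank_bot] at this; omega
  rw [← add_sum_erase _ _ (mem_univ ⊥), if_pos ⟨le_rfl, hI0⟩] at h3
  rw [stS_eq hI mb h1 h2 n 0 ⊥ hI0 (by simp [h]), ← add_sum_erase _ _ (mem_univ ⊥),
    if_neg (by simp), zero_add, eq_neg_of_add_eq_zero_left h3, pow_succ, mul_assoc, neg_one_mul,
    neg_neg]
  congr 1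
  refine sum_congr rfl fun X hX => if_congr ⟨fun h => ⟨h.1, h.2.1⟩, fun h => ⟨h.1, h.2, ?_⟩⟩ rfl rfl
  exact Submodule.finrank_lt_finrank_of_lt (h.1.lt_of_ne (ne_of_mem_erase hX).symm)

theorem uch_one_eq [FiniteDimensional F V] (n : ℕ) (g : V ≃ₗ[F] V) :
    uch (fun _ : Fin n => 1) g = stS (fun U : Submodule F V => ∀ x ∈ U, g.toLinearMap x ∈ U) n 0 ⊥ := by
  have : ∀ κ : Equiv.Perm (Fin n), stc κ 0 = fun i => 1 + i.val - κ i := fun κ => by
    funext i; simp [stc]
  simp [uch, stS, nfix_eq_nfl, this]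

/-! ### the Möbius function of a semisimple module -/

open Polynomial

/-- invariant subspace -/
def Inv (f : End F V) (U : Submodule F V) : Prop := ∀ x ∈ U, f x ∈ U

theorem Inv.aeval {f : End F V} {U : Submodule F V} (h : Inv f U) (p : F[X]) {x : V} (hx : x ∈ U) :
    aeval f p x ∈ U := by
  induction p using Polynomial.induction_on' with
  | add p q hp hq => simpa using add_mem hp hq
  | monomial k a =>
    rw [aeval_monomial, Module.End.mul_apply, Module.algebraMap_end_apply]
    refine U.smul_mem _ ?_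
    induction k with
    | zero => exact hx
    | succ k ih => rw [pow_succ']; exact h _ ih

theorem Inv.inf {f : End F V} {U W : Submodule F V} (h : Inv f U) (h' : Inv f W) : Inv f (U ⊓ W) :=
  fun x hx => ⟨h x hx.1, h' x hx.2⟩

theorem Inv.sup {f : End F V} {U W : Submodule F V} (h : Inv f U) (h' : Inv f W) : Inv f (U ⊔ W) :=
  fun x hx => by
    obtain ⟨y, hy, z, hz, rfl⟩ := Submodule.mem_sup.1 hx
    rw [map_add]
    exact Submodule.add_mem_sup (h y hy) (h' z hz)

open Classical in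
/-- elementary divisors of an invariant subspace -/
noncomputable def edI (f : End F V) (U : Submodule F V) : Multiset F[X] :=
  if h : Inv f U then ed (f.restrict h) else 0

theorem edI_eq {f : End F V} {U : Submodule F V} (h : Inv f U) : edI f U = ed (f.restrict h) :=
  dif_pos h

theorem edI_sup [FiniteDimensional F V] {f : End F V} {U W : Submodule F V} (h : Inv f U)
    (h' : Inv f W) (hd : Disjoint U W) : edI f (U ⊔ W) = edI f U + edI f W := by
  rw [edI_eq h, edI_eq h', edI_eq (h.sup h'), ← ed_prodMap]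
  refine (sim_of_bijective ((Submodule.inclusion le_sup_left).coprod
    (Submodule.inclusion le_sup_right)) ?_ ?_ fun v => Subtype.ext (map_add f _ _).symm).ed_eq.symm
  · refine (injective_iff_map_eq_zero _).2 fun ⟨x, y⟩ hxy => ?_
    have : x.1 + y.1 = 0 := congrArg Subtype.val hxy
    have hx : x.1 = 0 := Submodule.disjoint_def.1 hd _ x.2
      (eq_neg_of_add_eq_zero_left this ▸ W.neg_mem y.2)
    rw [hx, zero_add] at this
    exact Prod.ext (Subtype.ext hx) (Subtype.ext this)
  · rintro ⟨x, hx⟩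
    obtain ⟨y, hy, z, hz, rfl⟩ := Submodule.mem_sup.1 hx
    exact ⟨(⟨y, hy⟩, ⟨z, hz⟩), rfl⟩

theorem edI_top [FiniteDimensional F V] (f : End F V) : edI f ⊤ = ed f := by
  rw [edI_eq (f := f) (U := ⊤) fun _ _ => trivial]
  exact (sim_of_bijective (Submodule.subtype ⊤) Subtype.val_injective (fun x => ⟨⟨x, trivial⟩, rfl⟩)
    fun _ => rfl).ed_eq

theorem edI_bot [FiniteDimensional F V] (f : End F V) : edI f ⊥ = 0 := by
  rw [edI_eq (f := f) (U := ⊥) fun x hx => by simp_all]
  exact (ed_eq_zero_iff _).2 (finrank_bot F V)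

theorem SS.exists_rel_compl [FiniteDimensional F V] {f : End F V} (hf : SS f) {U W : Submodule F V}
    (h : Inv f U) (h' : Inv f W) (hle : U ≤ W) : ∃ D, Inv f D ∧ Disjoint U D ∧ U ⊔ D = W := by
  obtain ⟨B, hB, hc⟩ := hf.exists_compl h
  exact ⟨B ⊓ W, Inv.inf hB h', hc.disjoint.mono_right inf_le_left, by
    rw [← sup_inf_assoc_of_le _ hle, hc.sup_eq_top, top_inf_eq]⟩

theorem aeval_restrict_coe {f : End F V} {U : Submodule F V} (h : Inv f U) (p : F[X]) (x : U) :
    (aeval (f.restrict h) p x : V) = aeval f p x :=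
  aeval_comm_of_comm (e := U.subtype) (fun _ => rfl) p x

open Classical in
/-- the Möbius function -/
noncomputable def mob (q : ℕ) (s : Multiset F[X]) : ℤ :=
  ∏ g ∈ s.toFinset, (-1) ^ s.count g * (q : ℤ) ^ (g.natDegree * (s.count g).choose 2)

open Classical in
theorem mob_cons (q : ℕ) (g : F[X]) (s : Multiset F[X]) :
    mob q (g ::ₘ s) = -(q : ℤ) ^ (g.natDegree * s.count g) * mob q s := by
  have : mob q s = ∏ p ∈ (g ::ₘ s).toFinset,
      (-1) ^ s.count p * (q : ℤ) ^ (p.natDegree * (s.count p).choose 2) :=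
    prod_subset (fun p => by simp +contextual) fun p _ hp => by
      rw [Multiset.count_eq_zero.2 (by simpa using hp)]; simp
  have hg : g ∈ (g ::ₘ s).toFinset := by simp
  rw [this, mob, ← mul_prod_erase _ _ hg, ← mul_prod_erase _ _ hg, ← mul_assoc]
  congr 1
  · rw [Multiset.count_cons_self, Nat.choose_succ_succ', Nat.choose_one_right]; ring
  · exact prod_congr rfl fun p hp => by rw [Multiset.count_cons_of_ne (ne_of_mem_erase hp)]

open Classical in
theorem kd_of_ss [FiniteDimensional F V] {f : End F V} (hf : SS f) {g : F[X]} (hm : g.Monic)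
    (hg : Irreducible g) : kd f g = g.natDegree * (ed f).count g := by
  rw [kd_eq_sum]
  have : ∀ s : Multiset F[X], (∀ p ∈ s, p.Monic ∧ Irreducible p) →
      (s.map (gd g)).sum = g.natDegree * s.count g := fun s => by
    induction s using Multiset.induction_on with
    | empty => simp
    | cons p s ih =>
      intro h
      rw [Multiset.map_cons, Multiset.sum_cons, ih fun p hp => h p (Multiset.mem_cons_of_mem hp)]
      by_cases e : g = p
      · rw [← e, gd_of_dvd dvd_rfl, Multiset.count_cons_self]; ring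
      · rw [Multiset.count_cons_of_ne e, gd_of_isCoprime (isCoprime_of_monic_irred hm hg
          (h p (by simp)).1 (h p (by simp)).2 e), zero_add]
  exact this _ fun p hp => ⟨(ed_isPP hp).monic, hf p hp⟩

/-- cyclic subspace -/
noncomputable def cy (f : End F V) (w : V) : Submodule F V :=
  LinearMap.range (LinearMap.applyₗ w ∘ₗ (aeval f).toLinearMap)

theorem mem_cy {f : End F V} {w x : V} : x ∈ cy f w ↔ ∃ p : F[X], aeval f p w = x := Iff.rfl

theorem inv_cy (f : End F V) (w : V) : Inv f (cy f w) := by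
  rintro _ ⟨p, rfl⟩
  exact ⟨X * p, by simp⟩

theorem card_compl_inv [Fintype F] [FiniteDimensional F V] {f : End F V} {A B C Y : Submodule F V}
    (hB : Inv f B) (hC : Inv f C) (hY : Inv f Y) (hAC : IsCompl A C)
    (hd : Disjoint Y B) (hs : Y ⊔ B = A) (hmax : ∀ X, Inv f X → ¬ X ≤ A → X ⊔ A = ⊤)
    {g : F[X]} (hg : Irreducible g) {v : V} (hv : v ∈ C) (hv0 : v ≠ 0) (hgv : aeval f g v = 0) :
    Nat.card {X // Inv f X ∧ ¬ X ≤ A ∧ X ⊓ A = Y} = Fintype.card F ^ kd (f.restrict hB) g := by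
  have hBA : B ≤ A := hs ▸ le_sup_right
  have hYA : Y ≤ A := hs ▸ le_sup_left
  have hvA : ∀ b ∈ B, v + b ∉ A := fun b hb h =>
    hv0 (Submodule.disjoint_def.1 hAC.disjoint _ ((A.add_mem_iff_left (hBA hb)).1 h) hv)
  have hmem : ∀ w, w ∈ Y ⊔ cy f w := fun w => Submodule.mem_sup_right ⟨1, by simp⟩
  have hinf : ∀ b ∈ B, aeval f g b = 0 → (Y ⊔ cy f (v + b)) ⊓ A = Y := fun b hb hgb => by
    rw [sup_inf_assoc_of_le _ hYA, sup_eq_left]
    rintro _ ⟨hx, hxA⟩
    obtain ⟨p, rfl⟩ := mem_cy.1 hx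
    rw [map_add] at hxA ⊢
    have h1 : aeval f p v = 0 := Submodule.disjoint_def.1 hAC.disjoint _
      ((A.add_mem_iff_left (hBA (hB.aeval p hb))).1 hxA) (hC.aeval p hv)
    rcases hg.isCoprime_or_dvd p with ⟨r, s, h⟩ | ⟨r, rfl⟩
    · have := congrArg (fun t => aeval f t v) h
      simp [h1, hgv, hv0.symm] at this
    · rw [h1, mul_comm, map_mul, Module.End.mul_apply, hgb]; simp
  rw [kd, ← Nat.card_eq_fintype_card, ← Module.natCard_eq_pow_finrank]
  refine (Nat.card_eq_of_bijective (fun b => ⟨Y ⊔ cy f (v + b.1.1), hY.sup (inv_cy _ _),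
    fun h => hvA _ b.1.2 (h (hmem _)), hinf _ b.1.2 (by
      rw [← aeval_restrict_coe hB, LinearMap.mem_ker.1 b.2]; rfl)⟩) ⟨?_, ?_⟩).symm
  · intro b b' h
    have h1 : Y ⊔ cy f (v + b.1.1) = Y ⊔ cy f (v + b'.1.1) := congrArg Subtype.val h
    have h2 : b.1.1 - b'.1.1 ∈ (Y ⊔ cy f (v + b.1.1)) ⊓ A :=
      ⟨add_sub_add_left_eq_sub b.1.1 b'.1.1 v ▸ sub_mem (hmem (v + b.1.1)) (h1 ▸ hmem (v + b'.1.1)),
        hBA (sub_mem b.1.2 b'.1.2)⟩
    rw [hinf _ b.1.2 (by rw [← aeval_restrict_coe hB, LinearMap.mem_ker.1 b.2]; rfl)] at h2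
    exact Subtype.ext (Subtype.ext (sub_eq_zero.1
      (Submodule.disjoint_def.1 hd _ h2 (sub_mem b.1.2 b'.1.2))))
  · rintro ⟨X, h1, h2, h3⟩
    have hYX : Y ≤ X := h3 ▸ inf_le_left
    obtain ⟨x, hx, a, ha, e⟩ := Submodule.mem_sup.1 ((hmax X h1 h2).ge (Submodule.mem_top (x := v)))
    obtain ⟨y, hy, b, hb, rfl⟩ := Submodule.mem_sup.1 (hs.ge ha)
    have h4 : v + -b ∈ X := by rw [← e, ← add_assoc, add_neg_cancel_right]; exact add_mem hx (hYX hy)
    have h5 : aeval f g (-b) = 0 := by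
      have h6 := hB.aeval g (neg_mem hb)
      refine Submodule.disjoint_def.1 hd _ (h3.le ⟨?_, hBA h6⟩) h6
      simpa [hgv] using h1.aeval g h4
    refine ⟨⟨⟨-b, neg_mem hb⟩, Subtype.ext ((aeval_restrict_coe hB _ _).trans h5)⟩, Subtype.ext ?_⟩
    have h7 : Y ⊔ cy f (v + -b) ≤ X := sup_le hYX (by rintro _ ⟨p, rfl⟩; exact h1.aeval p h4)
    have h8 := hmax _ (hY.sup (inv_cy f (v + -b))) fun h => hvA _ (neg_mem hb) (h (hmem _))
    have := sup_inf_assoc_of_le A h7
    rw [h8, top_inf_eq, inf_comm, h3, sup_eq_left.2 le_sup_left] at this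
    exact this.symm

open Classical in
theorem sum_mob [Fintype F] [FiniteDimensional F V] [Fintype (Submodule F V)] {f : End F V}
    (hf : SS f) {U : Submodule F V} (hU : Inv f U) (hne : U ≠ ⊤) :
    (∑ W, if U ≤ W ∧ Inv f W then mob (Fintype.card F) (ed f - edI f W) else 0) = 0 := by
  obtain ⟨A, ⟨hUA, hA, hAt⟩, hmx⟩ := Set.Finite.exists_maximal
    (s := {X | U ≤ X ∧ Inv f X ∧ X ≠ ⊤}) (Set.toFinite _) ⟨U, le_rfl, hU, hne⟩
  have hmax : ∀ X, Inv f X → ¬ X ≤ A → X ⊔ A = ⊤ := fun X h1 h2 => by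
    by_contra h
    exact h2 (le_sup_left.trans (hmx ⟨hUA.trans le_sup_right, h1.sup hA, h⟩ le_sup_right))
  obtain ⟨C, hC, hAC⟩ := hf.exists_compl hA
  have hC0 : C ≠ ⊥ := by rintro rfl; exact hAt (eq_top_of_isCompl_bot hAC)
  have h1 : dg (f.restrict hC) = {finrank F C} := by
    refine dg_of_irred (mt Submodule.finrank_eq_zero.1 hC0) fun D hD => or_iff_not_imp_left.2 fun h => ?_
    have h2 : Inv f (D.map C.subtype) := by
      rintro _ ⟨x, hx, rfl⟩
      exact ⟨_, hD ⟨x, hx, rfl⟩, rfl⟩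
    have h3 := hmax _ h2 fun h' => h (by
      rw [eq_bot_iff]
      exact fun x hx => Subtype.ext (Submodule.disjoint_def.1 hAC.disjoint _ (h' ⟨x, hx, rfl⟩) x.2))
    have h4 := sup_inf_assoc_of_le A (Submodule.map_subtype_le C D)
    rw [h3, top_inf_eq, hAC.inf_eq_bot, sup_bot_eq] at h4
    exact Submodule.map_injective_of_injective C.injective_subtype (by simpa using h4.symm)
  obtain ⟨g, hg⟩ := Multiset.card_eq_one.1
    ((Multiset.card_map _ _).symm.trans (congrArg Multiset.card h1))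
  have hgm : g ∈ ed (f.restrict hC) := by simp [hg]
  have hgi := hf.restrict hC g hgm
  obtain ⟨v, hv, hv0⟩ := (Submodule.ne_bot_iff _).1 hC0
  have hgv : aeval f g v = 0 := by
    rw [← aeval_restrict_coe hC g ⟨v, hv⟩, (aeval_eq_zero_iff_ed _ _).2 (by simp [hg])]; rfl
  have hed : ed f = edI f A + {g} := by rw [← edI_top, ← hAC.sup_eq_top, edI_sup hA hC hAC.disjoint,
    edI_eq hC, hg]
  rw [← sum_fiberwise univ (fun W => W ⊓ A)]
  refine sum_eq_zero fun Y _ => ?_
  by_cases hY : U ≤ Y ∧ Inv f Y ∧ Y ≤ A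
  swap
  · refine sum_eq_zero fun W hW => if_neg fun h => hY ?_
    rw [← (mem_filter.1 hW).2]
    exact ⟨le_inf h.1 hUA, h.2.inf hA, inf_le_right⟩
  obtain ⟨hUY, hY, hYA⟩ := hY
  obtain ⟨B, hB, hd, hs⟩ := hf.exists_rel_compl hY hA hYA
  have h5 : edI f A = edI f Y + edI f B := by rw [← hs, edI_sup hY hB hd]
  rw [← add_sum_erase _ _ (a := Y) (by simpa), if_pos ⟨hUY, hY⟩, ← sum_filter,
    sum_congr rfl (g := fun _ => mob (Fintype.card F) (edI f B)), sum_const, hed, h5, add_assoc,
    add_tsub_cancel_left, add_comm (edI f B), Multiset.singleton_add, mob_cons, edI_eq hB,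
    ← kd_of_ss (hf.restrict hB) (ed_isPP hgm).monic hgi, ← Nat.card_eq_finsetCard, neg_mul,
    neg_add_eq_zero, nsmul_eq_mul, ← Nat.cast_pow,
    ← card_compl_inv hB hC hY hAC hd hs hmax hgi hv hv0 hgv]
  · congr 2
    refine Nat.card_congr (Equiv.subtypeEquivRight fun W => ?_)
    simp only [mem_filter, mem_erase, mem_univ, true_and]
    exact ⟨fun h => ⟨⟨by rintro rfl; exact h.2.1 hYA, h.2.2⟩, hUY.trans (h.2.2 ▸ inf_le_left), h.1⟩,
      fun h => ⟨h.2.2, fun h' => h.1.1 ((inf_eq_left.2 h').symm.trans h.1.2), h.1.2⟩⟩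
  · intro W hW
    simp only [mem_filter, mem_erase, mem_univ, true_and] at hW
    obtain ⟨⟨hne, rfl⟩, -, hW⟩ := hW
    obtain ⟨D, hD, hd', hs'⟩ := hf.exists_rel_compl hY hW inf_le_left
    have h6 : Disjoint A D := by
      rw [disjoint_iff, ← inf_of_le_right (hs' ▸ le_sup_right : D ≤ W), ← inf_assoc, inf_comm A,
        hd'.eq_bot]
    have h7 : A ⊔ D = ⊤ := by
      rw [← hmax W hW fun h => hne (inf_eq_left.2 h).symm, ← hs', sup_right_comm,
        sup_eq_right.2 hYA]
    have h8 := edI_sup hA hD h6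
    rw [h7, edI_top, hed, add_right_inj] at h8
    have h9 := edI_sup hY hD hd'
    rw [hs'] at h9
    rw [hed, h5, h9, ← h8, add_right_comm, add_tsub_cancel_left]

theorem uch_one_ss [Fintype F] [FiniteDimensional F V] (g : V ≃ₗ[F] V) (hg : SS g.toLinearMap) :
    uch (fun _ : Fin (finrank F V) => 1) g =
      ((-1) ^ finrank F V * mob (Fintype.card F) (ed g.toLinearMap) : ℤ) := by
  classical
  have := finite_submodule (F := F) (V := V)
  have := Fintype.ofFinite (Submodule F V)
  rw [uch_one_eq, stS_bot (fun _ _ => trivial) (fun x hx => by simp_all)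
    (fun W => mob (Fintype.card F) (ed g.toLinearMap - edI g.toLinearMap W))
    (by simp [edI_top, mob]) fun U hU hne => by convert sum_mob hg hU hne; rfl, edI_bot, tsub_zero]

theorem mob_replicate (q k : ℕ) (g : F[X]) :
    mob q (Multiset.replicate k g) = (-1) ^ k * (q : ℤ) ^ (g.natDegree * k.choose 2) := by
  classical
  induction k with
  | zero => simp [mob]
  | succ k ih =>
    rw [Multiset.replicate_succ, mob_cons, ih, Multiset.count_replicate_self, Nat.choose_succ_succ',
      Nat.choose_one_right]; ring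

theorem uch_one_one [Fintype F] [FiniteDimensional F V] :
    uch (fun _ : Fin (finrank F V) => 1) (1 : V ≃ₗ[F] V) =
      (Fintype.card F ^ (finrank F V * (finrank F V - 1) / 2) : ℕ) := by
  have h1 := (eq_smul_iff_ed (1 : V ≃ₗ[F] V).toLinearMap 1).1 (by rw [one_smul]; rfl)
  have h2 := sum_natDegree_ed (1 : V ≃ₗ[F] V).toLinearMap
  rw [uch_one_ss _ fun q hq => h1 q hq ▸ irreducible_X_sub_C 1]
  rw [Multiset.eq_replicate_card.2 h1] at h2 ⊢
  simp only [Multiset.map_replicate, natDegree_X_sub_C, Multiset.sum_replicate, smul_eq_mul,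
    mul_one] at h2
  rw [mob_replicate, h2, natDegree_X_sub_C, one_mul, ← mul_assoc, ← mul_pow, Nat.choose_two_right]
  simp

/-- `SL` acting on vectors -/
noncomputable def slE (n : ℕ) (F : Type u) [Field F] :
    Matrix.SpecialLinearGroup (Fin n) F →* ((Fin n → F) ≃ₗ[F] (Fin n → F)) :=
  (H23.glE (Fin n) F).toMonoidHom.comp Matrix.SpecialLinearGroup.toGL

theorem slE_apply (g : Matrix.SpecialLinearGroup (Fin n) F) (v : Fin n → F) :
    slE n F g v = g.1.mulVec v := H23.glE_apply _ _

theorem mem_range_slE (e : (Fin n → F) ≃ₗ[F] (Fin n → F)) (h : LinearMap.det e.toLinearMap = 1) :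
    e ∈ (slE n F).range :=
  ⟨⟨_, (H23.det_glE_symm e).trans h⟩, LinearEquiv.ext fun v =>
    (slE_apply _ _).trans (H23.glE_symm_mulVec e v)⟩

theorem uch_of_smul [FiniteDimensional F V] (ν : Fin n → ℕ) {g : V ≃ₗ[F] V} {c : F}
    (h : ∀ v, g v = c • v) : uch ν g = uch ν (1 : V ≃ₗ[F] V) := by
  have : (fun U : Submodule F V => ∀ x ∈ U, g.toLinearMap x ∈ U) =
      fun U : Submodule F V => ∀ x ∈ U, (1 : V ≃ₗ[F] V).toLinearMap x ∈ U :=
    funext fun U => propext ⟨fun _ _ h => h, fun _ x hx => (h x).symm ▸ U.smul_mem c hx⟩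
  simp only [uch, nfix_eq_nfl, this]

theorem mob_eq [DecidableEq F[X]] (q : ℕ) {s : Multiset F[X]} (hs : ∀ g ∈ s, 0 < g.natDegree) :
    (((-1) ^ (s.map natDegree).sum * mob q s : ℤ) : ℂ) = ∏ g ∈ s.toFinset,
      (-1 : ℂ) ^ ((g.natDegree - 1) * s.count g) *
        (q : ℂ) ^ (g.natDegree * s.count g * (s.count g - 1) / 2) := by
  have : mob q s = ∏ g ∈ s.toFinset,
      (-1) ^ s.count g * (q : ℤ) ^ (g.natDegree * (s.count g).choose 2) := by unfold mob; congr!
  rw [this, sum_multiset_map_count, ← prod_pow_eq_pow_sum, ← prod_mul_distrib]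
  push_cast
  refine prod_congr rfl fun g hg => ?_
  obtain ⟨d, hd⟩ := Nat.exists_eq_add_of_le' (hs g (Multiset.mem_toFinset.1 hg))
  rw [mul_assoc g.natDegree, Nat.mul_div_assoc _ (Nat.even_mul_pred_self _).two_dvd,
    ← Nat.choose_two_right, ← mul_assoc, ← pow_add, hd, Nat.add_sub_cancel, smul_eq_mul,
    show s.count g * (d + 1) + s.count g = d * s.count g + 2 * s.count g by ring, pow_add, pow_mul _ 2]
  simp

theorem card_sylow_PSL [Fintype F] (p : ℕ) [hp : Fact p.Prime] [CharP F p] {n : ℕ} (hn : 1 ≤ n)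
    (P : Sylow p (Matrix.ProjectiveSpecialLinearGroup (Fin n) F)) :
    Nat.card P = Fintype.card F ^ (n * (n - 1) / 2) := by
  have h1 := H22.gcd_mul_card_PSL (F := F) n hn
  have : Nonempty (Fin n) := ⟨⟨0, hn⟩⟩
  have h2 := H22.card_units_mul_card_SL (F := F) (ι := Fin n)
  have h3 := H22.not_dvd_card_pow_sub_one (F := F) p le_rfl
  rw [pow_one] at h3
  have hq : Fintype.card F - 1 ≠ 0 := by rintro h; simp [h] at h3
  rw [← H22.card_sylow_GL p n (Classical.arbitrary _), P.card_eq_multiplicity,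
    Sylow.card_eq_multiplicity, ← h2, ← h1, H22.card_units_field, Nat.factorization_mul hq
      (mul_ne_zero (Nat.gcd_ne_zero_right hq) Nat.card_pos.ne'),
    Nat.factorization_mul (Nat.gcd_ne_zero_right hq) Nat.card_pos.ne']
  simp [Nat.factorization_eq_zero_of_not_dvd h3,
    Nat.factorization_eq_zero_of_not_dvd (mt (·.trans (Nat.gcd_dvd_right n _)) h3)]

end H16
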