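import Cfsg.Agent.H16.LA27

/-! Invariant totally singular subspaces; more on unitary groups. -/

set_option autoImplicit false

namespace H16

open Module Polynomial H23 H23.Form H14.Wall Matrix

universe u v

section Gen

variable {F : Type u} {V : Type*} [Field F] {σ : F →+* F} [AddCommGroup V] [Module F V]
  [FiniteDimensional F V] {Φ : Form σ V} {g : End F V} {r : ℕ}

theorem ts_Tr_iff [Fintype F] (hΦ : Φ.Nondeg) (hr : r.Prime) (hr0 : (r : F) ≠ 0) {b c i m n : ℕ}
    (hb' : (b = 1 ∧ ∀ a ∈ Tr F r, dual σ a = a) ∨ (b = 2 ∧ ∀ a ∈ Tr F r, dual σ a ≠ a))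
    (hi : i = orderOf (Fintype.card F : ZMod r)) (hb : c = b * i) (hV : finrank F V = n)
    (h4 : c ≤ n) (h5 : n % c < 2 * m) (hm : 2 * m ≤ n)
    (hex : ∀ s k, (∀ a ∈ s, a ∈ Tr F r) → s.map (dual σ) = s → s.card * i + k = n →
      ∃ g, Pres Φ g ∧ ed g = s + Multiset.replicate k (X - C 1))
    (key : ∀ g s, Pres Φ g → g ^ r = 1 → s + s.map (dual σ) ≤ ed g → ∃ A : Submodule F V,
      finrank F A = (s.map natDegree).sum ∧ Φ.TotSing A ∧ ∀ x ∈ A, g x ∈ A) :
    (∀ g, Pres Φ g → g ^ r = 1 → g ≠ 1 →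
      ∃ A : Submodule F V, finrank F A = m ∧ Φ.TotSing A ∧ ∀ x ∈ A, g x ∈ A) ↔
      i ≤ m ∧ 2 * (m % i) ≤ n % c ∧ (b ≠ 1 ∨ (r - 1) / i + 2 * (m / i) ≤ n / i) := by
  have hpos : 0 < i := hi ▸ orderOf_card_pos hr hr0
  have ht : Nat.card (Tr F r) = (r - 1) / i := hi ▸ Tr_card hr hr0
  have hfin := (Tr_spec (F := F) hr hr0).1
  have hb0 : 0 < b := by omega
  have hcpos : 0 < c := hb ▸ Nat.mul_pos hb0 hpos
  constructor
  · intro h
    have key2 : ∀ (s : Multiset F[X]) k, (∀ a ∈ s, a ∈ Tr F r) → s.map (dual σ) = s → s ≠ 0 →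
        s.card * i + k = n → ∃ (ν : Multiset F[X]) (w : ℕ), ν + ν.map (dual σ) ≤ s ∧
          2 * w ≤ k ∧ ν.card * i + w = m := by
      intro s k h6 h7 h8 h9
      obtain ⟨g, hg, h10⟩ := hex s k h6 h7 h9
      obtain ⟨W, h11, h12, h13⟩ := h g hg (pow_of_ed_Tr hr h6 h8 h10).1 (pow_of_ed_Tr hr h6 h8 h10).2
      obtain ⟨ν, w, h14, h15, h16, -⟩ := ts_Tr_le hΦ hr hr0 hg h6 h10 h13 h12.1
      exact ⟨ν, w, h14, h15, by rw [hi, h16, h11]⟩
    obtain ⟨s₀, h6, h7, h8, -⟩ := exists_Tr_blocks Φ.invol hr hr0 hb'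
    obtain ⟨ν, w, -, h9, h10⟩ := key2 ((n / c) • s₀) (n % c)
      (fun a ha => h6 a (Multiset.mem_of_mem_nsmul ha)) (by rw [Multiset.map_nsmul, h7]) (by
        rw [← Multiset.card_pos, Multiset.card_nsmul, h8]
        exact Nat.mul_pos (Nat.div_pos h4 hcpos) hb0)
      (by rw [Multiset.card_nsmul, h8, mul_assoc, ← hb, Nat.div_add_mod'])
    have h11 := mod_le_of_comb h10
    have h12 : i ≤ m := by
      by_contra h12
      rw [Nat.mod_eq_of_lt (by omega)] at h11; omega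
    refine ⟨h12, by omega, ?_⟩
    by_contra h13
    rw [not_or, not_not, not_le] at h13
    obtain ⟨rfl, h13⟩ := h13
    rw [one_mul] at hb
    subst hb
    have h14 := (hb'.resolve_right (by simp)).2
    obtain ⟨f, hf⟩ := Tr_nonempty hr hr0
    have h15 := Nat.div_pos h12 hpos
    have h16 := Nat.div_add_mod' m c
    have h17 := Nat.div_add_mod' n c
    have h18 := Nat.mod_lt n hpos
    have h19 : 2 * (m / c) ≤ n / c := (Nat.le_div_iff_mul_le hpos).2 (by rw [mul_assoc]; omega)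
    have key3 : ∀ N k, N ≤ (r - 1) / c → 0 < N → (N + 2 * (m / c - 1)) * c + k = n →
        2 * c ≤ k := by
      intro N k h20 h21 h22
      obtain ⟨ρ, h23, h24, rfl⟩ := exists_nodup_card (Tr F r) (ht ▸ h20)
      have h25 : ∀ a ∈ ρ + Multiset.replicate (2 * (m / c - 1)) f, a ∈ Tr F r := fun a ha =>
        (Multiset.mem_add.1 ha).elim (h24 a) fun h => Multiset.eq_of_mem_replicate h ▸ hf
      obtain ⟨ν, w, h26, h27, h28⟩ := key2 _ k h25 ((Multiset.map_congr rfl fun a ha =>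
        h14 a (h25 a ha)).trans (Multiset.map_id' _)) (by
          rw [← Multiset.card_pos, Multiset.card_add]; omega) (by simpa using h22)
      rw [(Multiset.map_congr rfl fun a ha => h14 a (h25 a (Multiset.mem_of_le
        ((Multiset.le_add_right _ _).trans h26) ha))).trans (Multiset.map_id' _)] at h26
      have h29 := Nat.mul_le_mul_right c (card_le_of_double h23 h26)
      rw [Nat.sub_mul] at h29
      have := Nat.le_mul_of_pos_left c h15
      omega
    by_cases h20 : n / c + 2 ≤ (r - 1) / c + 2 * (m / c)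
    · have := key3 (n / c + 2 - 2 * (m / c)) (n % c) (by omega) (by omega)
        (by rw [show n / c + 2 - 2 * (m / c) + 2 * (m / c - 1) = n / c by omega]; exact h17)
      omega
    · have := key3 (n / c + 1 - 2 * (m / c)) (n % c + c) (by omega) (by omega)
        (by rw [show n / c + 1 - 2 * (m / c) + 2 * (m / c - 1) = n / c - 1 by
          omega, Nat.sub_mul]; have := Nat.le_mul_of_pos_left c (Nat.div_pos h4 hpos); omega)
      omega
  · rintro ⟨h6, h7, h8⟩ g hg h9 -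
    obtain ⟨s, k, h10, h11, h12, -, h13⟩ := exists_Tr_ed hr hr0 hΦ hg h9
    obtain ⟨N, h14, -⟩ := Tr_blocks Φ.invol hr hb' h10 h11
    obtain ⟨ν, ρ, rfl, h15, h16⟩ := Tr_hyp Φ.invol hr hr0 h10 h11
    rw [hV, ← hi] at h12
    have h17 : n % c ≤ k := mod_le_of_comb (s := N) (by rw [hb, ← mul_assoc, ← h14, h12])
    have h18 := Nat.div_add_mod' m i
    have h19 : 2 * m + ρ.card * i ≤ n := by
      rcases hb' with ⟨rfl, hb'⟩ | ⟨rfl, hb'⟩
      · rw [one_mul] at hb
        subst hb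
        have h20 := Nat.mul_le_mul_right c (h8.resolve_left (by simp))
        have h21 := Nat.mul_le_mul_right c (ht ▸ h15)
        have := Nat.div_add_mod' n c
        rw [add_mul, mul_assoc] at h20
        omega
      · rw [Multiset.eq_zero_of_forall_notMem fun a ha => hb' a (h16 a ha).1 (h16 a ha).2]
        simpa using hm
    obtain ⟨ν₁, ν₂, rfl, h20⟩ := exists_le_card (min_le_left ν.card (m / i))
    have h21 : ∀ a ∈ ν₁, a ∈ Tr F r := fun a ha => h10 a (by simp [ha])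
    simp only [Multiset.card_add, Multiset.card_map, add_mul] at h12 h20
    have h22 : ν₁.card * i ≤ m / i * i := Nat.mul_le_mul_right i (by omega)
    obtain ⟨A, h23, h24⟩ := key g (ν₁ + Multiset.replicate (m - ν₁.card * i) (X - C 1)) hg h9 (by
      rw [h13, Multiset.map_add, Multiset.map_replicate, dual_lin_one, add_add_add_comm,
        ← Multiset.replicate_add]
      refine add_le_add (le_add_right (add_le_add (Multiset.le_add_right _ _) (Multiset.map_le_map
        (Multiset.le_add_right _ _)))) ((Multiset.replicate_le_replicate _).2 ?_)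
      by_cases h23 : ν₂.card = 0
      · rw [h23] at h12; omega
      · rw [show ν₁.card = m / i by omega]; omega)
    exact ⟨A, by rw [h23, sum_deg_add hr hr0 h21, ← hi]; omega, h24⟩

theorem pow_of_lin {a b : ℕ} {c : F}
    (h : ed g = Multiset.replicate a (X - C c) + Multiset.replicate b (X - C (-c))) :
    g ^ 2 = (c ^ 2) • (1 : End F V) := (ed_dvd_iff g 2 _).2 fun p hp => by
  rw [h, Multiset.mem_add] at hp
  rcases hp with hp | hp <;> rw [Multiset.eq_of_mem_replicate hp, dvd_iff_isRoot] <;> simp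

theorem not_scalar_of_lin (h2 : (2 : F) ≠ 0) {a b : ℕ} {c : F} (hc : c ≠ 0) (ha : a ≠ 0) (hb : b ≠ 0)
    (h : ed g = Multiset.replicate a (X - C c) + Multiset.replicate b (X - C (-c))) (z : F) :
    g ≠ z • (1 : End F V) :=
  not_scalar_of_ne (lin_ne_neg h2 hc)
    (h ▸ Multiset.mem_add.2 (Or.inl (Multiset.mem_replicate.2 ⟨ha, rfl⟩)))
    (h ▸ Multiset.mem_add.2 (Or.inr (Multiset.mem_replicate.2 ⟨hb, rfl⟩))) z

theorem not_scalar_of_Tr (hr : r.Prime) {s : Multiset F[X]} (hs : ∀ a ∈ s, a ∈ Tr F r) (h0 : s ≠ 0)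
    {k : ℕ} (hk : k ≠ 0) (h : ed g = s + Multiset.replicate k (X - C 1)) (z : F) :
    g ≠ z • (1 : End F V) := by
  obtain ⟨f, hf⟩ := Multiset.exists_mem_of_ne_zero h0
  exact not_scalar_of_ne (Tr_ne hr (hs f hf)) (h ▸ Multiset.mem_add.2 (Or.inl hf))
    (h ▸ Multiset.mem_add.2 (Or.inr (Multiset.mem_replicate.2 ⟨hk, rfl⟩))) z

open scoped Classical in
theorem even_count_hyp (hσ : ∀ a, σ (σ a) = a) {s : Multiset F[X]}
    (h : ed g = s + s.map (dual σ)) (h0 : ∀ q ∈ ed g, q.coeff 0 ≠ 0) {f : F[X]}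
    (hf : dual σ f = f) : Even ((ed g).count f) := by
  rw [h, Multiset.count_add, count_map_invol (fun a ha => ?_) hf]
  · exact Even.add_self _
  · have : a ∈ ed g := by simp [h, ha]
    exact dual_dual hσ (ed_isPP this).monic (h0 a this)

theorem exists_sym_nodup [Fintype F] (hr : r.Prime) (hr2 : r ≠ 2) (hr0 : (r : F) ≠ 0)
    (h : orderOf (Fintype.card F : ZMod r) = 1) {M : ℕ} (hM : 2 * M ≤ r - 1) :
    ∃ ρ : Multiset F[X], ρ.Nodup ∧ (∀ a ∈ ρ, a ∈ Tr F r) ∧ ρ.map rev = ρ ∧ ρ.card = M * 2 := by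
  classical
  have hfin := (Tr_spec (F := F) hr hr0).1
  obtain ⟨T, h1, h2, h3⟩ := exists_nodup_card (Tr F r) le_rfl
  have h4 : ∀ a ∈ Tr F r, a ∈ T := fun a ha => by
    by_contra h4
    have := card_le_of_nodup (Multiset.nodup_cons.2 ⟨h4, h1⟩) (T := Tr F r) (by simpa [ha] using h2)
    rw [Multiset.card_cons] at this; omega
  have h5 : ∀ a ∈ Tr F r, dual (RingHom.id F) (dual (RingHom.id F) a) = a := fun a ha =>
    dual_dual (fun _ => rfl) ha.1 (Tr_coeff hr ha)
  obtain ⟨N, h6, h7⟩ := Tr_blocks (σ := RingHom.id F) (b := 2) (fun _ => rfl) hr (Or.inr ⟨rfl,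
    fun a ha e => by simpa [h] using (rev_eq_self_iff hr hr2 hr0 ha).1 e⟩) h2
    ((Multiset.Nodup.ext (h1.map_on fun a ha b hb e => by
      rw [← h5 a (h2 a ha), e, h5 b (h2 b hb)]) h1).2 fun a => ⟨fun ha => by
        obtain ⟨b, hb, rfl⟩ := Multiset.mem_map.1 ha
        exact h4 _ (dual_mem_Tr (fun _ => rfl) hr (h2 b hb)), fun ha => Multiset.mem_map.2
          ⟨_, h4 _ (dual_mem_Tr (fun _ => rfl) hr (h2 a ha)), h5 a (h2 a ha)⟩⟩)
  rw [Tr_card hr hr0, h, Nat.div_one] at h3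
  obtain ⟨ν, h8, h9, h10⟩ := h7 M (by omega)
  exact ⟨ν, Multiset.nodup_of_le h8 h1, fun a ha => h2 a (Multiset.mem_of_le h8 ha),
    (map_dual_id _).symm.trans h9, h10⟩

theorem exists_equiv_det [Nontrivial V] {a : F} (ha : a ≠ 0) :
    ∃ φ : V ≃ₗ[F] V, LinearMap.det φ.toLinearMap = a := by
  obtain ⟨g, hg⟩ := exists_ed_of_finrank (V := V) (s := Multiset.replicate 1 (X - C a) +
    Multiset.replicate (finrank F V - 1) (X - C 1)) (fun p hp => by
      rcases Multiset.mem_add.1 hp with hp | hp <;> rw [Multiset.eq_of_mem_replicate hp] <;>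
        exact isPP_of_irred (monic_X_sub_C _) (irreducible_X_sub_C _))
    (by have := finrank_pos (R := F) (M := V); simp [-map_one]; omega)
  have h1 : LinearMap.det g = a := by simpa using det_of_lin hg
  exact ⟨LinearMap.equivOfDetNeZero g (h1 ▸ ha), h1⟩

theorem det_of_dual {W : Type*} [AddCommGroup W] [Module F W] [FiniteDimensional F W] {h : End F W}
    (H : ed g = ed h + (ed h).map (dual σ)) (h0 : ∀ q ∈ ed h, q.coeff 0 ≠ 0) :
    LinearMap.det g = LinearMap.det h * (σ (LinearMap.det h))⁻¹ := by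
  have h1 : finrank F V = finrank F W + finrank F W := by
    rw [← sum_natDegree_ed g, H, Multiset.map_add, Multiset.sum_add, Multiset.map_map,
      Multiset.map_congr (f := natDegree ∘ dual σ) rfl fun q hq => natDegree_dual σ (h0 q hq),
      sum_natDegree_ed]
  rw [det_eq_prod_ed, det_eq_prod_ed, H, Multiset.map_add, Multiset.prod_add, Multiset.map_map,
    Multiset.map_congr (f := (fun q : F[X] => q.coeff 0) ∘ dual σ) (g := fun q => (σ (q.coeff 0))⁻¹)
      (s := ed h) rfl fun q hq =>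
      coeff_zero_dual σ (ed_isPP hq).monic, h1,
    Multiset.prod_map_inv, map_mul, map_multiset_prod, Multiset.map_map, mul_inv, pow_add]
  simp only [map_pow, map_neg, map_one, ← inv_pow, inv_neg, inv_one, Function.comp_def]
  ring

theorem glc_dvd_card_stab [Fintype F] (hΦ : Φ.Nondeg) {A B : Submodule F V} (hA : Φ.TotSing A)
    (hB : Φ.TotSing B) (hc : IsCompl A B) :
    glc (Fintype.card F) (finrank F A) ∣ Nat.card (Φ.Stab A ⊓ Φ.Stab B : Subgroup Φ.O) := by
  rw [← card_linearEquiv_glc]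
  refine Subgroup.card_dvd_of_surjective ((Φ.resHom A).comp (Subgroup.inclusion inf_le_left))
    fun φ => ?_
  obtain ⟨k, h4, h5⟩ := exists_pair_map hΦ hA hB hc hA hB hc φ
  refine ⟨⟨k, map_eq_of_le ?_ le_rfl, h5⟩, LinearEquiv.ext fun x => Subtype.ext (h4 x)⟩
  rintro _ ⟨x, hx, rfl⟩
  exact (h4 ⟨x, hx⟩).symm ▸ (φ ⟨x, hx⟩).2

theorem kd_uni {μ : Multiset ℕ} (h : ed g = uni F μ) : kd g (X - C 1) = μ.card := by
  rw [kd_eq_sum, Multiset.map_congr rfl (g := fun _ => 1) fun q hq => ?_, h]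
  · simp [uni]
  have h1 := (ed_isPP hq).natDegree_pos
  obtain ⟨a, -, rfl⟩ := Multiset.mem_map.1 (h ▸ hq)
  rw [gd_of_dvd' (dvd_pow_self _ (by rintro rfl; simp at h1)), natDegree_X_sub_C]

theorem kd_ge_count {f : F[X]} {k : ℕ} (h : Multiset.replicate k f ≤ ed g) :
    k * f.natDegree ≤ kd g f := by
  obtain ⟨t, ht⟩ := Multiset.le_iff_exists_add.1 h
  rw [kd_eq_sum, ht]
  simp [gd_of_dvd dvd_rfl]

omit [FiniteDimensional F V] in
theorem pp_of_dec {D : Fin 2 → Submodule F V} (h1 : IsCompl (D 0) (D 1)) (h2 : ∀ i, Φ.TotSing (D i))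
    {π : Equiv.Perm (Fin 2)} (h : ∀ i, (D i).map g = D (π i)) : PP Φ g := by
  refine ⟨D 0, D 1, h1, h2 0, h2 1, ?_⟩
  have : ∀ π : Equiv.Perm (Fin 2), (π 0 = 0 ∧ π 1 = 1) ∨ (π 0 = 1 ∧ π 1 = 0) := by decide
  rcases this π with h3 | h3 <;> simp [h, h3]

omit [FiniteDimensional F V] in
theorem isCompl_of_two {D : Fin 2 → Submodule F V} (h1 : iSupIndep D) (h2 : iSup D = ⊤) :
    IsCompl (D 0) (D 1) :=
  ⟨h1.pairwiseDisjoint (by decide), codisjoint_iff.2 (by
    rw [← h2]; exact le_antisymm (sup_le (le_iSup D 0) (le_iSup D 1))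
      (iSup_le (Fin.forall_fin_two.2 ⟨le_sup_left, le_sup_right⟩)))⟩

theorem mem_SL_iff {ι : Type} [Fintype ι] [DecidableEq ι] (x : GL ι F) :
    x ∈ Cfsg.Geo.specialLinear ι F ↔ LinearMap.det (toLin' x.1) = 1 := by
  rw [Cfsg.Geo.specialLinear, MonoidHom.mem_ker, Units.ext_iff]; simp

theorem card_dvd_of_glE {ι : Type} [Fintype ι] [DecidableEq ι] {Φ : Form σ (ι → F)}
    {K : Subgroup Φ.O} {H : Subgroup (GL ι F)} (h : ∀ k ∈ K, (glE ι F).symm k.1 ∈ H) :
    Nat.card K ∣ Nat.card H :=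
  Subgroup.card_dvd_of_injective ((((glE ι F).symm.toMonoidHom.comp Φ.O.subtype).comp
    K.subtype).codRestrict H fun k => h k k.2) fun _ _ e =>
      Subtype.ext (Subtype.ext ((glE ι F).symm.injective (congrArg Subtype.val e)))

end Gen

section Herm

variable {F : Type u} {V : Type*} [Field F] [Fintype F] [AddCommGroup V] [Module F V]
  [FiniteDimensional F V] {q : ℕ} {hF : Fintype.card F = q ^ 2} {Φ : Form (conj hF) V}
  {g : End F V} {s : Multiset F[X]} {r n : ℕ}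

theorem dual_lin_norm {c : F} (hc : c ^ (q + 1) = 1) : dual (conj hF) (X - C c) = X - C c := by
  rw [dual_X_sub_C _ (by rintro rfl; simp at hc), conj_apply,
    inv_eq_of_mul_eq_one_right ((pow_succ c q).symm.trans hc)]

theorem dual_lin_neg {c : F} (hc : c ^ (q + 1) = -1) : dual (conj hF) (X - C c) = X - C (-c) := by
  rw [dual_X_sub_C _ (by rintro rfl; simp at hc), conj_apply,
    inv_eq_of_mul_eq_one_right (b := -c) (by rw [mul_neg, ← pow_succ, hc, neg_neg])]

variable (hF) in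
include hF in
theorem odd_of_two_ne (h2 : (2 : F) ≠ 0) : Odd q := by
  have := odd_card_of_two_ne_zero h2
  rwa [hF, ← Nat.odd_iff, Nat.odd_pow_iff two_ne_zero] at this

variable (hF) in
include hF in
theorem char_dvd_of_sq (p : ℕ) [hp : Fact p.Prime] [CharP F p] : p ∣ q :=
  hp.out.dvd_of_dvd_pow (n := 2) ((CharP.cast_eq_zero_iff F p _).1 (by simp [← hF]))

theorem exists_herm_lin (hΦ : Φ.Nondeg) (hε : Φ.ε = 1) (hq : Odd q) {c : F} (hc : c ^ (q + 1) = 1)
    {a b : ℕ} (h : a + b = finrank F V) : ∃ g, Pres Φ g ∧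
      ed g = Multiset.replicate a (X - C c) + Multiset.replicate b (X - C (-c)) := by
  have h0 : c ≠ 0 := by rintro rfl; simp at hc
  refine exists_herm hΦ hε (fun p hp => ?_) (fun p hp => ?_) (by
    rw [Multiset.map_add, Multiset.map_replicate, Multiset.map_replicate, dual_lin_norm hc,
      dual_lin_norm (by rw [hq.add_one.neg_pow, hc])]) (by simpa [-map_neg] using h) <;>
    rcases Multiset.mem_add.1 hp with hp | hp <;> rw [Multiset.eq_of_mem_replicate hp]
  · exact isPP_of_irred (monic_X_sub_C _) (irreducible_X_sub_C _)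
  · exact isPP_of_irred (monic_X_sub_C _) (irreducible_X_sub_C _)
  · simpa using h0
  · simpa using h0

theorem exists_nonsplit_herm [hr : Fact r.Prime] (hΦ : Φ.Nondeg) (hε : Φ.ε = 1) (h2 : r ≠ 2)
    (h : r ∣ q + 1) (h1 : padicValNat r (q + 1) < padicValNat r (finrank F V)) :
    ∃ g, (Pres Φ g ∧ LinearMap.det g = 1) ∧ (∃ z : F, g ^ r = z • (1 : End F V)) ∧
      (∀ z : F, g ≠ z • (1 : End F V)) ∧
      ∀ A : Submodule F V, (∀ x ∈ A, g x ∈ A) → r ∣ finrank F A := by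
  obtain ⟨k, hn⟩ : r ∣ finrank F V := dvd_of_one_le_padicValNat (by omega)
  have hk : k ≠ 0 := by rintro rfl; simp [hn] at h1
  rw [hn, padicValNat.mul hr.out.ne_zero hk, padicValNat_self] at h1
  obtain ⟨z, h12, h13, h14⟩ := (exists_nonsplit_norm_iff hF h2 h hk).2 (by omega)
  obtain ⟨g, hg, h16⟩ := exists_herm hΦ hε (s := Multiset.replicate k (X ^ r - C z))
    (fun p hp => Multiset.eq_of_mem_replicate hp ▸ isPP_of_irred (monic_X_pow_sub_C _ hr.out.ne_zero)
      (X_pow_sub_C_irreducible_of_prime hr.out h14)) (fun p hp => by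
        rw [Multiset.eq_of_mem_replicate hp]
        exact coeff_ne_zero_of_dvd hr.out.ne_zero (by rintro rfl; simp at h12) dvd_rfl)
    (by rw [Multiset.map_replicate, dual_pow_sub_C _ ((conj_mul_self hF z).trans h12) hr.out.ne_zero])
    (by simp [mul_comm, hn])
  have h17 : g ^ r = z • (1 : End F _) := (ed_dvd_iff g r z).2 fun p hp => by
    rw [h16] at hp; rw [Multiset.eq_of_mem_replicate hp]
  refine ⟨g, ⟨hg, (det_of_nonsplit (hr.out.odd_of_ne_two h2) h16).trans h13⟩, ⟨z, h17⟩, fun c =>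
    not_scalar_of_mem (q := X ^ r - C z) (h16 ▸ Multiset.mem_replicate.2 ⟨hk, rfl⟩) fun e => ?_,
    fun A hA => ?_⟩
  · have := congrArg natDegree e
    rw [natDegree_X_pow_sub_C, natDegree_X_sub_C] at this
    exact hr.out.one_lt.ne' this
  · obtain ⟨j, -, h19⟩ := ed_nonsplit hr.out h14 (restrict_pow_eq hA h17)
    exact ⟨j, by rw [h19, mul_comm]⟩

theorem herm_odd_cases [hr : Fact r.Prime] [Nontrivial V] (hΦ : Φ.Nondeg) (h2 : r ≠ 2)
    (hg : Pres Φ g) (hd : LinearMap.det g = 1) {z : F} (hz : g ^ r = z • (1 : End F V)) :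
    (∃ c : F, c ≠ 0 ∧ Pres Φ (c • g) ∧ (c • g) ^ r = 1) ∨ ∃ k,
      ed g = Multiset.replicate k (X ^ r - C z) ∧ finrank F V = k * r ∧ dual (conj hF) (X ^ r - C z) =
        X ^ r - C z ∧ padicValNat r (q + 1) < padicValNat r (finrank F V) := by
  have h12 := herm_scalar hΦ hg hz
  obtain ⟨c, h13, rfl⟩ | ⟨-, h10, h13⟩ | ⟨h13, -⟩ := norm_cases hF hr.out h12
  · have hc : c ≠ 0 := by rintro rfl; simp at h13
    exact Or.inl ⟨c⁻¹, inv_ne_zero hc, pres_smul_herm hg (by rw [inv_pow, h13, inv_one]), by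
      rw [_root_.smul_pow, hz, smul_smul, ← mul_pow, inv_mul_cancel₀ hc, one_pow, one_smul]⟩
  · obtain ⟨k, h14, h15⟩ := ed_nonsplit hr.out h13 hz
    have hk : k ≠ 0 := by rintro rfl; exact finrank_pos.ne' (h15.trans (zero_mul _))
    have h16 := (exists_nonsplit_norm_iff hF h2 h10 hk).1
      ⟨z, h12, (det_of_nonsplit (hr.out.odd_of_ne_two h2) h14).symm.trans hd, h13⟩
    exact Or.inr ⟨k, h14, h15, dual_pow_sub_C _ ((conj_mul_self hF z).trans h12) hr.out.ne_zero, by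
      rw [h15, padicValNat.mul hk hr.out.ne_zero, padicValNat_self]; omega⟩
  · exact absurd h13 h2

theorem exists_pair_det [Nontrivial V] (hΦ : Φ.Nondeg) {A B : Submodule F V} (hA : Φ.TotSing A)
    (hB : Φ.TotSing B) (hc : IsCompl A B) (l : F) (hl : l ^ (q + 1) = 1) :
    ∃ k ∈ Φ.Stab A ⊓ Φ.Stab B, LinearMap.det k.1.toLinearMap = l := by
  obtain ⟨x, hx, rfl⟩ := exists_eq_pow_pred hF hl
  have : Nontrivial A := Module.nontrivial_of_finrank_pos (R := F) (by
    have := finrank_eq_of_tsPair hΦ hA hB hc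
    have := finrank_pos (R := F) (M := V)
    omega)
  obtain ⟨φ, h1⟩ := exists_equiv_det (V := A) (inv_ne_zero hx)
  obtain ⟨k, h4, h5⟩ := exists_pair_map hΦ hA hB hc hA hB hc φ
  have h6 : ∀ x ∈ A, k.1.toLinearMap x ∈ A := fun x hx => (h4 ⟨x, hx⟩).symm ▸ (φ ⟨x, hx⟩).2
  have h7 := ed_of_polar hΦ (pres_O k) h6 (map_le_iff_inv.1 h5.le) hc hA.1 hB.1
  refine ⟨k, ⟨map_eq_of_le (map_le_iff_inv.2 h6) le_rfl, h5⟩, ?_⟩
  rw [det_of_dual h7 fun p hp => ed_coeff_ne hΦ (pres_O k) p (by simp [h7, hp]),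
    show k.1.toLinearMap.restrict h6 = φ.toLinearMap from
      LinearMap.ext fun x => Subtype.ext (h4 x), h1, conj_apply, inv_pow, inv_inv]
  obtain ⟨t, rfl⟩ : ∃ t, q = t + 1 := ⟨q - 1, by have := two_le_of_card_eq_sq hF; omega⟩
  simp [pow_succ', hx]

theorem uf_two_mul (q d : ℕ) :
    uf q (2 * d) = qf (q ^ 2) d * ∏ j ∈ Finset.range d, (q ^ (2 * j + 1) + 1) := by
  induction d with
  | zero => rfl
  | succ d ih =>
    rw [uf, mul_add, mul_one, Finset.prod_range_succ, Finset.prod_range_succ, ← uf, ih, qf_succ,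
      Finset.prod_range_succ, if_pos (by simp), if_neg (by simp), ← pow_mul]
    ring_nf

variable (hF) in
theorem mem_SU_pres (x : GL (Fin n) F) : x ∈ Cfsg.GU n F q ⊓ Cfsg.Geo.specialLinear (Fin n) F ↔
    Pres (huForm hF n) (toLin' x.1) ∧ LinearMap.det (toLin' x.1) = 1 :=
  and_congr (mem_GU_pres hF x) (mem_SL_iff x)

variable (hF) in
include hF in
theorem card_SU_mul (hn : n ≠ 0) : (q + 1) * Nat.card (Cfsg.GU n F q ⊓
    Cfsg.Geo.specialLinear (Fin n) F : Subgroup _) = q ^ (n * (n - 1) / 2) * uf q n := by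
  have : Nonempty (Fin n) := ⟨⟨0, by omega⟩⟩
  have h1 := succ_mul_card_ker_inf hF (huForm_nondeg hF n) (K := ⊤) fun l hl => by
    obtain ⟨g, -, h⟩ := exists_det_Stab_totSing hF (huForm_nondeg hF n) rfl totSing_bot l hl
    exact ⟨g, trivial, h⟩
  rw [inf_top_eq, Subgroup.card_top, H22.card_O_herm hF n _ (huForm_nondeg hF n) rfl rfl (by simp)]
    at h1
  rw [uf, ← h1]
  congr 1
  exact Nat.card_congr
    { toFun := fun x => ⟨⟨glE _ F x.1, (mem_GU_iff hF).1 x.2.1⟩,
        mem_ker_detO.2 ((mem_SU_pres hF _).1 x.2).2⟩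
      invFun := fun k => ⟨(glE _ F).symm k.1.1, (mem_SU_pres hF _).2 (by
        rw [glE_symm_coe, toLin'_toMatrix']; exact ⟨pres_O _, mem_ker_detO.1 k.2⟩)⟩
      left_inv := fun x => by simp
      right_inv := fun x => by simp }

end Herm

end H16
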