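import Cfsg.Agent.H16.LA28
import Cfsg.Agent.H14.El5
import Cfsg.Agent.H23.C8

/-! Elementary divisors of similitudes; conjugacy in `SL` into similarity groups. -/

set_option autoImplicit false

namespace H16

open Module Polynomial H23 H23.Form H14.Wall Matrix

universe u v

section Sm

variable {F : Type u} {V W : Type*} [Field F] {σ : F →+* F} [AddCommGroup V] [Module F V]
  [AddCommGroup W] [Module F W] {Φ : Form σ V} {Ψ : Form σ W} {g : End F V} {h : End F W}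
  {μ : F} {r : ℕ}

/-- similitude with multiplier `μ` -/
def SMu (Φ : Form σ V) (μ : F) (g : End F V) : Prop := ∀ x y, Φ.B (g x) (g y) = μ * Φ.B x y

/-- `s` is the list of elementary divisors of a similitude -/
def ES (Φ : Form σ V) (s : Multiset F[X]) : Prop := ∃ μ g, μ ≠ 0 ∧ SMu Φ μ g ∧ ed g = s

theorem SMu.smul (H : SMu Φ μ g) (c : F) : SMu Φ (σ c * c * μ) (c • g) := fun x y => by
  simp only [LinearMap.smul_apply, LinearMap.map_smulₛₗ, H x y, smul_eq_mul, RingHom.id_apply]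
  ring

theorem SMu.pow (H : SMu Φ μ g) (k : ℕ) : SMu Φ (μ ^ k) (g ^ k) := by
  induction k with
  | zero => intro x y; simp
  | succ k ih => intro x y; rw [pow_succ', pow_succ', mul_assoc, ← ih, ← H]; rfl

theorem smu_one : SMu Φ 1 1 := fun x y => by simp

theorem SMu.uniq [Nontrivial V] (hΦ : Φ.Nondeg) {ν : F} (H : SMu Φ μ g) (H' : SMu Φ ν g) :
    μ = ν := by
  obtain ⟨x, hx⟩ := exists_ne (0 : V)
  obtain ⟨y, hy⟩ := hΦ.exists_ne hx
  simpa [hy] using (H x y).symm.trans (H' x y)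

theorem SMu.pow_eq [Nontrivial V] (hΦ : Φ.Nondeg) (H : SMu Φ μ g) {z : F}
    (hz : g ^ r = z • (1 : End F V)) : μ ^ r = σ z * z :=
  ((hz ▸ H.pow r).uniq hΦ (smu_one.smul z)).trans (mul_one _)

theorem SMu.fix [Nontrivial V] (hΦ : Φ.Nondeg) (H : SMu Φ μ g) : σ μ = μ := by
  obtain ⟨x, hx⟩ := exists_ne (0 : V)
  obtain ⟨y, hy⟩ := hΦ.exists_ne hx
  have := H y x
  rw [Φ.symm, H, Φ.symm x y, hy] at this
  exact mul_left_cancel₀ Φ.eps_ne_zero (by simpa [mul_comm] using this)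

theorem SMu.pres (hk : Φ.κ = 0 ∨ (2 : F) ≠ 0) (H : SMu Φ 1 g) : Pres Φ g := by
  refine ⟨fun x y => (H x y).trans (one_mul _), fun x => ?_⟩
  rcases hk with hk | hk
  · rw [Φ.Q_of_κ hk, Φ.Q_of_κ hk]
  · exact mul_left_cancel₀ hk (by rw [← Φ.kB_self, ← Φ.kB_self, H, one_mul])

theorem smu_of_pres (H : Pres Φ g) : SMu Φ 1 g := fun x y => (H.B x y).trans (one_mul _).symm

theorem es_of_pres (H : Pres Φ g) : ES Φ (ed g) := ⟨1, g, one_ne_zero, smu_of_pres H, rfl⟩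

theorem SMu.of_iso (H : SMu Ψ μ h) (e : Iso Ψ 1 Φ 1) : ∃ g, SMu Φ μ g ∧ Sim h g := by
  obtain ⟨e, h1, -, -⟩ := e
  refine ⟨e.conj h, fun x y => ?_, sim_conj h e⟩
  obtain ⟨x, rfl⟩ := e.surjective x
  obtain ⟨y, rfl⟩ := e.surjective y
  simp [LinearEquiv.conj_apply, h1, H x y]

theorem SMu.prodMap (H : SMu Φ μ g) (H' : SMu Ψ μ h) (hε : Ψ.ε = Φ.ε) (hκ : Ψ.κ = Φ.κ) :
    SMu (fprod Φ Ψ hε hκ) μ (g.prodMap h) := fun x y => by
  simp [H x.1 y.1, H' x.2 y.2, mul_add]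

/-- lists of linear factors -/
noncomputable def linM (t : Multiset F) : Multiset F[X] := t.map fun a => X - C a

theorem lin_inj {a b : F} (h : (X - C a : F[X]) = X - C b) : a = b :=
  C_injective (sub_right_injective h)

theorem linM_inj {t t' : Multiset F} (h : linM t = linM t') : t = t' :=
  Multiset.map_injective (fun _ _ e => lin_inj e) h

theorem linM_isPP (t : Multiset F) : ∀ q ∈ linM t, IsPP q := fun q hq => by
  obtain ⟨a, -, rfl⟩ := Multiset.mem_map.1 hq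
  exact isPP_lin a

theorem linM_deg (t : Multiset F) : ((linM t).map natDegree).sum = t.card := by
  simp [linM, Multiset.map_map]

theorem linM_dual {t : Multiset F} (ht : ∀ a ∈ t, a ≠ 0) :
    (linM t).map (dual σ) = linM (t.map fun a => (σ a)⁻¹) := by
  simp only [linM, Multiset.map_map]
  exact Multiset.map_congr rfl fun a ha => dual_X_sub_C σ (ht a ha)

theorem linM_rep (a b : ℕ) (c d : F) : linM (Multiset.replicate a c + Multiset.replicate b d) =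
    Multiset.replicate a (X - C c) + Multiset.replicate b (X - C d) := by
  simp [linM]

variable [FiniteDimensional F V] [FiniteDimensional F W]

theorem ed_smul_linM {t : Multiset F} (h : ed g = linM t) {c : F} (hc : c ≠ 0) :
    ed (c • g) = linM (t.map (c * ·)) := by
  simp only [ed_smul g hc, h, linM, Multiset.map_map]
  exact Multiset.map_congr rfl fun a _ => by simp [mul_comm]

theorem det_linM {t : Multiset F} (h : ed g = linM t) : LinearMap.det g = t.prod := by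
  rw [det_eq_prod_ed, ← sum_natDegree_ed g, h, linM_deg, linM, Multiset.map_map,
    ← Multiset.prod_replicate, ← Multiset.map_const', ← Multiset.prod_map_mul]
  simp

theorem pow_linM {t : Multiset F} (h : ed g = linM t) {z : F} (ht : ∀ a ∈ t, a ^ r = z) :
    g ^ r = z • (1 : End F V) := (ed_dvd_iff g r z).2 fun q hq => by
  obtain ⟨a, ha, rfl⟩ := Multiset.mem_map.1 (h ▸ hq : q ∈ linM t)
  exact dvd_iff_isRoot.2 (by simp [ht a ha])

theorem not_scalar_linM {t : Multiset F} (h : ed g = linM t) {a b : F} (hab : a ≠ b) (ha : a ∈ t)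
    (hb : b ∈ t) (z : F) : g ≠ z • (1 : End F V) :=
  not_scalar_of_ne (fun e => hab (lin_inj e)) (h.symm ▸ Multiset.mem_map_of_mem _ ha)
    (h.symm ▸ Multiset.mem_map_of_mem _ hb) z

theorem exists_linM {t : Multiset F} (h : t.card = finrank F V) : ∃ g : End F V, ed g = linM t :=
  exists_ed_of_finrank (linM_isPP t) ((linM_deg t).trans h)

theorem SMu.ed_eq (hΦ : Φ.Nondeg) (hμ : μ ≠ 0) (H : SMu Φ μ g) :
    ed (μ⁻¹ • g) = (ed g).map (dual σ) :=
  ed_dual_of_pair Φ.invol Φ.B rfl hΦ fun a b => by simp [H a b, hμ]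

theorem ES.of_smul {c : F} (hc : c ≠ 0) (H : ES Φ (ed (c • g))) : ES Φ (ed g) := by
  obtain ⟨μ, k, h1, h2, h3⟩ := H
  refine ⟨_, _, by simp [hc, h1], h2.smul c⁻¹, ?_⟩
  have := ((sim_of_ed_eq h3).smul c⁻¹).ed_eq
  rwa [inv_smul_smul₀ hc] at this

theorem ES.smul {c : F} (hc : c ≠ 0) (H : ES Φ (ed g)) : ES Φ (ed (c • g)) :=
  ES.of_smul (inv_ne_zero hc) (by rwa [inv_smul_smul₀ hc])

omit [FiniteDimensional F V] in
theorem ES.of_iso {s : Multiset F[X]} (H : ES Ψ s) (e : Iso Ψ 1 Φ 1) : ES Φ s := by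
  obtain ⟨μ, k, h1, h2, h3⟩ := H
  obtain ⟨g, h4, h5⟩ := h2.of_iso e
  exact ⟨μ, g, h1, h4, h5.ed_eq.symm.trans h3⟩

theorem pow_of_ed_eq (e : ed h = ed g) {z : F} (hz : g ^ r = z • (1 : End F V)) :
    h ^ r = z • (1 : End F W) := (ed_dvd_iff h r z).2 (e ▸ (ed_dvd_iff g r z).1 hz)

/-- if the multiplier is forced to be trivial -/
theorem ES.pres [Nontrivial V] (hΦ : Φ.Nondeg) (hk : Φ.κ = 0 ∨ (2 : F) ≠ 0) (H : ES Φ (ed h))
    (h1 : h ^ r = 1) (hr : ∀ μ : F, σ μ = μ → μ ^ r = 1 → μ = 1) :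
    ∃ g, Pres Φ g ∧ ed g = ed h := by
  obtain ⟨μ, g, -, h2, h3⟩ := H
  obtain rfl := hr μ (h2.fix hΦ) (by
    simpa using h2.pow_eq hΦ (pow_of_ed_eq h3 (h1.trans (one_smul F _).symm)))
  exact ⟨g, h2.pres hk, h3⟩

theorem ES.lin (hΦ : Φ.Nondeg) {t : Multiset F} (H : ES Φ (linM t))
    (ht : ∀ a ∈ t, a ≠ 0 ∧ σ a = a) [DecidableEq F] :
    ∃ μ, μ ≠ 0 ∧ ∀ a, t.count (μ * a⁻¹) = t.count a := by
  obtain ⟨μ, g, h1, h2, h3⟩ := H
  have h4 := h2.ed_eq hΦ h1
  rw [ed_smul_linM h3 (inv_ne_zero h1), h3, linM_dual fun a ha => (ht a ha).1] at h4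
  have h5 : t.map (fun a => μ * a⁻¹) = t := by
    have := congrArg (Multiset.map (μ * ·)) (linM_inj h4)
    simp only [Multiset.map_map, Function.comp_def, mul_inv_cancel_left₀ h1, Multiset.map_id'] at this
    exact (Multiset.map_congr rfl fun a ha => by rw [(ht a ha).2]).trans this.symm
  refine ⟨μ, h1, fun a => ?_⟩
  conv_lhs => rw [← h5]
  exact Multiset.count_map_eq_count' _ _ (fun a b e => inv_injective (mul_left_cancel₀ h1 e)) a

end Sm

section Bridge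

variable {ι : Type} [Fintype ι] [DecidableEq ι] {F : Type u} [Field F] {σ : F →+* F}
  {Φ : Form σ (ι → F)} {r : ℕ} {H : Subgroup (GL ι F)}

theorem es_of_conj (hH : ∀ x : GL ι F, x ∈ H ↔ glE ι F x ∈ Φ.Sim) {x g : GL ι F}
    (h : g⁻¹ * x * g ∈ H) : ES Φ (ed (toLin' x.1)) := by
  obtain ⟨μ, h1, h2⟩ := (hH _).1 h
  exact ⟨μ, toLin' (g⁻¹ * x * g).1, h1, h2, edM_conj' g x.1⟩

theorem exists_comm_all [Finite F] [Nonempty ι] (hr : r.Prime) (h2 : (r : F) ≠ 0 ∨ r = 2)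
    {A : Matrix ι ι F} (hA : A.det ≠ 0) {z : F} (h : A ^ r = z • (1 : Matrix ι ι F)) (c : F) :
    ∃ P : Matrix ι ι F, P * A = A * P ∧ P.det = c := by
  obtain ⟨q, hq⟩ := exists_mem_edM A
  have h3 := (pow_eq_smul_iff_edM A r z).1 h q hq
  by_cases h0 : (r : F) = 0
  · obtain rfl := h2.resolve_left (not_not.2 h0)
    have : CharP F 2 := CharTwo.of_one_ne_zero_of_two_eq_zero one_ne_zero (by exact_mod_cast h0)
    have h4 := natDegree_le_of_dvd h3 (monic_X_pow_sub_C z two_ne_zero).ne_zero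
    have h5 := (edM_isPP hq).natDegree_pos
    rw [natDegree_X_pow_sub_C] at h4
    obtain ⟨d, rfl⟩ := (bijective_frobenius F 2).2 c
    obtain h6 | h6 : q.natDegree = 1 ∨ q.natDegree = 2 := by omega
    · simpa [h6] using exists_comm_det_powM hq (frobenius F 2 d)
    · simpa [h6, frobenius_def] using exists_comm_det_powM hq d
  · exact exists_comm_det_of_irredM hq ((edM_isPP hq).irreducible_of_dvd
      (squarefree_X_pow_sub_C h0 (ne_zero_of_pow_eq_smul hA h)) h3) c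

omit [DecidableEq ι] in
theorem inj_of_det {g : End F (ι → F)} (h : LinearMap.det g = 1) : Function.Injective g :=
  (LinearMap.isUnit_iff_ker_eq_bot g).1 ((LinearMap.isUnit_iff_isUnit_det g).2 (h ▸ isUnit_one)) |>
    LinearMap.ker_eq_bot.1

/-- the property "every element of order `r` of `PSL` has elementary divisors of a similitude" -/
def AllES {V : Type*} [AddCommGroup V] [Module F V] (Φ : Form σ V) (r : ℕ) : Prop :=
  ∀ g : End F V, LinearMap.det g = 1 → (∃ z : F, g ^ r = z • (1 : End F V)) →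
    (∀ z : F, g ≠ z • (1 : End F V)) → ES Φ (ed g)

theorem allES_of (hH : ∀ x : GL ι F, x ∈ H ↔ glE ι F x ∈ Φ.Sim)
    (h : ∀ x ∈ Cfsg.Geo.specialLinear ι F, (∃ z : F, (x ^ r).1 = z • (1 : Matrix ι ι F)) →
      (∀ z : F, x.1 ≠ z • (1 : Matrix ι ι F)) →
      ∃ g ∈ Cfsg.Geo.specialLinear ι F, g⁻¹ * x * g ∈ H) : AllES Φ r :=
  (gl_forall_iff (C := fun g : End F (ι → F) => LinearMap.det g = 1) mem_SL_iff (fun _ => inj_of_det)
    (R := fun x => ES Φ (ed (toLin' x.1))) (fun g => ES Φ (ed g)) fun _ _ => Iff.rfl).1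
    fun x h1 h2 h3 => (h x h1 h2 h3).elim fun _ h4 => es_of_conj hH h4.2

theorem allES_iff [Finite F] [Nonempty ι] (hΦ : Φ.Nondeg)
    (hH : ∀ x : GL ι F, x ∈ H ↔ glE ι F x ∈ Φ.Sim) (hr : r.Prime) (h2 : (r : F) ≠ 0 ∨ r = 2) :
    (∀ x ∈ Cfsg.Geo.specialLinear ι F, (∃ z : F, (x ^ r).1 = z • (1 : Matrix ι ι F)) →
      (∀ z : F, x.1 ≠ z • (1 : Matrix ι ι F)) →
      ∃ g ∈ Cfsg.Geo.specialLinear ι F, g⁻¹ * x * g ∈ H) ↔ AllES Φ r := by
  refine ⟨allES_of hH, fun h x h1 h3 h4 => ?_⟩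
  obtain ⟨μ, k, h5, h6, h7⟩ := (gl_forall_iff (C := fun g : End F (ι → F) => LinearMap.det g = 1) mem_SL_iff
    (fun _ => inj_of_det) (R := fun x => ES Φ (ed (toLin' x.1))) (fun g => ES Φ (ed g))
    fun _ _ => Iff.rfl).2 h x h1 h3 h4
  obtain ⟨y, rfl⟩ := exists_GL_of_inj (g := k) ((injective_iff_map_eq_zero k).2 fun v hv =>
    hΦ v fun w => by simpa [hv, h5] using h6 v w)
  obtain ⟨z, hz⟩ := h3
  obtain ⟨P, h8, h9⟩ := exists_conj_det (A := x.1) (B := y.1) h7.symm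
    (fun c _ => exists_comm_all hr h2 x.det_ne_zero hz c) one_ne_zero
  let Q := GeneralLinearGroup.mkOfDetNeZero P (h8 ▸ one_ne_zero)
  refine ⟨Q⁻¹, inv_mem (Units.ext h8), ?_⟩
  rw [inv_inv, show Q * x * Q⁻¹ = y from mul_inv_eq_iff_eq_mul.2 (Units.ext h9)]
  exact (hH y).2 ⟨μ, h5, h6⟩

theorem sl_forall_iff (H : Subgroup (GL ι F)) : (∀ x : SpecialLinearGroup ι F,
      (∃ z : F, (x ^ r).1 = z • (1 : Matrix ι ι F)) → (∀ z : F, x.1 ≠ z • (1 : Matrix ι ι F)) →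
      ∃ P : SpecialLinearGroup ι F, P⁻¹ * x * P ∈ H.comap SpecialLinearGroup.toGL) ↔
    ∀ x ∈ Cfsg.Geo.specialLinear ι F, (∃ z : F, (x ^ r).1 = z • (1 : Matrix ι ι F)) →
      (∀ z : F, x.1 ≠ z • (1 : Matrix ι ι F)) →
      ∃ g ∈ Cfsg.Geo.specialLinear ι F, g⁻¹ * x * g ∈ H := by
  have h1 : ∀ x : SpecialLinearGroup ι F, SpecialLinearGroup.toGL x ∈
    Cfsg.Geo.specialLinear ι F := fun x => Units.ext x.2
  have h2 : ∀ x ∈ Cfsg.Geo.specialLinear ι F, ∃ y : SpecialLinearGroup ι F,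
    SpecialLinearGroup.toGL y = x := fun x hx => ⟨⟨x.1, congrArg Units.val hx⟩, Units.ext rfl⟩
  refine ⟨fun h x hx h3 h4 => ?_, fun h x h3 h4 => ?_⟩
  · obtain ⟨y, rfl⟩ := h2 x hx
    obtain ⟨P, hP⟩ := h y (by rwa [← map_pow] at h3) h4
    exact ⟨_, h1 P, by simpa using hP⟩
  · obtain ⟨g, hg, h5⟩ := h _ (h1 x) (by rwa [← map_pow]) h4
    obtain ⟨P, rfl⟩ := h2 g hg
    exact ⟨P, by simpa using h5⟩

theorem index_comap_toGL (H : Subgroup (GL ι F)) :
    (H.comap (SpecialLinearGroup.toGL : SpecialLinearGroup ι F →* GL ι F)).index =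
      H.relIndex (Cfsg.Geo.specialLinear ι F) := by
  rw [Subgroup.index_comap]
  congr 1
  ext x
  exact ⟨fun ⟨y, hy⟩ => hy ▸ Units.ext y.2, fun hx => ⟨⟨x.1, congrArg Units.val hx⟩, Units.ext rfl⟩⟩

theorem card_dvd_mul_inf [Finite F] (G : Subgroup (GL ι F)) {k : ℕ}
    (h : ∀ x ∈ G, LinearMap.det (toLin' x.1) ^ k = 1) :
    Nat.card G ∣ k * Nat.card (G ⊓ Cfsg.Geo.specialLinear ι F : Subgroup _) := by
  rw [← relIndex_mul_card G (Cfsg.Geo.specialLinear ι F), inf_comm]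
  refine mul_dvd_mul_right ?_ _
  rw [Cfsg.Geo.specialLinear, Subgroup.relIndex_ker, ← IsCyclic.exponent_eq_card]
  refine Monoid.exponent_dvd_of_forall_pow_eq_one ?_
  rintro ⟨_, x, hx, rfl⟩
  exact Subtype.ext (Units.ext (by simpa using h x hx))

/-- the index of the similarity group in `SL` -/
theorem mul_card_O_dvd [Fintype F] [Nonempty ι] (hH : ∀ x : GL ι F, x ∈ H ↔ glE ι F x ∈ Φ.Sim)
    {k : ℕ} (hk : ∀ g, Pres Φ g → LinearMap.det g ^ k = 1)
    (h : r ∣ H.relIndex (Cfsg.Geo.specialLinear ι F)) :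
    r * (Fintype.card F - 1) * Nat.card Φ.O ∣ k * glc (Fintype.card F) (Fintype.card ι) := by
  let G : Subgroup (GL ι F) := Φ.O.comap (glE ι F).toMonoidHom
  have hG : ∀ x : GL ι F, x ∈ G ↔ Pres Φ (toLin' x.1) :=
    fun x => ⟨fun h => ⟨h.1, h.2⟩, fun h => ⟨h.B, h.Q⟩⟩
  have h1 := card_dvd_mul_inf G fun x hx => hk _ ((hG x).1 hx)
  have h2 : Nat.card (G ⊓ Cfsg.Geo.specialLinear ι F : Subgroup _) ∣
      Nat.card (H ⊓ Cfsg.Geo.specialLinear ι F : Subgroup _) :=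
    Subgroup.card_dvd_of_le (inf_le_inf_right _ fun x hx => (hH x).2 (Φ.O_le_Sim hx))
  have h3 := (Cfsg.Geo.specialLinear ι F).index_mul_card
  rw [Cfsg.Geo.specialLinear, Subgroup.index_ker, MonoidHom.range_eq_top.2
    GeneralLinearGroup.det_surjective, Subgroup.card_top, Nat.card_units, card_GL_glc,
    Nat.card_eq_fintype_card, ← Cfsg.Geo.specialLinear, ← relIndex_mul_card _ H] at h3
  rw [← h3, ← card_eq_O hG]
  calc _ ∣ H.relIndex (Cfsg.Geo.specialLinear ι F) * (Fintype.card F - 1) * (k * _) :=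
        mul_dvd_mul (mul_dvd_mul_right h _) (h1.trans (mul_dvd_mul_left k h2))
    _ = _ := by ring

end Bridge

section Der

variable {F : Type u} {V : Type*} [Field F] {σ : F →+* F} [AddCommGroup V] [Module F V]
  [FiniteDimensional F V] {Φ : Form σ V} {g : End F V} {r : ℕ}

theorem not_allES_one (hΦ : Φ.Nondeg) (hr : r.Prime) (hr2 : r ≠ 2) {ω : F} (hω : orderOf ω = r)
    (hσ : σ ω = ω) {n : ℕ} (hV : finrank F V = n) (hn : 3 ≤ n) (h1 : ¬ (n = 6 ∧ r = 3))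
    (h2 : ¬ ((r = 3 ∨ r = 5) ∧ n = r)) : ¬ AllES Φ r := by
  classical
  obtain ⟨k, rfl⟩ := Nat.exists_eq_add_of_le' hn
  have h3 : ω ^ r = 1 := hω ▸ pow_orderOf_eq_one ω
  have h0 : ω ≠ 0 := fun e => by simp [e, hr.ne_zero] at h3
  have h4 : ∀ m, 0 < m → m ≤ 6 → ω ^ m = 1 → (r = 3 ∧ m % 3 = 0) ∨ (r = 5 ∧ m = 5) := by
    intro m a1 a2 a3
    have a4 : r ∣ m := hω ▸ orderOf_dvd_of_pow_eq_one a3
    have a5 := Nat.le_of_dvd a1 a4
    have a6 := hr.two_le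
    have : r ≠ 4 := by rintro rfl; norm_num at hr
    have : r ≠ 6 := by rintro rfl; norm_num at hr
    obtain rfl | rfl : r = 3 ∨ r = 5 := by omega
    all_goals omega
  have n1 : ω ≠ 1 := fun e => by have := h4 1 one_pos (by omega) (by simp [e]); omega
  obtain ⟨ν, hν⟩ : ∃ ν, ν = ω⁻¹ * ω⁻¹ := ⟨_, rfl⟩
  have n2 : ω ^ 2 ≠ 1 := fun e => by have := h4 2 two_pos (by omega) e; omega
  have n4 : ω ^ 4 ≠ 1 := fun e => by have := h4 4 (by omega) (by omega) e; omega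
  have n5 : ν ≠ 1 := fun e => n2 (by rw [hν] at e; field_simp at e; exact e.symm)
  have n6 : ν = ω ↔ ω ^ 3 = 1 := by
    rw [hν]; exact ⟨fun e => by field_simp at e; exact e.symm, fun e => by field_simp; exact e.symm⟩
  obtain ⟨t, ht⟩ : ∃ t : Multiset F, t = ω ::ₘ ω ::ₘ ν ::ₘ Multiset.replicate k 1 := ⟨_, rfl⟩
  have hm : ∀ a, a ∈ t ↔ a = ω ∨ a = ν ∨ (k ≠ 0 ∧ a = 1) := fun a => by
    simp [ht, Multiset.mem_replicate]
  obtain ⟨g, hg⟩ := exists_linM (V := V) (t := t) (by simp [ht, hV])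
  intro H
  obtain ⟨μ, -, h5⟩ := (hg ▸ H g (by rw [det_linM hg, ht, hν]; simp [h0]) ⟨1, pow_linM hg fun a ha => by
      rcases (hm a).1 ha with rfl | rfl | ⟨-, rfl⟩ <;> simp [h3, hν, mul_pow]⟩ (by
      by_cases hk : k = 0
      · refine not_scalar_linM hg (fun e => ?_) ((hm ν).2 (by simp)) ((hm ω).2 (by simp))
        have := h4 3 (by omega) (by omega) (n6.1 e); omega
      · exact not_scalar_linM hg n1 ((hm ω).2 (by simp)) ((hm 1).2 (by simp [hk]))) :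
      ES Φ (linM t)).lin hΦ fun a ha => by
    rcases (hm a).1 ha with rfl | rfl | ⟨-, rfl⟩ <;> simp [h0, hν, hσ]
  have h6 : ∀ a ∈ t, μ * a⁻¹ ∈ t := fun a ha => by
    rwa [← Multiset.one_le_count_iff_mem, h5, Multiset.one_le_count_iff_mem]
  have h7 := h5 ω
  by_cases h8 : ω ^ 3 = 1
  · have := h4 3 (by omega) (by omega) h8
    have hk : k ≠ 0 := by omega
    rcases (hm _).1 (h6 ω ((hm _).2 (by simp))) with e | e | ⟨-, e⟩
    rotate_left 2
    · rw [e, ht, n6.2 h8] at h7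
      simp [n1.symm, Multiset.count_replicate] at h7
      omega
    all_goals
      obtain rfl : μ = ω ^ 2 := by rw [sq, ← mul_inv_eq_iff_eq_mul₀ h0, e, ← n6.2 h8]
      rcases (hm _).1 (h6 1 ((hm _).2 (by simp [hk]))) with e | e | ⟨-, e⟩
      · exact n1 (by field_simp at e; exact e)
      · rw [n6.2 h8] at e; exact n1 (by field_simp at e; exact e)
      · exact n2 (by simpa using e)
  · have n7 : ν ≠ ω := mt n6.1 h8
    have n8 : ω ^ 6 ≠ 1 := fun e => by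
      have := h4 6 (by omega) (by omega) e
      exact h8 (by rw [← h3]; congr 1; omega)
    have h9 := (hm _).1 (h6 ν ((hm _).2 (by simp)))
    rcases (hm _).1 (h6 ω ((hm _).2 (by simp))) with e | e | ⟨-, e⟩
    · obtain rfl : μ = ω ^ 2 := by rw [sq, ← mul_inv_eq_iff_eq_mul₀ h0, e]
      rw [hν] at h9
      rcases h9 with e | e | ⟨-, e⟩ <;> field_simp at e <;> contradiction
    · rw [e, ht] at h7
      simp [n1.symm, n5.symm, n7, n7.symm, Multiset.count_replicate] at h7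
    · rw [e, ht] at h7
      simp [n1.symm, n5.symm, n7.symm, Multiset.count_replicate] at h7
      obtain rfl : μ = ω := by rw [← one_mul ω, ← mul_inv_eq_iff_eq_mul₀ h0, e]
      rw [hν] at h9
      rcases h9 with e | e | ⟨-, e⟩ <;> field_simp at e <;> try contradiction
      have := h4 5 (by omega) (by omega) e
      omega

theorem not_allES_two (hΦ : Φ.Nondeg) (hr : r.Prime) (hr2 : r ≠ 2) {c : F}
    (hc : orderOf c = r ^ 2) (hσ : σ c = c) (hV : finrank F V = r) : ¬ AllES Φ r := by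
  classical
  have h3 : (c ^ r) ^ r = 1 := by rw [← pow_mul, ← sq, ← hc, pow_orderOf_eq_one]
  have h0 : c ≠ 0 := fun e => by simp [e, hr.ne_zero] at h3
  have n2 : (c ^ r) ^ 2 ≠ 1 := fun e => hr2 ((Nat.prime_dvd_prime_iff_eq hr Nat.prime_two).1
    (Nat.dvd_of_mul_dvd_mul_left hr.pos (by
      rw [← sq, ← hc]; exact orderOf_dvd_of_pow_eq_one (by rwa [pow_mul]))))
  obtain ⟨d, hd⟩ : ∃ d, d = c * (c ^ r)⁻¹ := ⟨_, rfl⟩
  have n1 : d ≠ c := fun e => n2 (by rw [hd] at e; field_simp at e; rw [← e, one_pow])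
  obtain ⟨k, hk⟩ : ∃ k, r = k + 3 := ⟨r - 3, by have := hr.two_le; omega⟩
  obtain ⟨t, ht⟩ : ∃ t : Multiset F, t = d ::ₘ Multiset.replicate (k + 2) c := ⟨_, rfl⟩
  have hm : ∀ a, a ∈ t ↔ a = d ∨ a = c := fun a => by
    rw [ht, Multiset.mem_cons, Multiset.mem_replicate]; simp
  obtain ⟨g, hg⟩ := exists_linM (V := V) (t := t) (by simp [ht, hV, hk])
  intro H
  obtain ⟨μ, -, h5⟩ := (hg ▸ H g (by
      rw [det_linM hg, ht, hd, hk, Multiset.prod_cons, Multiset.prod_replicate]; field_simp; ring)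
      ⟨c ^ r, pow_linM hg fun a ha => by
        rcases (hm a).1 ha with rfl | rfl <;> simp [h3, hd, mul_pow]⟩
      (not_scalar_linM hg n1 ((hm d).2 (by simp)) ((hm c).2 (by simp))) :
      ES Φ (linM t)).lin hΦ fun a ha => by
    rcases (hm a).1 ha with rfl | rfl <;> simp [h0, hd, hσ]
  have h6 : ∀ a ∈ t, μ * a⁻¹ ∈ t := fun a ha => by
    rwa [← Multiset.one_le_count_iff_mem, h5, Multiset.one_le_count_iff_mem]
  have h7 := h5 c
  rcases (hm _).1 (h6 c ((hm _).2 (by simp))) with e | e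
  · rw [e, ht] at h7
    simp [n1, n1.symm, Multiset.count_replicate] at h7
  · obtain rfl : μ = c ^ 2 := by rw [sq, ← mul_inv_eq_iff_eq_mul₀ h0, e]
    rcases (hm _).1 (h6 d ((hm _).2 (by simp))) with e | e <;> rw [hd] at e <;> field_simp at e
    · exact n2 e
    · exact n2 (by rw [e, one_pow])

theorem not_allES_Tr [Fintype F] [Nontrivial V] (hΦ : Φ.Nondeg) (hk : Φ.κ = 0 ∨ (2 : F) ≠ 0)
    (hr : r.Prime) (hr0 : (r : F) ≠ 0) (h1 : ¬ r ∣ Fintype.card F - 1) {s : Multiset F[X]} {k : ℕ}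
    (hs : ∀ a ∈ s, a ∈ Tr F r) (h0 : s ≠ 0)
    (hd : s.card * orderOf (Fintype.card F : ZMod r) + k = finrank F V)
    (hno : ∀ g, Pres Φ g → ed g ≠ s + Multiset.replicate k (X - C 1)) : ¬ AllES Φ r := by
  obtain ⟨g, hg⟩ := exists_ed_of_finrank (V := V) (fun q hq => (Tr_add_dvd hs q hq).1)
    ((sum_deg_add hr hr0 hs k).trans hd)
  obtain ⟨h2, h3⟩ := pow_of_ed_Tr hr hs h0 hg
  have h4 : ∀ a : F, a ^ r = 1 → a = 1 := fun a =>
    eq_one_of_pow_eq_one ((Nat.Prime.coprime_iff_not_dvd hr).2 h1) hr.ne_zero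
  intro H
  obtain ⟨k, h5, h6⟩ := (H g (h4 _ (by rw [← map_pow, h2, map_one])) ⟨1, by simp [h2]⟩
    fun z e => h3 (by
      rw [e, _root_.smul_pow, one_pow] at h2
      rw [e, h4 z (smul_left_injective F one_ne_zero (h2.trans (one_smul F _).symm)), one_smul])).pres
    hΦ hk h2 fun μ _ => h4 μ
  exact hno k h5 (h6.trans hg)

theorem not_allES_ne [Fintype F] [Nontrivial V] (hΦ : Φ.Nondeg) (hk : Φ.κ = 0 ∨ (2 : F) ≠ 0)
    (hr : r.Prime) (hr0 : (r : F) ≠ 0) (h1 : ¬ r ∣ Fintype.card F - 1)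
    (hd : orderOf (Fintype.card F : ZMod r) ≤ finrank F V) (h : ∀ a ∈ Tr F r, dual σ a ≠ a) :
    ¬ AllES Φ r := by
  obtain ⟨a, ha⟩ := Tr_nonempty hr hr0
  obtain ⟨k, hk'⟩ := Nat.exists_eq_add_of_le hd
  refine not_allES_Tr hΦ hk hr hr0 h1 (s := {a}) (k := k) (by simpa) (by simp) (by simp [hk'])
    fun g hg e => h a ha ?_
  exact Multiset.singleton_inj.1 (map_dual_of_add (s := {a}) (e ▸ ed_dual_of_B hΦ hg.B))

theorem not_allES_uni [Finite F] {Φ : Form (RingHom.id F) V} (p : ℕ) [hp : Fact p.Prime]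
    [CharP F p] (h2 : (2 : F) ≠ 0) (hΦ : Φ.Nondeg) {j : ℕ} (hj : Φ.ε * (-1) ^ j ≠ 1) (h0 : j ≠ 0)
    (h1 : j + 1 ≤ p) (hV : j + 1 ≤ finrank F V) : ¬ AllES Φ p := by
  have : Nontrivial V := nontrivial_of_finrank_pos (R := F) (by omega)
  obtain ⟨k, hk⟩ := Nat.exists_eq_add_of_le hV
  obtain ⟨g, hg⟩ := exists_ed_of_finrank (V := V)
    (uni_isPP (F := F) (μ := (j + 1) ::ₘ Multiset.replicate k 1) (by simp [Multiset.mem_replicate]))
    (by simp [uni_natDegree, hk])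
  have h3 := pow_of_ed_uni p hg (by simp [Multiset.mem_replicate, h1, hp.out.one_le])
  have h4 : ∀ a : F, a ^ p = 1 → a = 1 := fun a e =>
    frobenius_inj F p (by simpa [frobenius_def] using e)
  intro H
  obtain ⟨l, h5, h6⟩ := (H g (h4 _ (by rw [← map_pow, h3, map_one])) ⟨1, by simp [h3]⟩
    (not_scalar_of_uni hg (a := j + 1) (by simp) (by omega))).pres hΦ (Or.inr h2) h3 fun μ _ => h4 μ
  simpa [Multiset.count_replicate, h0] using even_count_uni h2 hΦ h5 (h6.trans hg) hj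

end Der

end H16
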