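import Cfsg.Agent.H16.LA29

/-! Similitudes: index computations, involutions and the exceptional cases. -/

set_option autoImplicit false

namespace H16

open Module Polynomial H23 H23.Form H14.Wall Matrix

universe u v

section Num

variable {r q : ℕ}

theorem qf_two_mul (q d : ℕ) :
    qf q (2 * d) = qf (q ^ 2) d * ∏ j ∈ Finset.range d, (q ^ (2 * j + 1) - 1) := by
  induction d with
  | zero => rfl
  | succ d ih =>
    rw [mul_add, mul_one, qf_succ, qf_succ, ih, qf_succ, Finset.prod_range_succ, ← pow_mul,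
      mul_add 2 d 1]
    ring

theorem qf_sq_eq (q m : ℕ) : ∏ i ∈ Finset.range m, (q ^ (2 * (i + 1)) - 1) = qf (q ^ 2) m := by
  simp only [qf, pow_mul]

theorem qf_sq_uf (q n : ℕ) : qf (q ^ 2) n =
    uf q n * ∏ i ∈ Finset.range n, (if Even i then q ^ (i + 1) - 1 else q ^ (i + 1) + 1) := by
  rw [qf, uf, ← Finset.prod_mul_distrib]
  refine Finset.prod_congr rfl fun j _ => ?_
  rw [← pow_mul, mul_comm 2, pow_mul, ← one_pow 2, Nat.sq_sub_sq]
  split_ifs <;> simp [mul_comm]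

theorem dvd_of_mul_dvd {X N P : ℕ} (hN : r.Coprime N) (hX : X ≠ 0) (h : r * X ∣ N * (X * P)) :
    r ∣ P := hN.dvd_of_dvd_mul_left (Nat.dvd_of_mul_dvd_mul_right (Nat.pos_of_ne_zero hX)
      (by rwa [mul_comm X, ← mul_assoc] at h))

theorem exists_odd_of_dvd (hr : r.Prime) {d : ℕ}
    (h : r ∣ ∏ j ∈ Finset.range d, (q ^ (2 * j + 1) - 1)) (hq : 0 < q) :
    Odd (orderOf (q : ZMod r)) ∧ orderOf (q : ZMod r) < 2 * d := by
  obtain ⟨j, h1, h2⟩ := (Prime.dvd_finsetProd_iff hr.prime _).1 h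
  have h3 := (orderOf_zmod_dvd_iff hq _).2 h2
  have := Nat.le_of_dvd (by omega) h3
  exact ⟨Odd.of_dvd_nat (odd_two_mul_add_one j) h3, by have := Finset.mem_range.1 h1; omega⟩

theorem eq_two_of_dvd (hr : r.Prime) {a : ℕ} (ha : 0 < a) (h1 : r ∣ a + 1) (h2 : r ∣ a - 1) :
    r = 2 := (Nat.prime_dvd_prime_iff_eq hr Nat.prime_two).1 (by
  have := Nat.dvd_sub h1 h2
  rwa [show a + 1 - (a - 1) = 2 by omega] at this)

theorem dvd_sq_sub_one {a : ℕ} (h : r ∣ a + 1 ∨ r ∣ a - 1) : r ∣ a ^ 2 - 1 := by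
  rw [← one_pow 2, Nat.sq_sub_sq]
  exact h.elim (·.mul_right _) (·.mul_left _)

theorem sym_three : ∀ a b c : ZMod 3, a + (b + c) = 0 → ∃ e : ZMod 3,
    (({a, b, c} : Multiset (ZMod 3)).map (e + ·)).map Neg.neg =
      ({a, b, c} : Multiset (ZMod 3)).map (e + ·) := by decide +kernel

theorem sym_five : ∀ a b c d f : ZMod 5, a + (b + (c + (d + f))) = 0 → ∃ e : ZMod 5,
    (({a, b, c, d, f} : Multiset (ZMod 5)).map (e + ·)).map Neg.neg =
      ({a, b, c, d, f} : Multiset (ZMod 5)).map (e + ·) := by decide +kernel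

theorem sym_of (hr : r = 3 ∨ r = 5) (u : Multiset (ZMod r)) (h1 : u.card = r) (h2 : u.sum = 0) :
    ∃ e, (u.map (e + ·)).map Neg.neg = u.map (e + ·) := by
  induction u using Quotient.inductionOn with
  | _ l =>
    rcases hr with rfl | rfl
    · match l, h1 with
      | [a, b, c], _ => exact sym_three a b c (by simpa using h2)
    · match l, h1 with
      | [a, b, c, d, f], _ => exact sym_five a b c d f (by simpa using h2)

theorem exists_map_eq {α β : Type*} (f : β → α) (s : Multiset α) (h : ∀ a ∈ s, ∃ b, f b = a) :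
    ∃ t : Multiset β, t.map f = s := by
  choose φ hφ using h
  exact ⟨s.attach.map fun a => φ a.1 a.2, by simp [Multiset.map_map, hφ]⟩

end Num

section Odd

variable {F : Type u} {V : Type*} [Field F] [Fintype F] [AddCommGroup V] [Module F V]
  [FiniteDimensional F V] {g : End F V} {r : ℕ}

theorem ed_eq_linM (hr : r.Prime) (h : r ∣ Fintype.card F - 1) (hg : g ^ r = 1) :
    ∃ t, (∀ a ∈ t, a ^ r = 1) ∧ ed g = linM t := by
  have h1 := (ed_dvd_one_iff g r).1 hg
  obtain ⟨t, ht⟩ := exists_map_eq (fun a : F => X - C a) (ed g) fun q hq => by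
    obtain ⟨-, rfl | ⟨-, h2⟩⟩ := irred_of_dvd_X_pow_sub_one hr (cast_ne_zero_of_dvd h) (ed_isPP hq)
      (h1 q hq)
    · exact ⟨1, rfl⟩
    · rw [(orderOf_eq_one_iff_dvd Fintype.card_pos).2 h] at h2
      exact ⟨-q.coeff 0, by rw [C_neg, sub_neg_eq_add, ← (ed_isPP hq).monic.eq_X_add_C h2]⟩
  refine ⟨t, fun a ha => ?_, ht.symm⟩
  simpa [sub_eq_zero] using dvd_iff_isRoot.1 (h1 _ (ht ▸ Multiset.mem_map_of_mem _ ha))

theorem exists_sym [hp : Fact r.Prime] (hr : r = 3 ∨ r = 5)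
    (hv : padicValNat r (Fintype.card F - 1) = 1) (hV : finrank F V = r)
    (hd : LinearMap.det g = 1) {z : F} (hz : g ^ r = z • (1 : End F V)) : ∃ (c : F) (t : Multiset F),
    c ≠ 0 ∧ (∀ a ∈ t, a ^ r = 1) ∧ t.map (·⁻¹) = t ∧ ed (c • g) = linM t := by
  have h0 : Fintype.card F - 1 ≠ 0 := by have := Fintype.one_lt_card (α := F); omega
  have h1 : r ∣ Fintype.card F - 1 := by simpa using (padicValNat_dvd_iff_le h0).2 hv.ge
  have h2 : Odd r := by rcases hr with rfl | rfl <;> decide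
  obtain rfl : z = 1 := by
    by_cases h3 : ∀ b, b ^ r ≠ z
    · obtain ⟨k, h4, h5⟩ := ed_nonsplit hp.out h3 hz
      obtain rfl : k = 1 := Nat.eq_of_mul_eq_mul_right hp.out.pos (by omega)
      rw [← pow_one z, ← det_of_nonsplit h2 h4, hd]
    · push Not at h3
      obtain ⟨b, rfl⟩ := h3
      have h4 := det_pow_of hz
      rw [hd, one_pow, hV, ← pow_mul, ← sq] at h4
      obtain ⟨j, h5, h6⟩ := (Nat.dvd_prime_pow hp.out).1 (orderOf_dvd_of_pow_eq_one h4.symm)
      have h7 := orderOf_dvd_of_pow_eq_one (FiniteField.pow_card_sub_one_eq_one b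
        (fun e => by simp [e, hp.out.ne_zero] at h4))
      rw [h6, padicValNat_dvd_iff_le h0, hv] at h7
      exact orderOf_dvd_iff_pow_eq_one.1 (h6 ▸ (pow_dvd_pow r h7).trans (pow_one r).dvd)
  obtain ⟨t, h3, h4⟩ := ed_eq_linM hp.out h1 (hz.trans (one_smul F _))
  obtain ⟨ω, h5, h6⟩ := exists_orderOf_eq h1
  have h7 : IsPrimitiveRoot ω r := h6 ▸ IsPrimitiveRoot.orderOf ω
  let φ : ZMod r → F := fun a => ω ^ a.val
  have h8 : ∀ a b, φ (a + b) = φ a * φ b := fun a b => by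
    simp only [φ, ZMod.val_add, ← pow_add, ← pow_eq_pow_mod _ h7.pow_eq_one]
  have h9 : φ 0 = 1 := by simp [φ]
  obtain ⟨u, rfl⟩ := exists_map_eq φ t fun a ha => by
    obtain ⟨i, h, rfl⟩ := h7.eq_pow_of_pow_eq_one (h3 a ha)
    exact ⟨i, by simp only [φ, ZMod.val_cast_of_lt h]⟩
  have h10 : ∀ u : Multiset (ZMod r), (u.map φ).prod = φ u.sum := fun u => by
    induction u using Multiset.induction_on <;> simp [*]
  obtain ⟨e, he⟩ := sym_of hr u (hV.symm.trans (by
      rw [← sum_natDegree_ed g, h4, linM_deg, Multiset.card_map])).symm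
    ((ZMod.val_eq_zero _).1 (Nat.eq_zero_of_dvd_of_lt ((h7.pow_eq_one_iff_dvd _).1
      ((h10 u).symm.trans ((det_linM h4).symm.trans hd))) (ZMod.val_lt _)))
  refine ⟨φ e, (u.map (e + ·)).map φ, pow_ne_zero _ h5, fun a ha => ?_, ?_, ?_⟩
  · obtain ⟨b, -, rfl⟩ := Multiset.mem_map.1 ha
    rw [← pow_mul, mul_comm, pow_mul, h7.pow_eq_one, one_pow]
  · conv_rhs => rw [← he]
    simp only [Multiset.map_map]
    exact Multiset.map_congr rfl fun a _ => inv_eq_of_mul_eq_one_right (by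
      simp only [Function.comp]; rw [← h8, add_neg_cancel, h9])
  · rw [ed_smul_linM h4 (c := φ e) (pow_ne_zero _ h5)]
    simp only [Multiset.map_map, Function.comp_def, h8]

omit [Fintype F] in
theorem det_mul_conj {σ : F →+* F} {Φ : Form σ V} (hΦ : Φ.Nondeg) (hg : Pres Φ g) :
    LinearMap.det g * σ (LinearMap.det g) = 1 := by
  have h := det_of_dual (σ := σ) (g := g.prodMap g) (h := g)
    (by rw [ed_prodMap, ed_dual_of_B hΦ hg.B]) (ed_coeff_ne hΦ hg)
  have h0 : LinearMap.det g ≠ 0 := ((LinearMap.isUnit_iff_isUnit_det g).1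
    ((LinearMap.isUnit_iff_ker_eq_bot g).2 (LinearMap.ker_eq_bot.2 (hg.inj hΦ)))).ne_zero
  rw [LinearMap.det_prodMap] at h
  exact (congrArg (· * σ (LinearMap.det g)) (mul_left_cancel₀ h0 h)).trans
    (inv_mul_cancel₀ (by simpa using h0))

variable {Φ : Form (RingHom.id F) V} {n : ℕ}

omit [Fintype F] in
theorem det_sq_of_pres (hΦ : Φ.Nondeg) (g : End F V) (hg : Pres Φ g) : LinearMap.det g ^ 2 = 1 :=
  (sq _).trans (det_mul_conj hΦ hg)

omit [FiniteDimensional F V] in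
theorem dvd_of_card_O (hr : r.Prime) (hr2 : r ≠ 2) (hr0 : (r : F) ≠ 0) {X P : ℕ} (hX : X ≠ 0)
    (h1 : X ∣ Nat.card Φ.O) (h2 : qf (Fintype.card F) n = X * P)
    (h : r * (Fintype.card F - 1) * Nat.card Φ.O ∣ 2 * glc (Fintype.card F) n) : r ∣ P := by
  rw [glc_eq, h2, ← mul_assoc] at h
  exact dvd_of_mul_dvd (Nat.Coprime.mul_right ((Nat.coprime_primes hr Nat.prime_two).2 hr2)
    ((coprime_card_of_cast hr hr0).pow_right _)) hX
    ((mul_dvd_mul (dvd_mul_right _ _) h1).trans h)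

theorem not_allES_odd (hΦ : Φ.Nondeg) (hk : Φ.κ = 0 ∨ (2 : F) ≠ 0) (hr : r.Prime) (hr2 : r ≠ 2)
    (hr0 : (r : F) ≠ 0) (hV : finrank F V = n) (hn : 3 ≤ n) (h1 : ¬ (n = 6 ∧ r = 3))
    (h2 : ¬ ((r = 3 ∨ r = 5) ∧ n = r ∧ padicValNat r (Fintype.card F - 1) = 1))
    (h : Odd (orderOf (Fintype.card F : ZMod r)))
    (h' : orderOf (Fintype.card F : ZMod r) ≤ n) : ¬ AllES Φ r := by
  have : Nontrivial V := nontrivial_of_finrank_pos (R := F) (by omega)
  have := Fact.mk hr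
  have h0 : Fintype.card F - 1 ≠ 0 := by have := Fintype.one_lt_card (α := F); omega
  by_cases h3 : r ∣ Fintype.card F - 1
  · by_cases h4 : (r = 3 ∨ r = 5) ∧ n = r
    · obtain ⟨c, -, h5⟩ := exists_orderOf_eq (F := F) ((padicValNat_dvd_iff_le (p := r) (n := 2) h0).2 (by
        have := (padicValNat_dvd_iff_le (p := r) (n := 1) h0).1 (by simpa using h3)
        have : padicValNat r (Fintype.card F - 1) ≠ 1 := fun e => h2 ⟨h4.1, h4.2, e⟩
        omega))
      exact not_allES_two hΦ hr hr2 h5 rfl (hV.trans h4.2)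
    · obtain ⟨c, -, h5⟩ := exists_orderOf_eq h3
      exact not_allES_one hΦ hr hr2 h5 rfl hV hn h1 h4
  · exact not_allES_ne hΦ hk hr hr0 h3 (hV ▸ h') fun a ha e => Nat.not_even_iff_odd.2 h
      ((OP.rev_eq ⟨hr, hr2, hr0, rfl⟩ ha).1 (by rwa [dual, Polynomial.map_id] at e))

theorem not_allES_alt (p : ℕ) [hp : Fact p.Prime] [CharP F p] (hΦ : Φ.Nondeg) (hε : Φ.ε = -1)
    (hκ : Φ.κ = 0) (hr : r.Prime) (hr2 : r ≠ 2) (hV : finrank F V = n) (hn : 4 ≤ n) (he : Even n)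
    (h1 : ¬ (n = 6 ∧ r = 3))
    (h : r * (Fintype.card F - 1) * Nat.card Φ.O ∣ 2 * glc (Fintype.card F) n) : ¬ AllES Φ r := by
  by_cases h2 : r = p
  · subst h2
    have h3 : (2 : F) ≠ 0 := cast_ne_zero_of_ne r Nat.prime_two hr2.symm
    exact not_allES_uni r h3 hΦ (j := 2) (hε ▸ (eps_pow_ne h3 2).2 (by decide)) two_ne_zero
      (by have := hr.two_le; omega) (by omega)
  have hr0 := cast_ne_zero_of_ne (F := F) p hr h2
  obtain ⟨d, rfl⟩ := he.two_dvd
  obtain ⟨h3, h4⟩ := exists_odd_of_dvd hr (dvd_of_card_O hr hr2 hr0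
    (qf_pos (Nat.one_lt_pow two_ne_zero Fintype.one_lt_card) d).ne'
    (card_O_alt' hΦ hε hκ hV ▸ dvd_mul_left _ _) (qf_two_mul _ d) h) Fintype.card_pos
  exact not_allES_odd hΦ (Or.inl hκ) hr hr2 hr0 hV (by omega) h1 (by omega) h3 h4.le

theorem not_allES_quad (p : ℕ) [hp : Fact p.Prime] [CharP F p] (hΦ : QS Φ) (h2 : (2 : F) ≠ 0)
    (hr : r.Prime) (hr2 : r ≠ 2) (hV : finrank F V = n) (hn : 3 ≤ n) (h1 : ¬ (n = 6 ∧ r = 3))
    (h2' : ¬ ((r = 3 ∨ r = 5) ∧ n = r ∧ padicValNat r (Fintype.card F - 1) = 1))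
    (h : r * (Fintype.card F - 1) * Nat.card Φ.O ∣ 2 * glc (Fintype.card F) n) : ¬ AllES Φ r := by
  by_cases h3 : r = p
  · subst h3
    exact not_allES_uni r h2 hΦ.nd (j := 1) (hΦ.e ▸ neg_one_pow_ne h2 (j := 1) (by decide)) one_ne_zero
      hr.two_le (by omega)
  have hr0 := cast_ne_zero_of_ne (F := F) p hr h3
  have hq : 1 < Fintype.card F := Fintype.one_lt_card
  have hf := fun d => (qf_pos (Nat.one_lt_pow two_ne_zero hq) d).ne'
  have key := not_allES_odd hΦ.nd (Or.inr h2) hr hr2 hr0 hV hn h1 h2'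
  obtain ⟨m, rfl | rfl⟩ := n.even_or_odd'
  swap
  · obtain ⟨Q, rfl⟩ := H22.exists_eq_ofQuad Φ hΦ.k
    obtain ⟨h4, h5⟩ := exists_odd_of_dvd (d := m + 1) hr (dvd_of_card_O hr hr2 hr0 (hf m)
      (by rw [(H22.nsing_card_O_quad_odd m Q hΦ.nd hV).2, qf_sq_eq]; exact dvd_mul_left _ _)
      (by rw [qf_succ, qf_two_mul, Finset.prod_range_succ, mul_assoc]) h) hq.le
    exact key h4 (by omega)
  obtain ⟨m, rfl⟩ : ∃ k, m = k + 1 := ⟨m - 1, by omega⟩
  obtain ⟨P, hP⟩ : ∃ P, P = ∏ j ∈ Finset.range (m + 1), (Fintype.card F ^ (2 * j + 1) - 1) := ⟨_, rfl⟩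
  have h4 : qf (Fintype.card F) (2 * (m + 1)) = qf (Fintype.card F ^ 2) m *
      ((Fintype.card F ^ (m + 1) + 1) * (Fintype.card F ^ (m + 1) - 1)) * P := by
    rw [qf_two_mul, qf_succ, ← pow_mul, mul_comm 2, pow_mul, ← Nat.sq_sub_sq, one_pow, hP]
  have h5 : 1 < Fintype.card F ^ (m + 1) := Nat.one_lt_pow (by omega) hq
  obtain h6 | h6 : r ∣ P ∨ (IsPlus Φ (m + 1) ∧ r ∣ Fintype.card F ^ (m + 1) + 1) ∨
      (¬ IsPlus Φ (m + 1) ∧ r ∣ Fintype.card F ^ (m + 1) - 1) := by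
    by_cases h6 : IsPlus Φ (m + 1)
    · have := (hr.dvd_mul.1 (dvd_of_card_O hr hr2 hr0
        (X := (Fintype.card F ^ (m + 1) - 1) * qf (Fintype.card F ^ 2) m)
        (mul_ne_zero (by omega) (hf m)) (by
          rw [h6.card_O, qf_sq_eq, mul_assoc]; exact dvd_mul_left _ _)
        (P := (Fintype.card F ^ (m + 1) + 1) * P) (by rw [h4]; ring) h))
      exact this.symm.imp_right fun e => Or.inl ⟨h6, e⟩
    · have := (hr.dvd_mul.1 (dvd_of_card_O hr hr2 hr0
        (X := (Fintype.card F ^ (m + 1) + 1) * qf (Fintype.card F ^ 2) m)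
        (mul_ne_zero (by omega) (hf m)) (by
          rw [card_O_minus hΦ.nd hΦ.k hV h6, qf_sq_eq, mul_assoc]; exact dvd_mul_left _ _)
        (P := (Fintype.card F ^ (m + 1) - 1) * P) (by rw [h4]; ring) h))
      exact this.symm.imp_right fun e => Or.inr ⟨h6, e⟩
  · exact key (exists_odd_of_dvd hr (hP ▸ h6) hq.le).1 (exists_odd_of_dvd hr (hP ▸ h6) hq.le).2.le
  obtain ⟨u, hu⟩ : orderOf (Fintype.card F : ZMod r) ∣ 2 * (m + 1) :=
    (orderOf_zmod_dvd_iff hq.le _).2 (by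
      rw [mul_comm, pow_mul]; exact dvd_sq_sub_one (h6.imp (·.2) (·.2)))
  rcases Nat.even_or_odd (orderOf (Fintype.card F : ZMod r)) with h7 | h7
  swap
  · exact key h7 (Nat.le_of_dvd (by omega) ⟨u, hu⟩)
  have : Nontrivial V := nontrivial_of_finrank_pos (R := F) (by omega)
  obtain ⟨a, ha⟩ := Tr_nonempty hr hr0
  have h8 : Even u ↔ r ∣ Fintype.card F ^ (m + 1) - 1 := by
    rw [← orderOf_zmod_dvd_iff hq.le]
    refine ⟨fun ⟨w, hw⟩ => ⟨w, by rw [hw, mul_add _ w] at hu; omega⟩, fun ⟨w, hw⟩ => ⟨w, ?_⟩⟩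
    exact Nat.eq_of_mul_eq_mul_left (orderOf_card_pos (F := F) hr hr0) (by rw [mul_add]; omega)
  refine not_allES_Tr hΦ.nd (Or.inr h2) hr hr0 (fun e => ?_) (s := Multiset.replicate u a) (k := 0)
    (fun b hb => Multiset.eq_of_mem_replicate hb ▸ ha) (fun e => ?_) (by simp [hV, hu, mul_comm])
    fun g hg e => ?_
  · rw [(orderOf_eq_one_iff_dvd hq.le).2 e] at h7
    exact absurd h7 (by decide)
  · obtain rfl : u = 0 := by simpa using congrArg Multiset.card e
    omega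
  · have h9 := isPlus_iff_even hΦ.nd hΦ.k hV hr hr2 hr0 hg fun b hb => by
      rw [e] at hb; exact Multiset.eq_of_mem_replicate (by simpa using hb) ▸ ha
    simp only [e, Multiset.replicate_zero, add_zero, Multiset.card_replicate, h8] at h9
    rcases h6 with ⟨h10, h11⟩ | ⟨h10, h11⟩
    · exact hr2 (eq_two_of_dvd hr (by omega) h11 (h9.1 h10))
    · exact h10 (h9.2 h11)

theorem allES_quad [hp : Fact r.Prime] (hΦ : QS Φ) (hr : r = 3 ∨ r = 5)
    (hv : padicValNat r (Fintype.card F - 1) = 1) (hV : finrank F V = r) : AllES Φ r := by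
  rintro g hd ⟨z, hz⟩ -
  obtain ⟨c, t, h1, h2, h3, h4⟩ := exists_sym hr hv hV hd hz
  have h5 : r ∣ Fintype.card F - 1 := by
    simpa using (padicValNat_dvd_iff_le (by have := Fintype.one_lt_card (α := F); omega)).2 hv.ge
  have h6 : OP F r 1 := ⟨hp.out, by omega, cast_ne_zero_of_dvd h5,
    ((orderOf_eq_one_iff_dvd Fintype.card_pos).2 h5).symm⟩
  obtain ⟨s, k, h7, h8⟩ := h6.dec (t := ed (c • g)) fun q hq => ⟨ed_isPP hq,
    (ed_dvd_one_iff _ _).1 ((pow_linM h4 h2).trans (one_smul F _)) q hq⟩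
  have h9 : TS r s := ⟨h7, (map_dual_id s).symm.trans (map_dual_of_add (k := k) (by
    rw [← h8, h4, linM_dual fun a ha e => by simpa [e, hp.out.ne_zero] using h2 a ha]
    exact congrArg linM h3))⟩
  have h10 := h6.deg h7 k
  have h11 := h6.even h9 odd_one
  rw [← h8, sum_natDegree_ed] at h10
  obtain ⟨l, k', h12, h13⟩ := h6.real hΦ h9 ⟨by omega, fun _ => h11, fun e => by
    rw [Nat.even_iff] at h11; omega⟩
  have h14 := h6.deg h7 k'
  rw [← h13, sum_natDegree_ed] at h14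
  obtain rfl : k = k' := by omega
  exact ES.of_smul h1 ((h13.trans h8.symm) ▸ es_of_pres h12)

end Odd

section Two

variable {F : Type u} {V : Type*} [Field F] [Fintype F] [AddCommGroup V] [Module F V]
  [FiniteDimensional F V] {g : End F V} {r : ℕ}

omit [Fintype F] in
theorem ne_zero_of_det [Nontrivial V] (hd : LinearMap.det g = 1) {z : F}
    (hz : g ^ r = z • (1 : End F V)) : z ≠ 0 := by
  rintro rfl
  simpa [hd, finrank_pos.ne'] using det_pow_of hz

omit [Fintype F] in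
theorem ed_scalar (c : F) : ed (c • 1 : End F V) = Multiset.replicate (finrank F V) (X - C c) := by
  have h := Multiset.eq_replicate_card.2 ((eq_smul_iff_ed (c • 1 : End F V) c).1 rfl)
  rw [h, ← sum_natDegree_ed (c • 1 : End F V), h]; simp

omit [Fintype F] in
theorem allES_two [Nontrivial V] {σ : F →+* F} {Φ : Form σ V} (h2 : (2 : F) ≠ 0)
    (h1 : ∀ (c : F) a b, a ≠ 0 → b ≠ 0 → a + b = finrank F V → c ^ a * (-c) ^ b = 1 →
      ES Φ (Multiset.replicate a (X - C 1) + Multiset.replicate b (X - C (-1))))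
    (h3 : ∀ (g : End F V) (z : F), LinearMap.det g = 1 → (∀ b, b ^ 2 ≠ z) → g ^ 2 = z • (1 : End F V) →
      ES Φ (ed g)) : AllES Φ 2 := by
  rintro g hd ⟨z, hz⟩ hs
  by_cases h4 : ∀ b, b ^ 2 ≠ z
  · exact h3 g z hd h4 hz
  push Not at h4
  obtain ⟨c, rfl⟩ := h4
  have h5 := ne_zero_of_det hd hz
  have hc : c ≠ 0 := fun e => h5 (by simp [e])
  obtain ⟨a, b, h6⟩ := exists_rep_of_mem' (mem_ed_sq hz (ss_of_pow h2 h5 hz))
  refine ES.of_smul (inv_ne_zero hc) ?_
  rw [ed_smul_linM (h6.trans (linM_rep a b _ _).symm) (inv_ne_zero hc), Multiset.map_add,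
    Multiset.map_replicate, Multiset.map_replicate, mul_neg, inv_mul_cancel₀ hc, linM_rep]
  refine h1 c a b (fun e => hs (-c) ((eq_smul_iff_ed g _).2 fun q hq => ?_))
    (fun e => hs c ((eq_smul_iff_ed g _).2 fun q hq => ?_))
    (by simpa [h6, -map_neg] using sum_natDegree_ed g) ((det_of_lin h6).symm.trans hd)
  all_goals
    rw [h6, e] at hq
    exact Multiset.eq_of_mem_replicate (by simpa [-map_neg] using hq)

theorem allES_char2 [Nontrivial V] [CharP F 2] {σ : F →+* F} {Φ : Form σ V}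
    (h : ∀ g : End F V, g ^ 2 = 1 → ES Φ (ed g)) : AllES Φ 2 := by
  rintro g hd ⟨z, hz⟩ -
  obtain ⟨c, rfl⟩ := (bijective_frobenius F 2).2 z
  have hc : c ≠ 0 := fun e => ne_zero_of_det hd hz (by simp [e])
  refine ES.of_smul (inv_ne_zero hc) (h _ ?_)
  rw [_root_.smul_pow, hz, smul_smul, frobenius_def, inv_pow, inv_mul_cancel₀ (pow_ne_zero _ hc),
    one_smul]

omit [Fintype F] in
theorem ed_of_invol [CharP F 2] (h : g ^ 2 = 1) : 2 * rkE g ≤ finrank F V ∧ ed g =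
    uni F (Multiset.replicate (rkE g) 2 + Multiset.replicate (finrank F V - 2 * rkE g) 1) := by
  obtain ⟨μ, h1, h2, h3⟩ := ed_uni_of_pow 2 h
  obtain ⟨k, l, rfl⟩ := multiset_one_two h1
  have h4 := rkE_add_kd g
  rw [kd_uni h3] at h4
  simp only [Multiset.sum_add, Multiset.sum_replicate, smul_eq_mul, Multiset.card_add,
    Multiset.card_replicate] at h2 h4
  exact ⟨by omega, by rw [h3, show rkE g = k by omega, show finrank F V - 2 * k = l by omega]⟩

omit [Fintype F] in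
theorem es_of_nonsplit {σ : F →+* F} {Φ : Form σ V} {z μ : F} (hz : ∀ b, b ^ 2 ≠ z) (hμ : μ ≠ 0)
    (h : ∃ k, SMu Φ μ k ∧ k ^ 2 = z • (1 : End F V)) (hg : g ^ 2 = z • (1 : End F V)) :
    ES Φ (ed g) := by
  obtain ⟨k, h1, h2⟩ := h
  obtain ⟨a, h3, h4⟩ := ed_nonsplit Nat.prime_two hz h2
  obtain ⟨b, h5, h6⟩ := ed_nonsplit Nat.prime_two hz hg
  exact ⟨μ, k, hμ, h1, by rw [h3, h5, show a = b by omega]⟩

variable {Φ : Form (RingHom.id F) V} {n : ℕ}

theorem allES_alt_iff (p : ℕ) [hp : Fact p.Prime] [CharP F p] (hΦ : Φ.Nondeg) (hε : Φ.ε = -1)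
    (hκ : Φ.κ = 0) (hV : finrank F V = n) (hn : 4 ≤ n) (he : Even n) :
    AllES Φ 2 ↔ padicValNat 2 (Fintype.card F - 1) ≤ padicValNat 2 n := by
  classical
  have : Nontrivial V := nontrivial_of_finrank_pos (R := F) (by omega)
  have h0 : Fintype.card F - 1 ≠ 0 := by have := Fintype.one_lt_card (α := F); omega
  by_cases h2 : p = 2
  · subst h2
    refine iff_of_true (allES_char2 fun g hg => ?_) (by
      rw [padicValNat.eq_zero_of_not_dvd (by simpa using H22.not_dvd_card_pow_sub_one (F := F) 2 le_rfl)]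
      exact Nat.zero_le _)
    obtain ⟨k, h1, h2, h3, -⟩ := exists_inv_alt_b hΦ hκ (ed_of_invol hg).1
    rw [(ed_of_invol hg).2, ← h3, ← (ed_of_invol ((sq k).trans h2)).2]
    exact es_of_pres h1
  have h2 : (2 : F) ≠ 0 := cast_ne_zero_of_ne p Nat.prime_two (Ne.symm h2)
  refine ⟨fun H => not_lt.1 fun h => ?_, fun h => allES_two h2 (fun c a b _ _ h3 h4 => ?_)
    fun g z hd h3 h4 => ?_⟩
  · obtain ⟨c, -, h3⟩ := exists_pow_eq_neg_one (F := F) (m := n) (by omega)
      ((padicValNat_dvd_iff_le h0).2 h)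
    have hc : c ≠ 0 := fun e => by simp [e, show n ≠ 0 by omega] at h3
    obtain ⟨k, rfl⟩ : ∃ k, n = k + 1 := ⟨n - 1, by omega⟩
    obtain ⟨g, hg⟩ := exists_linM (V := V) (t := Multiset.replicate k c + Multiset.replicate 1 (-c))
      (by simp [hV])
    have h4 := hg.trans (linM_rep _ _ _ _)
    obtain ⟨μ, l, h5, h6, h7⟩ := H g (by rw [det_of_lin h4, pow_one, mul_neg, ← pow_succ, h3, neg_neg])
      ⟨_, pow_of_lin h4⟩ (not_scalar_of_lin h2 hc (by omega) one_ne_zero h4)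
    have h8 := h6.ed_eq hΦ h5
    have h9 : (1 : F) ≠ -1 := fun e => lin_ne_neg h2 one_ne_zero (congrArg (X - C ·) e)
    rcases sq_eq_sq_iff_eq_or_eq_neg.1 (show μ ^ 2 = (c ^ 2) ^ 2 from
      (h6.pow_eq hΦ (pow_of_ed_eq h7 (pow_of_lin h4))).trans (sq _).symm) with rfl | rfl
    · have h10 := (as_of_alt hΦ hε (SMu.pres (Or.inl hκ) (g := c⁻¹ • l) (by
        convert h6.smul c⁻¹ using 1; simp only [RingHom.id_apply]; field_simp))).2 (-1) (by simp)
      rw [ed_smul_linM (h7.trans hg) (inv_ne_zero hc), Multiset.map_add, Multiset.map_replicate,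
        Multiset.map_replicate, mul_neg, inv_mul_cancel₀ hc, linM_rep, Multiset.count_add,
        Multiset.count_replicate, if_neg (lin_ne_neg h2 one_ne_zero)] at h10
      simp at h10
    · rw [ed_smul_linM (h7.trans hg) (inv_ne_zero h5), h7, hg, linM_dual fun a ha => by
        rcases Multiset.mem_add.1 ha with ha | ha <;> simp [Multiset.eq_of_mem_replicate ha, hc]] at h8
      have h10 := congrArg (Multiset.count c⁻¹) (linM_inj h8)
      have h11 : -(c ^ 2)⁻¹ * c = -c⁻¹ := by field_simp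
      have h12 : -c⁻¹ ≠ c⁻¹ := fun e => h9 (by field_simp at e; exact e.symm)
      simp only [Multiset.map_add, Multiset.map_replicate, mul_neg, h11, neg_neg, RingHom.id_apply,
        inv_neg, Multiset.count_add, Multiset.count_replicate, if_neg h12, if_true] at h10
      omega
  · have h5 : Even b := Nat.not_odd_iff_even.1 fun h5 => by
      rw [h5.neg_pow, mul_neg, ← pow_add, h3, hV, neg_eq_iff_eq_neg] at h4
      exact absurd (val_lt_of_pow_eq_neg_one h2 (by omega) h0 h4 (FiniteField.pow_card_sub_one_eq_one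
        c fun e => by simp [e, show n ≠ 0 by omega] at h4)) (not_lt.2 h)
    obtain ⟨k, h6, h7⟩ := exists_alt_of_as hΦ hε hκ (s := Multiset.replicate a (X - C 1) +
      Multiset.replicate b (X - C (-1))) (fun q hq => by
        rcases Multiset.mem_add.1 hq with hq | hq <;> rw [Multiset.eq_of_mem_replicate hq] <;>
          exact ⟨monic_X_sub_C _, irreducible_X_sub_C _, by simp⟩)
      ((as_rep (by simp) (by rw [Nat.even_iff] at *; omega)).add (as_rep (by simp) h5))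
      (by simpa [-map_neg, -map_one] using h3)
    exact h7 ▸ es_of_pres h6
  · obtain ⟨d, rfl⟩ := he.two_dvd
    have h5 := ne_zero_of_det hd h4
    refine es_of_nonsplit h3 (neg_ne_zero.2 h5) ?_ h4
    obtain ⟨k, h6, h7⟩ := SMu.of_iso (Ψ := hypF Φ (Fin d)) (μ := -z)
      (h := (z • LinearMap.snd F _ _).prod (LinearMap.fst F _ _)) (fun x y => by
        simp [hypF_B, hε]; ring) (iso_alt (hypF_nondeg _) hΦ hε hκ hε hκ (by simp [hV, two_mul]))
    exact ⟨k, h6, pow_of_ed_eq h7.ed_eq.symm (by ext <;> simp [sq])⟩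

theorem QS.nm_two (hΦ : QS Φ) (h2 : (2 : F) ≠ 0) {z : F} (hz : ∀ b, b ^ 2 ≠ z)
    (hV : finrank F V = 2) : ∃ k, SMu Φ z k ∧ k ^ 2 = z • (1 : End F V) := by
  obtain ⟨e, he⟩ := H22.exists_Q_eq hΦ.nd hΦ.k h2 hV.ge 1
  obtain ⟨f, hf⟩ := H22.exists_Q_eq hΦ.nd hΦ.k h2 hV.ge z
  have li : LinearIndependent F ![e, f] := LinearIndependent.pair_iff.2 fun s t h => by
    have h1 := congrArg Φ.Q (eq_neg_of_add_eq_zero_left h)
    rw [← neg_smul, Φ.Q_smul, Φ.Q_smul, he, hf] at h1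
    obtain rfl : t = 0 := by
      by_contra h3
      exact hz (s / t) (by field_simp; linear_combination h1)
    exact ⟨by simpa using h1, rfl⟩
  let b := basisOfLinearIndependentOfCardEqFinrank li (by simp [hV])
  have h0 : b 0 = e := by simp [b]
  have h1 : b 1 = f := by simp [b]
  have h3 : b.constr F ![f, z • e] e = f := by rw [← h0]; simp
  have h4 : b.constr F ![f, z • e] f = z • e := by conv_lhs => rw [← h1]; simp
  refine ⟨b.constr F ![f, z • e], fun x y => ?_, b.ext fun i => ?_⟩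
  · have h6 : ∀ x, ∃ s t : F, x = s • e + t • f := fun x =>
      ⟨b.repr x 0, b.repr x 1, by
        conv_lhs => rw [← b.sum_repr x, Fin.sum_univ_two, h0, h1]⟩
    obtain ⟨s, t, rfl⟩ := h6 x
    obtain ⟨s', t', rfl⟩ := h6 y
    have h5 : Φ.B f e = Φ.B e f := by rw [Φ.symm, hΦ.e]; simp
    simp only [map_add, map_smul, h3, h4]
    simp [H22.B_self_quad hΦ.k, he, hf, h5]
    ring
  · fin_cases i <;> simp [sq, h0, h1, h3, h4]

theorem QS.nm (h2 : (2 : F) ≠ 0) {z : F} (hz : ∀ b, b ^ 2 ≠ z) (d : ℕ) :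
    ∀ {V : Type v} [AddCommGroup V] [Module F V] [FiniteDimensional F V]
      {Φ : Form (RingHom.id F) V}, QS Φ → finrank F V = 2 * (d + 1) →
      ∃ k, SMu Φ z k ∧ k ^ 2 = z • (1 : End F V) := by
  induction d with
  | zero => exact fun hΦ hV => QS.nm_two hΦ h2 hz hV
  | succ d ih =>
    intro V _ _ _ Φ hΦ hV
    obtain ⟨A, hA, H⟩ := hΦ.compl (qs_plus 1) (by simp [hV])
    obtain ⟨k, h1, h3⟩ := QS.nm_two (qs_plus (F := F) 1) h2 hz (by simp)
    obtain ⟨l, h4, h5⟩ := ih hA (by have := H.finrank_prod; simp at this; omega)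
    obtain ⟨m, h6, h7⟩ := (h1.prodMap h4 _ _).of_iso H
    refine ⟨m, h6, pow_of_ed_eq h7.ed_eq.symm ?_⟩
    rw [sq, LinearMap.prodMap_mul, ← sq, ← sq, h3, h5]
    ext <;> simp

theorem allES_quad_two [Nontrivial V] (hΦ : QS Φ) (h2 : (2 : F) ≠ 0) : AllES Φ 2 := by
  refine allES_two h2 (fun c a b ha hb h3 _ => ?_) fun g z hd h3 h4 => ?_
  · have key : ∀ {U : Type u} [AddCommGroup U] [Module F U] [FiniteDimensional F U]
        {Θ : Form (RingHom.id F) U}, QS Θ → finrank F U = b →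
        ES Φ (Multiset.replicate a (X - C 1) + Multiset.replicate b (X - C (-1))) := by
      intro U _ _ _ Θ hΘ hU
      obtain ⟨A, hA, k, H, -⟩ := hΦ.exists_inv h2 hΘ (by omega) (by omega)
      have h5 := H.finrank_prod
      have h7 := es_of_pres (pres_O k)
      rwa [← H.sim.ed_eq, ed_prodMap, ← neg_one_smul F, ← one_smul F (1 : End F A), ed_scalar,
        ed_scalar, hU,
        show finrank F A = a by omega, add_comm] at h7
    obtain ⟨d, rfl | rfl⟩ := b.even_or_odd'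
    · exact key (qs_plus d) (by simp [two_mul])
    · exact key (qs_odd h2 d) (by simp [two_mul, add_comm])
  · obtain ⟨k, -, h5⟩ := ed_nonsplit Nat.prime_two h3 h4
    have := finrank_pos (R := F) (M := V)
    exact es_of_nonsplit h3 (ne_zero_of_det hd h4) (QS.nm h2 h3 (k - 1) hΦ (by omega)) h4

end Two

end H16
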