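import Cfsg.Agent.H16.LA30

/-! Similitudes of hermitian forms. -/

set_option autoImplicit false

namespace H16

open Module Polynomial H23 H23.Form H14.Wall Matrix

universe u v

section Herm

variable {F : Type u} {V : Type*} [Field F] [Fintype F] [AddCommGroup V] [Module F V]
  [FiniteDimensional F V] {q : ℕ} {hF : Fintype.card F = q ^ 2} {Φ : Form (conj hF) V} {r n : ℕ}

variable (hF) in
theorem exists_form_pow {ι : Type} {f : (ι → F) → (ι → F) → F} (hf : Cfsg.Geo.IsUnitaryFormPow q f) :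
    ∃ Φ : Form (conj hF) (ι → F), Φ.Nondeg ∧ Φ.ε = 1 ∧ ∀ u v, f u v = Φ.B v u := by
  refine ⟨ofHerm (conj_ne_id hF) (conj_conj hF) (LinearMap.mk₂'ₛₗ (conj hF) (RingHom.id F)
    (fun u v => f v u) (fun u u' v => by
      rw [hf.herm, hf.add_left, add_pow_of_card_eq_sq hF, ← hf.herm, ← hf.herm])
    (fun c u v => by rw [hf.herm, hf.smul_left, mul_pow, ← hf.herm]; rfl)
    (fun u v v' => hf.add_left _ _ _) (fun c u v => hf.smul_left _ _ _))
    ⟨fun u v => (hf.herm _ _).symm⟩, fun x hx => ?_, rfl, fun _ _ => rfl⟩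
  by_contra h0
  obtain ⟨y, hy⟩ := (hf.nondegenerate x h0).1
  exact hy (hx y)

variable (hF) in
theorem conj_eq_of_pow {a : F} {k : ℕ} (h : a ^ k = 1) (hk : k ∣ q - 1) : conj hF a = a := by
  obtain ⟨l, hl⟩ := hk
  have := two_le_of_card_eq_sq hF
  rw [conj_apply, show q = k * l + 1 by omega, pow_succ, pow_mul, h, one_pow, one_mul]

theorem not_allES_herm (hΦ : Φ.Nondeg) (hε : Φ.ε = 1) (hr : r.Prime) (hr2 : r ≠ 2)
    (hr0 : (r : F) ≠ 0) (hV : finrank F V = n) (hn : 3 ≤ n) (h1 : ¬ (n = 6 ∧ r = 3))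
    (h2 : ¬ ((r = 3 ∨ r = 5) ∧ n = r ∧ padicValNat r (q - 1) = 1))
    (h : r * (Fintype.card F - 1) * Nat.card Φ.O ∣ (q + 1) * glc (Fintype.card F) n) :
    ¬ AllES Φ r := by
  have : Nontrivial V := nontrivial_of_finrank_pos (R := F) (by omega)
  have := Fact.mk hr
  have hq := two_le_of_card_eq_sq hF
  have hκ := kappa_of_ne (Φ := Φ) (conj_ne_id hF)
  have h0 : ∀ k, k ∣ q - 1 → k ∣ Fintype.card F - 1 := fun k hk =>
    card_sub_one hF ▸ hk.mul_left _
  by_cases h3 : r ∣ q - 1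
  · by_cases h4 : (r = 3 ∨ r = 5) ∧ n = r
    · have h6 := (padicValNat_dvd_iff_le (p := r) (n := 2) (show q - 1 ≠ 0 by omega)).2 (by
        have := (padicValNat_dvd_iff_le (p := r) (n := 1) (show q - 1 ≠ 0 by omega)).1
          (by simpa using h3)
        have : padicValNat r (q - 1) ≠ 1 := fun e => h2 ⟨h4.1, h4.2, e⟩
        omega)
      obtain ⟨c, -, h5⟩ := exists_orderOf_eq (h0 _ h6)
      exact not_allES_two hΦ hr hr2 h5 (conj_eq_of_pow hF (pow_orderOf_eq_one c) (h5 ▸ h6))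
        (hV.trans h4.2)
    · obtain ⟨c, -, h5⟩ := exists_orderOf_eq (h0 _ h3)
      exact not_allES_one hΦ hr hr2 h5 (conj_eq_of_pow hF (pow_orderOf_eq_one c) (h5 ▸ h3)) hV hn
        h1 h4
  have h4 := coprime_card_of_cast hr hr0
  rw [glc_eq, H22.card_O_herm hF n Φ hΦ hε hκ hV, ← uf, card_sub_one hF, hF, qf_sq_uf] at h
  obtain ⟨j, h5, h6⟩ := (Prime.dvd_finsetProd_iff hr.prime _).1 (dvd_of_mul_dvd
    (X := (q + 1) * uf q n) ((hF ▸ h4).pow_right (n * (n - 1) / 2))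
    (mul_ne_zero (by omega) (uf_pos hq n).ne') ((Dvd.intro ((q - 1) * q ^ (n * (n - 1) / 2))
      (by ring)).trans (h.trans (Eq.dvd (by rw [mul_assoc (q + 1), mul_left_comm])))))
  have h7 : orderOf (q : ZMod r) % 4 ≠ 2 := fun e => by
    split_ifs at h6 with h8
    · have := Nat.odd_iff.1 (Odd.of_dvd_nat h8.add_one ((orderOf_zmod_dvd_iff (by omega) _).2 h6))
      omega
    · refine hr2 (eq_two_of_dvd hr (by positivity) h6 ((orderOf_zmod_dvd_iff (by omega) _).1 ?_))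
      have h9 := (orderOf_zmod_dvd_iff (q := q) (m := r) (by omega) ((j + 1) * 2)).2
        (by rw [pow_mul]; exact dvd_sq_sub_one (Or.inl h6))
      obtain ⟨i, hi⟩ : ∃ i, orderOf (q : ZMod r) = (2 * i + 1) * 2 := ⟨orderOf (q : ZMod r) / 4, by omega⟩
      rw [hi] at h9 ⊢
      exact Nat.Coprime.mul_dvd_of_dvd_of_dvd (by simp) (Nat.dvd_of_mul_dvd_mul_right two_pos h9)
        (Nat.not_even_iff_odd.1 h8).add_one.two_dvd
  refine not_allES_ne hΦ (Or.inl hκ) hr hr0 (fun e => ?_) ?_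
    fun a ha e => h7 ((conj_dual_iff hr hr2 hr0 ha).1 e)
  · rw [card_sub_one hF] at e
    exact h7 (by rw [(orderOf_eq_two_iff_dvd hr hr2).2 ((hr.dvd_mul.1 e).resolve_right h3)])
  · refine (Nat.le_of_dvd (Nat.succ_pos j) ((orderOf_zmod_dvd_iff Fintype.card_pos _).2 ?_)).trans
      (hV ▸ Finset.mem_range.1 h5)
    rw [hF, ← pow_mul, mul_comm, pow_mul]
    exact dvd_sq_sub_one (by split_ifs at h6 <;> tauto)

theorem allES_herm [hp : Fact r.Prime] (hΦ : Φ.Nondeg) (hε : Φ.ε = 1) (hr : r = 3 ∨ r = 5)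
    (hv : padicValNat r (q - 1) = 1) (hV : finrank F V = r) : AllES Φ r := by
  rintro g hd ⟨z, hz⟩ -
  have hq := two_le_of_card_eq_sq hF
  have h5 : r ∣ q - 1 := by simpa using (padicValNat_dvd_iff_le (by omega)).2 hv.ge
  obtain ⟨c, t, h1, h2, h3, h4⟩ := exists_sym hr (by
    rw [card_sub_one hF, padicValNat.mul (by omega) (by omega), hv, padicValNat.eq_zero_of_not_dvd
      fun e => by have := eq_two_of_dvd hp.out (by omega) e h5; omega]) hV hd hz
  have h6 : ∀ a ∈ t, a ≠ 0 := fun a ha e => by simpa [e, hp.out.ne_zero] using h2 a ha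
  obtain ⟨l, h7, h8⟩ := exists_herm hΦ hε (linM_isPP t) (fun p hp => by
    obtain ⟨a, ha, rfl⟩ := Multiset.mem_map.1 hp; simpa using h6 a ha) (by
    rw [linM_dual h6, Multiset.map_congr rfl fun a ha => by rw [conj_eq_of_pow hF (h2 a ha) h5], h3])
    (h4 ▸ sum_natDegree_ed _)
  exact ES.of_smul h1 ((h8.trans h4.symm) ▸ es_of_pres h7)

theorem allES_herm_two_iff (p : ℕ) [hp : Fact p.Prime] [CharP F p] {Φ : Form (conj hF) (Fin n → F)}
    (hΦ : Φ.Nondeg) (hε : Φ.ε = 1) (hn : n ≠ 0) :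
    AllES Φ 2 ↔ p = 2 ∨ padicValNat 2 n ≤ padicValNat 2 (Fintype.card F - 1) := by
  have : Nonempty (Fin n) := ⟨⟨0, by omega⟩⟩
  by_cases h2 : p = 2
  · subst h2
    refine iff_of_true (allES_char2 fun g hg => ?_) (Or.inl rfl)
    obtain ⟨μ, h1, h2, h3⟩ := ed_uni_of_pow 2 hg
    obtain ⟨k, h4, h5⟩ := exists_herm hΦ hε (uni_isPP fun a ha => (h1 a ha).1) (fun p hp => by
      obtain ⟨a, -, rfl⟩ := Multiset.mem_map.1 hp; simp [-map_one, coeff_zero_X_sub_C_pow])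
      (dual_uni _ μ) (by rw [uni_natDegree, h2])
    exact (h5.trans h3.symm) ▸ es_of_pres h4
  have h3 : (2 : F) ≠ 0 := cast_ne_zero_of_ne p Nat.prime_two (Ne.symm h2)
  have hq := odd_of_two_ne hF h3
  have h4 : Fintype.card F % 4 = 1 := by
    obtain ⟨k, rfl⟩ := hq
    rw [hF, show (2 * k + 1) ^ 2 = 1 + 4 * (k ^ 2 + k) by ring, Nat.add_mul_mod_self_left]
  rw [or_iff_right h2]
  refine ⟨fun H => not_lt.1 fun h => ?_, fun h => allES_two h3 (fun c a b _ _ h5 _ => ?_)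
    fun g z hd h5 h6 => ?_⟩
  · obtain ⟨x, z, -, h5, h6, -, -, h7⟩ := exists_nonsplit_SL (F := F) (n := Fin n) (r := 2)
      (by omega) fun e => absurd e.1 (by simpa using h)
    have h8 : toLin' x.1 ^ 2 = z • (1 : End F _) := by rw [← toLin'_pow, toLin'_eq_smul_iff, h6]
    obtain ⟨μ, k, h9, h10, h11⟩ := H (toLin' x.1) (by simp) ⟨z, h8⟩
      fun c e => h7 c ((toLin'_eq_smul_iff _ _).1 e)
    have h12 := h10.pow_eq hΦ (pow_of_ed_eq h11 h8)
    have h13 := h10.fix hΦ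
    have h14 : z ≠ 0 := fun e => h5 0 (by simp [e])
    obtain ⟨m, rfl⟩ := hq
    have h15 : μ ^ (2 * m) = 1 := mul_right_cancel₀ h9 (by rw [← pow_succ, one_mul]; exact h13)
    obtain ⟨b, hb⟩ := (FiniteField.isSquare_iff (by rwa [ringChar.eq F p]) h14).2 (by
      rw [hF, show (2 * m + 1) ^ 2 / 2 = (2 * m + 1 + 1) * m by
        rw [show (2 * m + 1) ^ 2 = 1 + 2 * ((2 * m + 1 + 1) * m) by ring]; omega,
        pow_mul, pow_succ, ← h15, pow_mul, h12, conj_apply])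
    exact h5 b (by rw [hb, sq])
  · obtain ⟨k, h6, h7⟩ := exists_herm_lin hΦ hε hq (one_pow _) h5
    exact h7 ▸ es_of_pres h6
  · refine absurd ⟨by simpa using h, fun _ _ => h4⟩ (not_NS_of_nonsplit (r := 2)
      (x := ⟨LinearMap.toMatrix' g, by simpa using hd⟩) h5 ?_)
    rw [← toLin'_eq_smul_iff, toLin'_pow, toLin'_toMatrix', h6]

end Herm

end H16
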