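import Cfsg.Agent.H16.LA31

/-! Conjugacy in `SL` into a subgroup; subfield subgroups. -/

set_option autoImplicit false

namespace H16

open Module Polynomial H23 H23.Form H14.Wall Matrix

universe u v

section Gen

variable {F : Type u} {V : Type*} [Field F] [AddCommGroup V] [Module F V]
  [FiniteDimensional F V] {g : End F V} {r : ℕ} {R : End F V → Prop}

/-- every element of order `r` of `PSL` satisfies `R` -/
def AllR (R : End F V → Prop) (r : ℕ) : Prop :=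
  ∀ g : End F V, LinearMap.det g = 1 → (∃ z : F, g ^ r = z • (1 : End F V)) →
    (∀ z : F, g ≠ z • (1 : End F V)) → R g

theorem allR_two [Nontrivial V] (h2 : (2 : F) ≠ 0) (hR : ∀ (c : F) g, c ≠ 0 → R (c • g) → R g)
    (h1 : ∀ g (c : F) a b, a ≠ 0 → b ≠ 0 → a + b = finrank F V → c ^ a * (-c) ^ b = 1 →
      ed g = Multiset.replicate a (X - C 1) + Multiset.replicate b (X - C (-1)) → R g)
    (h3 : ∀ (g : End F V) (z : F), LinearMap.det g = 1 → (∀ b, b ^ 2 ≠ z) →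
      g ^ 2 = z • (1 : End F V) → R g) : AllR R 2 := by
  rintro g hd ⟨z, hz⟩ hs
  by_cases h4 : ∀ b, b ^ 2 ≠ z
  · exact h3 g z hd h4 hz
  push Not at h4
  obtain ⟨c, rfl⟩ := h4
  have h5 := ne_zero_of_det hd hz
  have hc : c ≠ 0 := fun e => h5 (by simp [e])
  obtain ⟨a, b, h6⟩ := exists_rep_of_mem' (mem_ed_sq hz (ss_of_pow h2 h5 hz))
  refine hR _ _ (inv_ne_zero hc) (h1 _ c a b (fun e => hs (-c) ((eq_smul_iff_ed g _).2 fun q hq => ?_))
    (fun e => hs c ((eq_smul_iff_ed g _).2 fun q hq => ?_))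
    (by simpa [h6, -map_neg] using sum_natDegree_ed g) ((det_of_lin h6).symm.trans hd) ?_)
  rotate_left 2
  · rw [ed_smul_linM (h6.trans (linM_rep a b _ _).symm) (inv_ne_zero hc), Multiset.map_add,
      Multiset.map_replicate, Multiset.map_replicate, mul_neg, inv_mul_cancel₀ hc, linM_rep]
  all_goals
    rw [h6, e] at hq
    exact Multiset.eq_of_mem_replicate (by simpa [-map_neg] using hq)

theorem exists_smul_pow [Nontrivial V] (hd : LinearMap.det g = 1) {c : F}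
    (hz : g ^ r = c ^ r • (1 : End F V)) (hr : r ≠ 0) : c ≠ 0 ∧ (c⁻¹ • g) ^ r = 1 := by
  have hc : c ≠ 0 := fun e => ne_zero_of_det hd hz (by simp [e, hr])
  exact ⟨hc, by rw [_root_.smul_pow, hz, smul_smul, inv_pow, inv_mul_cancel₀ (pow_ne_zero _ hc),
    one_smul]⟩

theorem allR_char [Finite F] [Nontrivial V] (p : ℕ) [hp : Fact p.Prime] [CharP F p]
    (hR : ∀ (c : F) g, c ≠ 0 → R (c • g) → R g) (h : ∀ g : End F V, g ^ p = 1 → g ≠ 1 → R g) :
    AllR R p := by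
  rintro g hd ⟨z, hz⟩ hs
  obtain ⟨c, rfl⟩ := (bijective_frobenius F p).2 z
  obtain ⟨hc, h1⟩ := exists_smul_pow hd hz hp.out.ne_zero
  exact hR _ _ (inv_ne_zero hc) (h _ h1 fun e => hs c (by rw [← e, smul_inv_smul₀ hc]))

theorem not_allR_lin {t : Multiset F} (h1 : t.card = finrank F V) (h2 : t.prod = 1) {z : F}
    (h3 : ∀ a ∈ t, a ^ r = z) (h4 : ∃ a ∈ t, ∃ b ∈ t, a ≠ b) (h : ∀ g, ed g = linM t → ¬ R g) :
    ¬ AllR R r := fun H => by
  obtain ⟨g, hg⟩ := exists_linM h1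
  obtain ⟨a, ha, b, hb, h4⟩ := h4
  exact h g hg (H g ((det_linM hg).trans h2) ⟨z, pow_linM hg h3⟩ (not_scalar_linM hg h4 ha hb))

theorem not_allR_Tr [Fintype F] [Nontrivial V] (hr : r.Prime) (hr0 : (r : F) ≠ 0)
    (h1 : ¬ r ∣ Fintype.card F - 1) {s : Multiset F[X]} {k : ℕ} (hs : ∀ a ∈ s, a ∈ Tr F r)
    (h0 : s ≠ 0) (hd : s.card * orderOf (Fintype.card F : ZMod r) + k = finrank F V)
    (hno : ∀ g, g ^ r = 1 → ed g = s + Multiset.replicate k (X - C 1) → ¬ R g) : ¬ AllR R r := by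
  obtain ⟨g, hg⟩ := exists_ed_of_finrank (V := V) (fun q hq => (Tr_add_dvd hs q hq).1)
    ((sum_deg_add hr hr0 hs k).trans hd)
  obtain ⟨h2, h3⟩ := pow_of_ed_Tr hr hs h0 hg
  have h4 : ∀ a : F, a ^ r = 1 → a = 1 := fun a =>
    eq_one_of_pow_eq_one ((Nat.Prime.coprime_iff_not_dvd hr).2 h1) hr.ne_zero
  exact fun H => hno g h2 hg (H g (h4 _ (by rw [← map_pow, h2, map_one])) ⟨1, by simp [h2]⟩
    fun z e => h3 (by
      rw [e, _root_.smul_pow, one_pow] at h2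
      rw [e, h4 z (smul_left_injective F one_ne_zero (h2.trans (one_smul F _).symm)), one_smul]))

theorem not_allR_uni (p : ℕ) [hp : Fact p.Prime] [CharP F p] {j k : ℕ} (h0 : 2 ≤ j) (h1 : j ≤ p)
    (hV : j + k = finrank F V)
    (hno : ∀ g, ed g = uni F (j ::ₘ Multiset.replicate k 1) → ¬ R g) : ¬ AllR R p := by
  obtain ⟨g, hg⟩ := exists_ed_of_finrank (V := V)
    (uni_isPP (F := F) (μ := j ::ₘ Multiset.replicate k 1) (by
      simp [Multiset.mem_replicate, show 0 < j by omega])) (by simp [uni_natDegree, hV])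
  have h3 := pow_of_ed_uni p hg (by simp [Multiset.mem_replicate, h1, hp.out.one_le])
  exact fun H => hno g hg (H g (frobenius_inj F p (by rw [frobenius_def, ← map_pow, h3]; simp))
    ⟨1, by simp [h3]⟩ (not_scalar_of_uni hg (a := j) (by simp) (by omega)))

theorem exists_der_one [DecidableEq F] (hr : r.Prime) (hr2 : r ≠ 2) {ω : F} (hω : orderOf ω = r)
    {n : ℕ} (hn : 3 ≤ n) (h1 : ¬ (n = 6 ∧ r = 3)) (h2 : ¬ ((r = 3 ∨ r = 5) ∧ n = r)) :
    ∃ t : Multiset F, t.card = n ∧ t.prod = 1 ∧ (∀ a ∈ t, a ^ r = 1) ∧ (∃ a ∈ t, ∃ b ∈ t, a ≠ b) ∧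
      ∀ μ, ¬ ∀ a ∈ t, t.count (μ * a⁻¹) = t.count a := by
  obtain ⟨k, rfl⟩ := Nat.exists_eq_add_of_le' hn
  have h3 : ω ^ r = 1 := hω ▸ pow_orderOf_eq_one ω
  have h0 : ω ≠ 0 := fun e => by simp [e, hr.ne_zero] at h3
  have h4 : ∀ m, 0 < m → m ≤ 6 → ω ^ m = 1 → (r = 3 ∧ m % 3 = 0) ∨ (r = 5 ∧ m = 5) := by
    intro m a1 a2 a3
    have a4 : r ∣ m := hω ▸ orderOf_dvd_of_pow_eq_one a3
    have a5 := Nat.le_of_dvd a1 a4
    have a6 := hr.two_le
    have : r ≠ 4 := by rintro rfl; norm_num at hr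
    have : r ≠ 6 := by rintro rfl; norm_num at hr
    obtain rfl | rfl : r = 3 ∨ r = 5 := by omega
    all_goals omega
  have n1 : ω ≠ 1 := fun e => by have := h4 1 one_pos (by omega) (by simp [e]); omega
  obtain ⟨ν, hν⟩ : ∃ ν, ν = ω⁻¹ * ω⁻¹ := ⟨_, rfl⟩
  have n2 : ω ^ 2 ≠ 1 := fun e => by have := h4 2 two_pos (by omega) e; omega
  have n4 : ω ^ 4 ≠ 1 := fun e => by have := h4 4 (by omega) (by omega) e; omega
  have n5 : ν ≠ 1 := fun e => n2 (by rw [hν] at e; field_simp at e; exact e.symm)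
  have n6 : ν = ω ↔ ω ^ 3 = 1 := by
    rw [hν]; exact ⟨fun e => by field_simp at e; exact e.symm, fun e => by field_simp; exact e.symm⟩
  obtain ⟨t, ht⟩ : ∃ t : Multiset F, t = ω ::ₘ ω ::ₘ ν ::ₘ Multiset.replicate k 1 := ⟨_, rfl⟩
  have hm : ∀ a, a ∈ t ↔ a = ω ∨ a = ν ∨ (k ≠ 0 ∧ a = 1) := fun a => by
    simp [ht, Multiset.mem_replicate]
  refine ⟨t, by simp [ht], by rw [ht, hν]; simp [h0], fun a ha => by
    rcases (hm a).1 ha with rfl | rfl | ⟨-, rfl⟩ <;> simp [h3, hν, mul_pow], ?_, fun μ h5 => ?_⟩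
  · by_cases hk : k = 0
    · refine ⟨_, (hm ν).2 (by simp), _, (hm ω).2 (by simp), fun e => ?_⟩
      have := h4 3 (by omega) (by omega) (n6.1 e); omega
    · exact ⟨_, (hm ω).2 (by simp), _, (hm 1).2 (by simp [hk]), n1⟩
  have h6 : ∀ a ∈ t, μ * a⁻¹ ∈ t := fun a ha => by
    rwa [← Multiset.one_le_count_iff_mem, h5 a ha, Multiset.one_le_count_iff_mem]
  have h7 := h5 ω ((hm _).2 (by simp))
  by_cases h8 : ω ^ 3 = 1
  · have := h4 3 (by omega) (by omega) h8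
    have hk : k ≠ 0 := by omega
    rcases (hm _).1 (h6 ω ((hm _).2 (by simp))) with e | e | ⟨-, e⟩
    rotate_left 2
    · rw [e, ht, n6.2 h8] at h7
      simp [n1.symm, Multiset.count_replicate] at h7
      omega
    all_goals
      obtain rfl : μ = ω ^ 2 := by rw [sq, ← mul_inv_eq_iff_eq_mul₀ h0, e, ← n6.2 h8]
      rcases (hm _).1 (h6 1 ((hm _).2 (by simp [hk]))) with e | e | ⟨-, e⟩
      · exact n1 (by field_simp at e; exact e)
      · rw [n6.2 h8] at e; exact n1 (by field_simp at e; exact e)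
      · exact n2 (by simpa using e)
  · have n7 : ν ≠ ω := mt n6.1 h8
    have n8 : ω ^ 6 ≠ 1 := fun e => by
      have := h4 6 (by omega) (by omega) e
      exact h8 (by rw [← h3]; congr 1; omega)
    have h9 := (hm _).1 (h6 ν ((hm _).2 (by simp)))
    rcases (hm _).1 (h6 ω ((hm _).2 (by simp))) with e | e | ⟨-, e⟩
    · obtain rfl : μ = ω ^ 2 := by rw [sq, ← mul_inv_eq_iff_eq_mul₀ h0, e]
      rw [hν] at h9
      rcases h9 with e | e | ⟨-, e⟩ <;> field_simp at e <;> contradiction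
    · rw [e, ht] at h7
      simp [n1.symm, n5.symm, n7, n7.symm, Multiset.count_replicate] at h7
    · rw [e, ht] at h7
      simp [n1.symm, n5.symm, n7.symm, Multiset.count_replicate] at h7
      obtain rfl : μ = ω := by rw [← one_mul ω, ← mul_inv_eq_iff_eq_mul₀ h0, e]
      rw [hν] at h9
      rcases h9 with e | e | ⟨-, e⟩ <;> field_simp at e <;> try contradiction
      have := h4 5 (by omega) (by omega) e
      omega

theorem exists_der_two [DecidableEq F] (hr : r.Prime) (hr2 : r ≠ 2) {c : F}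
    (hc : orderOf c = r ^ 2) : ∃ (t : Multiset F) (z : F), t.card = r ∧ t.prod = 1 ∧
      (∀ a ∈ t, a ^ r = z) ∧ z ^ r = 1 ∧ (∃ a ∈ t, ∃ b ∈ t, a ≠ b) ∧
      ∀ μ, ¬ ∀ a ∈ t, t.count (μ * a⁻¹) = t.count a := by
  have h3 : (c ^ r) ^ r = 1 := by rw [← pow_mul, ← sq, ← hc, pow_orderOf_eq_one]
  have h0 : c ≠ 0 := fun e => by simp [e, hr.ne_zero] at h3
  have n2 : (c ^ r) ^ 2 ≠ 1 := fun e => hr2 ((Nat.prime_dvd_prime_iff_eq hr Nat.prime_two).1
    (Nat.dvd_of_mul_dvd_mul_left hr.pos (by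
      rw [← sq, ← hc]; exact orderOf_dvd_of_pow_eq_one (by rwa [pow_mul]))))
  obtain ⟨d, hd⟩ : ∃ d, d = c * (c ^ r)⁻¹ := ⟨_, rfl⟩
  have n1 : d ≠ c := fun e => n2 (by rw [hd] at e; field_simp at e; rw [← e, one_pow])
  obtain ⟨k, hk⟩ : ∃ k, r = k + 3 := ⟨r - 3, by have := hr.two_le; omega⟩
  obtain ⟨t, ht⟩ : ∃ t : Multiset F, t = d ::ₘ Multiset.replicate (k + 2) c := ⟨_, rfl⟩
  have hm : ∀ a, a ∈ t ↔ a = d ∨ a = c := fun a => by
    rw [ht, Multiset.mem_cons, Multiset.mem_replicate]; simp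
  refine ⟨t, c ^ r, by simp [ht, hk], by
    rw [ht, hd, hk, Multiset.prod_cons, Multiset.prod_replicate]; field_simp; ring, fun a ha => by
    rcases (hm a).1 ha with rfl | rfl <;> simp [h3, hd, mul_pow], h3,
    ⟨_, (hm d).2 (by simp), _, (hm c).2 (by simp), n1⟩, fun μ h5 => ?_⟩
  have h6 : ∀ a ∈ t, μ * a⁻¹ ∈ t := fun a ha => by
    rwa [← Multiset.one_le_count_iff_mem, h5 a ha, Multiset.one_le_count_iff_mem]
  have h7 := h5 c ((hm _).2 (by simp))
  rcases (hm _).1 (h6 c ((hm _).2 (by simp))) with e | e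
  · rw [e, ht] at h7
    simp [n1, n1.symm, Multiset.count_replicate] at h7
  · obtain rfl : μ = c ^ 2 := by rw [sq, ← mul_inv_eq_iff_eq_mul₀ h0, e]
    rcases (hm _).1 (h6 d ((hm _).2 (by simp))) with e | e <;> rw [hd] at e <;> field_simp at e
    · exact n2 e
    · exact n2 (by rw [e, one_pow])

theorem isSquare_det_of_comm {N Z : End F V} (h1 : N * N = 0)
    (h2 : 2 * finrank F (LinearMap.range N) = finrank F V) (h3 : Z * N = N * Z) :
    IsSquare (LinearMap.det Z) := by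
  have h4 : LinearMap.range N ≤ LinearMap.ker N := by
    rintro _ ⟨x, rfl⟩; exact LinearMap.congr_fun h1 x
  have h5 := Submodule.eq_of_le_of_finrank_eq h4 (by have := N.finrank_range_add_finrank_ker; omega)
  have h6 : LinearMap.ker N ≤ (LinearMap.ker N).comap Z := fun x hx => by
    have := LinearMap.congr_fun h3 x
    simp only [End.mul_apply, LinearMap.mem_ker.1 hx, map_zero] at this
    exact this.symm
  refine ⟨_, (Z.det_eq_det_mul_det _ h6).trans (congrArg _ (Sim.det (sim_of_bijective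
    ((LinearMap.ker N).liftQ (N.codRestrict _ fun x => h4 ⟨x, rfl⟩) (by simp)) ?_ ?_ ?_)))⟩
  · exact LinearMap.ker_eq_bot.1 (Submodule.ker_liftQ_eq_bot _ _ _ (by simp))
  · rintro ⟨y, hy⟩
    obtain ⟨x, rfl⟩ := h5.ge hy
    exact ⟨Submodule.Quotient.mk x, rfl⟩
  · rintro ⟨x⟩
    exact Subtype.ext (LinearMap.congr_fun h3 x).symm

theorem eq_of_sum_min {μ ν : Multiset ℕ} (h1 : ∀ a ∈ μ, 0 < a) (h2 : ∀ a ∈ ν, 0 < a)
    (h : ∀ j, (μ.map (min j)).sum = (ν.map (min j)).sum) : μ = ν := by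
  have key : ∀ (μ : Multiset ℕ) j, 2 * (μ.map (min (j + 1))).sum =
      (μ.map (min j)).sum + (μ.map (min (j + 2))).sum + μ.count (j + 1) := fun μ j => by
    induction μ using Multiset.induction_on with
    | empty => simp
    | cons a μ ih =>
      simp only [Multiset.map_cons, Multiset.sum_cons, Multiset.count_cons]
      split_ifs <;> omega
  ext (_ | j)
  · rw [Multiset.count_eq_zero.2 fun e => (h1 0 e).false, Multiset.count_eq_zero.2 fun e => (h2 0 e).false]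
  · have := key μ j
    have := key ν j
    simp only [h] at *
    omega

end Gen

section Bridge

variable {ι : Type} [Fintype ι] [DecidableEq ι] {F : Type u} [Field F] {r : ℕ}
  {H : Subgroup (GL ι F)} {g : End F (ι → F)}

/-- `g` is similar to an element of `H` -/
def EH (H : Subgroup (GL ι F)) (g : End F (ι → F)) : Prop := ∃ y ∈ H, edM y.1 = ed g

theorem EH.of_smul (hH : ∀ y ∈ H, ∀ (c : F) (hc : c ≠ 0), smGL c hc y ∈ H) (c : F)
    (g : End F (ι → F)) (hc : c ≠ 0) (h : EH H (c • g)) : EH H g := by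
  obtain ⟨y, h1, h2⟩ := h
  refine ⟨_, hH y h1 _ (inv_ne_zero hc), ?_⟩
  rw [smGL_val, edM, map_smul, ← inv_smul_smul₀ hc g]
  exact ((sim_of_ed_eq h2).smul c⁻¹).ed_eq

theorem allH_of (h : ∀ x ∈ Cfsg.Geo.specialLinear ι F, (∃ z : F, (x ^ r).1 = z • (1 : Matrix ι ι F)) →
      (∀ z : F, x.1 ≠ z • (1 : Matrix ι ι F)) →
      ∃ g ∈ Cfsg.Geo.specialLinear ι F, g⁻¹ * x * g ∈ H) : AllR (EH H) r :=
  (gl_forall_iff (C := fun g : End F (ι → F) => LinearMap.det g = 1) mem_SL_iff (fun _ => inj_of_det)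
    (R := fun x => EH H (toLin' x.1)) (EH H) fun _ _ => Iff.rfl).1
    fun x h1 h2 h3 => (h x h1 h2 h3).elim fun g h4 => ⟨_, h4.2, edM_conj' g x.1⟩

theorem exists_conj_of {x y : GL ι F} (hy : y ∈ H) (h : edM y.1 = edM x.1)
    (hd : ∀ d : F, d ≠ 0 → ∃ Q : Matrix ι ι F, ∃ R ∈ H, Q * x.1 = x.1 * Q ∧ Q.det * R.1.det = d) :
    ∃ g ∈ Cfsg.Geo.specialLinear ι F, g⁻¹ * x * g ∈ H := by
  obtain ⟨P, hP⟩ := edM_eq_iff.1 h.symm
  obtain ⟨Q, R, h1, h2, h3⟩ := hd _ (inv_ne_zero P.det_ne_zero)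
  have h4 : Q.det ≠ 0 := left_ne_zero_of_mul (h3 ▸ inv_ne_zero P.det_ne_zero)
  let Q' := GeneralLinearGroup.mkOfDetNeZero Q h4
  have h5 : Q' * x = x * Q' := Units.ext h2
  have h6 : P * x = y * P := Units.ext hP
  refine ⟨(R * P * Q')⁻¹, inv_mem (Units.ext ?_), ?_⟩
  · change (R.1 * P.1 * Q).det = 1
    rw [det_mul, det_mul, mul_right_comm, mul_comm R.1.det, h3, inv_mul_cancel₀ P.det_ne_zero]
  · rw [inv_inv, show R * P * Q' * x * (R * P * Q')⁻¹ = R * y * R⁻¹ by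
      rw [mul_assoc _ Q', h5, ← mul_assoc, mul_assoc R, h6]; group]
    exact mul_mem (mul_mem h1 hy) (inv_mem h1)

theorem allH_iff [Finite F] [Nonempty ι] (hr : r.Prime) (h2 : (r : F) ≠ 0 ∨ r = 2) :
    (∀ x ∈ Cfsg.Geo.specialLinear ι F, (∃ z : F, (x ^ r).1 = z • (1 : Matrix ι ι F)) →
      (∀ z : F, x.1 ≠ z • (1 : Matrix ι ι F)) →
      ∃ g ∈ Cfsg.Geo.specialLinear ι F, g⁻¹ * x * g ∈ H) ↔ AllR (EH H) r := by
  refine ⟨allH_of, fun h x h1 h3 h4 => ?_⟩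
  obtain ⟨y, h5, h6⟩ := (gl_forall_iff (C := fun g : End F (ι → F) => LinearMap.det g = 1) mem_SL_iff
    (fun _ => inj_of_det) (R := fun x => EH H (toLin' x.1)) (EH H) fun _ _ => Iff.rfl).2 h x h1 h3 h4
  obtain ⟨z, hz⟩ := h3
  refine exists_conj_of h5 h6 fun d _ => ?_
  obtain ⟨Q, h7, h8⟩ := exists_comm_all hr h2 x.det_ne_zero hz d
  exact ⟨Q, 1, one_mem _, h7, by simpa using h8⟩

theorem card_specialLinear : Nat.card (Cfsg.Geo.specialLinear ι F) =
    Nat.card (SpecialLinearGroup ι F) :=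
  Nat.card_congr ⟨fun x => ⟨x.1.1, congrArg Units.val x.2⟩,
    fun x => ⟨SpecialLinearGroup.toGL x, Units.ext x.2⟩, fun _ => Subtype.ext (Units.ext rfl),
    fun _ => rfl⟩

theorem exists_GL_ed {A : Matrix ι ι F} (h : ∀ q ∈ edM A, q.coeff 0 ≠ 0) : ∃ y : GL ι F, y.1 = A :=
  ⟨GeneralLinearGroup.mkOfDetNeZero A ((det_ne_zero_iff_edM A).2 h), rfl⟩

theorem edM_map_uni {K : Type*} [Field K] (φ : K →+* F) {B : Matrix ι ι K} {μ : Multiset ℕ}
    (h : edM B = uni K μ) (h0 : ∀ a ∈ μ, 0 < a) : edM (B.map φ) = uni F μ := by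
  have h1 : ∀ j, ((B - 1) ^ j).map φ = (B.map φ - 1) ^ j := fun j =>
    (map_pow φ.mapMatrix _ j).trans (by rw [map_sub, map_one]; rfl)
  have h2 := edM_eq_uni (A := B.map φ) (k := μ.sum) (by
    rw [← h1, (uni_pow_eq_zero_iff h _).2 fun e he => Multiset.single_le_sum (by simp) e he]; simp)
  rw [h2, eq_of_sum_min (fun a => jt_pos) h0 fun j => ?_]
  have h3 := uni_rank_pow h j
  have h4 := uni_rank_pow h2 j
  rw [← h1, rank_map_field] at h4
  omega

end Bridge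

end H16
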