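import Cfsg.Agent.H16.LA32

/-! Elements of prime order and subfield subgroups of `SL`. -/

set_option autoImplicit false

namespace H16

open Module Polynomial H23 H23.Form H14.Wall Matrix

universe u v

section Sub

variable {ι : Type} [Fintype ι] [DecidableEq ι] {F : Type u} [Field F] [Fintype F] {r : ℕ}
  {g : End F (ι → F)} {F₀ : Subfield F} {σ : F ≃+* F}

open Cfsg.Geo

theorem exists_frob (F₀ : Subfield F) : ∃ σ : F ≃+* F, (∀ a, σ a = a ^ Nat.card F₀) ∧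
    ∀ a, σ a = a ↔ a ∈ F₀ := by
  have := Fintype.ofFinite F₀
  refine ⟨(FiniteField.frobeniusAlgEquivOfAlgebraic F₀ F).toRingEquiv, fun a => by simp, fun a =>
    ⟨fun h => ?_, fun h => (FiniteField.frobeniusAlgEquivOfAlgebraic F₀ F).commutes ⟨a, h⟩⟩⟩
  by_cases ha : a = 0
  · exact ha ▸ zero_mem _
  obtain ⟨c, rfl⟩ := (mem_range_algebraMap_iff (F := F₀) ha).2 (mul_right_cancel₀ ha (by
    rw [← pow_succ, Nat.sub_add_cancel Fintype.card_pos, one_mul]; simpa using h))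
  exact c.2

omit [Fintype F] in
theorem smGL_mem_sub (y : GL ι F) (hy : y ∈ subfieldSubgroup F₀ 1) (c : F) (hc : c ≠ 0) :
    smGL c hc y ∈ subfieldSubgroup F₀ 1 := by
  obtain ⟨d, h1, h2⟩ := mem_subfield_one.1 hy
  exact mem_subfield_one.2 ⟨d * c⁻¹, by simp [h1, hc], fun i j => by
    simpa [smGL_val, mul_assoc, hc] using h2 i j⟩

omit [Fintype F] in
theorem eh_sub_of_map {B : Matrix ι ι F₀} (h : edM (B.map F₀.subtype) = ed g)
    (hg : LinearMap.det g ≠ 0) : EH (subfieldSubgroup F₀ 1) g := by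
  obtain ⟨y, hy⟩ := exists_GL_ed (A := B.map F₀.subtype)
    (h ▸ (isUnit_iff_ed g).1 ((LinearMap.isUnit_iff_isUnit_det g).2 hg.isUnit))
  exact ⟨y, mem_subfield_one.2 ⟨1, one_ne_zero, fun i j => by simp [hy]⟩, hy ▸ h⟩

omit [Fintype F] in
theorem edM_fix (hσ : ∀ a, σ a = a ↔ a ∈ F₀) {A : Matrix ι ι F} (h : ∀ i j, A i j ∈ F₀) :
    (edM A).map (Polynomial.map (σ : F →+* F)) = edM A := by
  rw [← edM_map_equiv]
  congr 1
  ext i j
  exact (hσ _).2 (h i j)

omit [Fintype F] in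
theorem EH.sub_lin (hσ : ∀ a, σ a = a ↔ a ∈ F₀) (h : EH (subfieldSubgroup F₀ 1) g) {t : Multiset F}
    (ht : ed g = linM t) : ∃ c : F, c ≠ 0 ∧ t.map (fun a => σ c * c⁻¹ * σ a) = t := by
  obtain ⟨y, h1, h2⟩ := h
  obtain ⟨c, hc, h3⟩ := mem_subfield_one.1 h1
  have h4 := edM_fix hσ (A := c • y.1) h3
  rw [edM, map_smul, ed_smul_linM (h2.trans ht) hc] at h4
  have h5 : (t.map (c * ·)).map σ = t.map (c * ·) := linM_inj (by
    rw [← h4]; simp [linM, Multiset.map_map])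
  refine ⟨c, hc, ?_⟩
  have := congrArg (Multiset.map (c⁻¹ * ·)) h5
  simpa [Multiset.map_map, hc, mul_assoc, mul_left_comm] using this

omit [Fintype F] in
theorem mem_of_pow [Nonempty ι] (hσ : ∀ a, σ a = a ↔ a ∈ F₀) {y : GL ι F}
    (hy : y ∈ subfieldSubgroup F₀ 1) (h1 : y.1 ^ r = 1) (hr : ∀ a : F, a ^ r = 1 → a = 1) :
    ∃ Y : Matrix ι ι F₀, Y.map F₀.subtype = y.1 := by
  obtain ⟨c, hc, h2⟩ := mem_subfield_one.1 hy
  let Y : Matrix ι ι F₀ := fun i j => ⟨_, h2 i j⟩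
  have h3 : F₀.subtype.mapMatrix Y = c • y.1 := rfl
  have h4 := congrFun (congrFun (map_pow F₀.subtype.mapMatrix Y r) (Classical.arbitrary ι))
    (Classical.arbitrary ι)
  rw [h3, _root_.smul_pow, h1] at h4
  have h5 : σ (c ^ r) = c ^ r := (hσ _).2 (by
    rw [show c ^ r = ((Y ^ r) _ _).1 by simpa using h4.symm]; exact Subtype.prop _)
  have h6 := (hσ c).1 ((mul_inv_eq_one₀ hc).1 (hr _ (by
    rw [mul_pow, ← map_pow, h5, inv_pow, mul_inv_cancel₀ (pow_ne_zero _ hc)])))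
  exact ⟨fun i j => ⟨y.1 i j, by simpa [hc] using mul_mem (inv_mem h6) (h2 i j)⟩, rfl⟩

omit [Fintype F] in
theorem exists_lift_poly (hσ : ∀ a, σ a = a ↔ a ∈ F₀) {f : F[X]} (hf : f.Monic)
    (h : f.map (σ : F →+* F) = f) : ∃ f₀ : F₀[X], f₀.map F₀.subtype = f ∧
      f₀.natDegree = f.natDegree ∧ f₀.Monic :=
  lifts_and_natDegree_eq_and_monic ((lifts_iff_coeff_lifts f).2 fun n =>
    ⟨⟨f.coeff n, (hσ _).1 (by simpa using congrArg (coeff · n) h)⟩, rfl⟩) hf

omit [Fintype F] in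
theorem eh_sub_of_fix [Nonempty ι] (hσ : ∀ a, σ a = a ↔ a ∈ F₀) (hr : (r : F) ≠ 0) {z : F}
    (hz : z ≠ 0) (h1 : g ^ r = z • (1 : End F _))
    (h : (ed g).map (Polynomial.map (σ : F →+* F)) = ed g) : EH (subfieldSubgroup F₀ 1) g := by
  have h2 := (ed_dvd_iff g r z).1 h1
  have h0 : r ≠ 0 := by rintro rfl; simp at hr
  obtain ⟨q, hq⟩ := Multiset.exists_mem_of_ne_zero (mt (ed_eq_zero_iff g).1 finrank_pos.ne')
  have h3 : σ z = z := by
    have h4 := h ▸ Multiset.mem_map_of_mem (Polynomial.map (σ : F →+* F)) hq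
    have h5 := dvd_sub (h2 _ h4) (Polynomial.map_dvd (σ : F →+* F) (h2 _ hq))
    by_contra h6
    refine (ed_isPP h4).natDegree_pos.ne' (natDegree_eq_zero_of_isUnit (isUnit_of_dvd_unit h5 ?_))
    rw [Polynomial.map_sub, Polynomial.map_pow, map_X, map_C, sub_sub_sub_cancel_left, ← C_sub]
    exact isUnit_C.2 (sub_ne_zero.2 h6).isUnit
  obtain ⟨χ, h4, h5, h6⟩ := exists_lift_poly hσ g.charpoly_monic (by
    rw [charpoly_eq_prod_ed, Polynomial.map_multiset_prod, h])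
  obtain ⟨B, h7, h8⟩ := exists_ssM_charpoly (n := ι) h6 (by simp [h5, LinearMap.charpoly_natDegree])
  have h9 : B ^ r = (⟨z, (hσ z).1 h3⟩ : F₀) • (1 : Matrix ι ι F₀) := by
    refine (pow_eq_smul_iff_edM _ _ _).2 fun p hp => (h7 p hp).isCoprime_or_dvd _ |>.resolve_left
      fun e => (h7 p hp).not_isUnit ?_
    have h10 := (isCoprime_map F₀.subtype).2 e
    have h11 : IsCoprime (p.map F₀.subtype) (ed g).prod := Multiset.prod_induction
      (IsCoprime (p.map F₀.subtype)) _ (fun _ _ => IsCoprime.mul_right) isCoprime_one_right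
      fun a ha => h10.of_isCoprime_of_dvd_right (by simpa using h2 a ha)
    rw [← charpoly_eq_prod_ed, ← h4, isCoprime_map, ← h8, charpoly_eq_prod_edM] at h11
    exact h11.isUnit_of_dvd (Multiset.dvd_prod hp)
  have h10 : toLin' (B.map F₀.subtype) ^ r = z • (1 : End F _) := toLin'_pow_eq
    ((map_pow F₀.subtype.mapMatrix B r).symm.trans (by
      rw [h9]; ext i j; by_cases e : i = j <;> simp [e]))
  refine eh_sub_of_map ((ss_of_pow hr hz h10).sim_of_charpoly (ss_of_pow hr hz h1) ?_).ed_eq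
    fun e => ?_
  · rw [charpoly_toLin', Matrix.charpoly_map, h8, h4]
  · simpa [e, h0, hz, eq_comm] using det_pow_of h1

omit [Fintype F] in
theorem eh_sub_uni (p : ℕ) [Fact p.Prime] [CharP F p] (h : g ^ p = 1) :
    ∃ B : SpecialLinearGroup ι F₀, edM (B.1.map F₀.subtype) = ed g := by
  obtain ⟨μ, h1, h2, h3⟩ := ed_uni_of_pow p h
  obtain ⟨B, hB⟩ := exists_uni (F := F₀) (n := ι) (fun a ha => (h1 a ha).1) (by simpa using h2)
  exact ⟨B, (edM_map_uni _ hB fun a ha => (h1 a ha).1).trans h3.symm⟩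

theorem dvd_gs_of_index (hr : r.Prime) (hr0 : (r : F) ≠ 0) {n k : ℕ}
    (hk : Fintype.card F = Nat.card F₀ ^ k)
    (h : r ∣ (subfieldSubgroup F₀ 1).relIndex (specialLinear (Fin (n + 1)) F)) :
    ∃ j < n, r ∣ gs (Nat.card F₀ ^ (j + 2)) k := by
  have := Fintype.ofFinite F₀
  have h1 := Subgroup.card_dvd_of_injective ((SpecialLinearGroup.toGL.comp
    (SpecialLinearGroup.map F₀.subtype)).codRestrict
    (subfieldSubgroup F₀ 1 ⊓ specialLinear (Fin (n + 1)) F) fun x =>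
      ⟨mem_subfield_one.2 ⟨1, one_ne_zero, fun i j => by simp⟩, Units.ext (by simp)⟩)
    fun x y e => Subtype.ext (Matrix.map_injective F₀.subtype.injective
      (congrArg (fun a => a.1.1) e))
  have h2 := mul_dvd_mul h h1
  rw [relIndex_mul_card, card_specialLinear, card_SL_eq, card_SL_eq, ← Nat.card_eq_fintype_card (α := F₀)] at h2
  have hq : 1 < Nat.card F₀ := Finite.one_lt_card
  have h3 : ∏ j ∈ Finset.range n, (Fintype.card F ^ (j + 2) - 1) =
      (∏ j ∈ Finset.range n, (Nat.card F₀ ^ (j + 2) - 1)) *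
      ∏ j ∈ Finset.range n, gs (Nat.card F₀ ^ (j + 2)) k := by
    rw [← Finset.prod_mul_distrib]
    exact Finset.prod_congr rfl fun j _ => by
      rw [mul_comm, gs_mul (Nat.one_le_pow _ _ hq.le), hk, ← pow_mul, ← pow_mul, mul_comm]
  obtain ⟨j, h4, h5⟩ := (Prime.dvd_finsetProd_iff hr.prime _).1 (dvd_of_mul_dvd
    ((coprime_card_of_cast hr hr0).pow_right _) (Finset.prod_ne_zero_iff.2 fun j _ => by
      have := Nat.one_lt_pow (n := j + 2) (by omega) hq; omega)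
    ((mul_dvd_mul_left r (dvd_mul_left _ _)).trans (h3 ▸ h2)))
  exact ⟨j, Finset.mem_range.1 h4, h5⟩

theorem allH_sub_two_iff [Nonempty ι] (h2 : (2 : F) ≠ 0) (hk : Fintype.card F = Nat.card F₀ ^ 2) :
    AllR (EH (subfieldSubgroup (ι := ι) F₀ 1)) 2 ↔
      padicValNat 2 (Fintype.card ι) ≤ padicValNat 2 (Fintype.card F - 1) := by
  obtain ⟨σ, h3, hσ⟩ := exists_frob F₀
  have hq := odd_of_two_ne hk h2
  have h4 : Fintype.card F % 4 = 1 := by
    obtain ⟨k, e⟩ := hq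
    rw [hk, e, show (2 * k + 1) ^ 2 = 1 + 4 * (k ^ 2 + k) by ring, Nat.add_mul_mod_self_left]
  refine ⟨fun H => not_lt.1 fun h => ?_, fun h => allR_two h2 (EH.of_smul smGL_mem_sub)
    (fun g c a b _ _ _ _ h6 => ?_) fun g z hd h5 h6 => ?_⟩
  · obtain ⟨x, z, -, h5, h6, -, -, h7⟩ := exists_nonsplit_SL (F := F) (n := ι) (r := 2)
      (by omega) fun e => absurd e.1 (by simpa using h)
    have h8 := toLin'_pow_eq h6
    obtain ⟨y, h9, h10⟩ := H (toLin' x.1) (by simp) ⟨z, h8⟩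
      fun c e => h7 c ((toLin'_eq_smul_iff _ _).1 e)
    obtain ⟨c, hc, h11⟩ := mem_subfield_one.1 h9
    have h12 : (c • y.1) ^ 2 = (c ^ 2 * z) • (1 : Matrix ι ι F) := by
      rw [_root_.smul_pow, mul_smul, ← toLin'_eq_smul_iff (y.1 ^ 2) z |>.1
        (by rw [toLin'_pow]; exact pow_of_ed_eq h10 h8)]
    have h13 : c ^ 2 * z ∈ F₀ := by
      have := congrFun (congrFun h12 (Classical.arbitrary ι)) (Classical.arbitrary ι)
      rw [sq, Matrix.mul_apply] at this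
      rw [show c ^ 2 * z = _ by simpa using this.symm]
      exact sum_mem fun j _ => mul_mem (h11 _ j) (h11 j _)
    obtain ⟨m, hm⟩ := hq
    have h14 : c ^ 2 * z ≠ 0 := mul_ne_zero (pow_ne_zero _ hc) fun e => h5 0 (by simp [e])
    have h15 : (c ^ 2 * z) ^ (2 * m) = 1 := mul_right_cancel₀ h14 (by
      rw [← pow_succ, one_mul, ← hm, ← h3]; exact (hσ _).2 h13)
    obtain ⟨b, hb⟩ := (FiniteField.isSquare_iff (ringChar_ne_two (hk ▸ Odd.pow ⟨m, hm⟩)) h14).2 (by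
      rw [hk, hm, show (2 * m + 1) ^ 2 / 2 = 2 * m * (m + 1) by
        rw [show (2 * m + 1) ^ 2 = 1 + 2 * (2 * m * (m + 1)) by ring]; omega, pow_mul, h15, one_pow])
    exact h5 (b / c) (by field_simp; linear_combination -hb)
  · refine eh_sub_of_fix hσ (r := 2) h2 (z := 1 ^ 2) (by simp) (pow_of_lin h6) ?_
    simp [h6]
  · refine absurd ⟨h, fun _ _ => h4⟩ (not_NS_of_nonsplit (r := 2)
      (x := ⟨LinearMap.toMatrix' g, by simpa using hd⟩) h5 ?_)
    rw [← toLin'_eq_smul_iff, toLin'_pow, toLin'_toMatrix', h6]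

theorem allH_sub_char [Nonempty ι] (p : ℕ) [Fact p.Prime] [CharP F p] :
    AllR (EH (subfieldSubgroup (ι := ι) F₀ 1)) p :=
  allR_char p (EH.of_smul smGL_mem_sub) fun g h _ => (eh_sub_uni (F₀ := F₀) p h).elim fun _ hB =>
    eh_sub_of_map hB fun e => by
      simpa [e, (Fact.out : p.Prime).ne_zero] using congrArg LinearMap.det h

omit [Fintype F] in
theorem cast_sub_ne (F₀ : Subfield F) (hr0 : (r : F) ≠ 0) : (r : F₀) ≠ 0 :=
  fun e => hr0 (by simpa using congrArg F₀.subtype e)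

theorem allH_sub_self [Nonempty ι] [hr : Fact r.Prime] (hr0 : (r : F) ≠ 0)
    (hk : Fintype.card F = Nat.card F₀ ^ r) (h : r ∣ Nat.card F₀ - 1 →
      NS r (Fintype.card ι) (Fintype.card F)) : AllR (EH (subfieldSubgroup (ι := ι) F₀ 1)) r := by
  obtain ⟨σ, -, hσ⟩ := exists_frob F₀
  have := Fintype.ofFinite F₀
  have h1 : orderOf (Fintype.card F : ZMod r) = orderOf (Fintype.card F₀ : ZMod r) := by
    rw [hk, Nat.cast_pow, ZMod.pow_card, Nat.card_eq_fintype_card]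
  rintro g hd ⟨z, hz⟩ -
  by_cases h2 : ∀ b, b ^ r ≠ z
  · refine absurd (h ?_) (not_NS_of_nonsplit (x := ⟨LinearMap.toMatrix' g, by simpa using hd⟩) h2 ?_)
    · rw [Nat.card_eq_fintype_card, ← orderOf_eq_one_iff_dvd Fintype.card_pos, ← h1,
        orderOf_eq_one_iff_dvd Fintype.card_pos]
      exact dvd_of_nonsplit hr.out h2
    · rw [← toLin'_eq_smul_iff, toLin'_pow, toLin'_toMatrix', hz]
  push Not at h2
  obtain ⟨c, rfl⟩ := h2
  obtain ⟨hc, h3⟩ := exists_smul_pow hd hz hr.out.ne_zero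
  refine EH.of_smul smGL_mem_sub _ _ (inv_ne_zero hc) (eh_sub_of_fix hσ hr0 one_ne_zero
    (h3.trans (one_smul F _).symm) ((Multiset.map_congr rfl fun f hf => ?_).trans (Multiset.map_id _)))
  have h4 := (ed_dvd_one_iff _ r).1 h3 f hf
  obtain ⟨h5, rfl | ⟨h6, h7⟩⟩ := irred_of_dvd_X_pow_sub_one hr.out hr0 (ed_isPP hf) h4
  · simp
  have h8 : (X ^ r - C 1 : F₀[X]).Monic := monic_X_pow_sub_C _ hr.out.ne_zero
  obtain ⟨_, h9, h10⟩ := h5.prime.exists_mem_multiset_dvd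
    (s := (ppf (X ^ r - C 1 : F₀[X])).map (Polynomial.map F₀.subtype))
    (by rw [← Polynomial.map_multiset_prod, prod_ppf h8]; simpa using h4)
  obtain ⟨a, ha, rfl⟩ := Multiset.mem_map.1 h9
  have h11 := ppf_isPP h8.ne_zero ha
  obtain rfl : a.map F₀.subtype = f := by
    refine eq_of_monic_of_dvd_of_natDegree_le (ed_isPP hf).monic (h11.monic.map _) h10 ?_
    obtain ⟨-, rfl | ⟨-, h12⟩⟩ := irred_of_dvd_X_pow_sub_one hr.out (cast_sub_ne F₀ hr0) h11
      (by simpa using dvd_of_mem_ppf h8.ne_zero ha)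
    · rw [natDegree_map, natDegree_X_sub_C]; exact (ed_isPP hf).natDegree_pos
    · rw [natDegree_map, h12, h7, h1]
  rw [Polynomial.map_map]
  exact congrArg a.map (RingHom.ext fun x => (hσ _).2 x.2)

omit [Fintype F] in
theorem inv_of_pow {a : F} {k q : ℕ} (h : a ^ k = 1) (hk : k ∣ q + 1) : a ^ q = a⁻¹ := by
  obtain ⟨l, hl⟩ := hk
  exact eq_inv_of_mul_eq_one_left (by rw [← pow_succ, hl, pow_mul, h, one_pow])

theorem allH_sub_exc [hp : Fact r.Prime] (hr : r = 3 ∨ r = 5) (hk : Fintype.card F = Nat.card F₀ ^ 2)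
    (hv : padicValNat r (Nat.card F₀ + 1) = 1) (hι : Fintype.card ι = r) :
    AllR (EH (subfieldSubgroup (ι := ι) F₀ 1)) r := by
  have : Nonempty ι := Fintype.card_pos_iff.1 (by omega)
  obtain ⟨σ, h0, hσ⟩ := exists_frob F₀
  rintro g hd ⟨z, hz⟩ -
  have hq := two_le_of_card_eq_sq hk
  have h5 : r ∣ Nat.card F₀ + 1 := dvd_of_one_le_padicValNat hv.ge
  obtain ⟨c, t, h1, h2, h3, h4⟩ := exists_sym hr (by
    rw [card_sub_one hk, padicValNat.mul (by omega) (by omega), hv, padicValNat.eq_zero_of_not_dvd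
      fun e => by have := eq_two_of_dvd hp.out (by omega) h5 e; omega]) (by simpa) hd hz
  refine EH.of_smul smGL_mem_sub _ _ h1 (eh_sub_of_fix hσ (cast_ne_zero_of_dvd
    (card_sub_one hk ▸ h5.mul_right _)) one_ne_zero (pow_linM h4 h2) ?_)
  conv_rhs => rw [h4, ← h3]
  simp only [h4, linM, Multiset.map_map]
  exact Multiset.map_congr rfl fun a ha => by simp [h0, inv_of_pow (h2 a ha) h5]

theorem not_allH_sub [hp : Fact r.Prime] (hr2 : r ≠ 2) (hr0 : (r : F) ≠ 0) {n k : ℕ} (hk : k.Prime)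
    (hq : Fintype.card F = Nat.card F₀ ^ k) (hn : 2 ≤ n) (h1 : ¬ (n = 6 ∧ r = 3)) (h2 : r ≠ k)
    (h3 : ¬ (k = 2 ∧ r = n ∧ (n = 3 ∨ n = 5) ∧ padicValNat r (Nat.card F₀ + 1) = 1))
    (h : r ∣ (subfieldSubgroup F₀ 1).relIndex (specialLinear (Fin n) F)) :
    ¬ AllR (EH (subfieldSubgroup (ι := Fin n) F₀ 1)) r := by
  classical
  have hr := hp.out
  obtain ⟨n, rfl⟩ : ∃ m, n = m + 1 := ⟨n - 1, by omega⟩
  obtain ⟨σ, h0, hσ⟩ := exists_frob F₀
  have := Fintype.ofFinite F₀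
  have hq0 : 1 < Nat.card F₀ := Finite.one_lt_card
  obtain ⟨j, h4, h5⟩ := dvd_gs_of_index hr hr0 hq h
  have h6 := Nat.one_le_pow (j + 2) _ hq0.le
  have h7 : ¬ orderOf (Nat.card F₀ : ZMod r) ∣ j + 2 := fun e => h2
    ((Nat.prime_dvd_prime_iff_eq hr hk).1 (((gs_modEq h6 k).of_dvd
      ((orderOf_zmod_dvd_iff hq0.le _).1 e)).dvd_iff dvd_rfl |>.1 h5))
  have h8 : orderOf (Fintype.card F : ZMod r) ∣ j + 2 := (orderOf_zmod_dvd_iff Fintype.card_pos _).2
    (by rw [hq, ← pow_mul, mul_comm, pow_mul, ← gs_mul h6]; exact h5.mul_right _)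
  by_cases h9 : r ∣ Fintype.card F - 1
  swap
  · obtain ⟨f, hf⟩ := Tr_nonempty (F := F) hr hr0
    obtain ⟨l, hl⟩ := Nat.exists_eq_add_of_le ((Nat.le_of_dvd (by omega) h8).trans
      (show j + 2 ≤ n + 1 by omega))
    refine not_allR_Tr hr hr0 h9 (s := {f}) (k := l) (by simpa) (by simp) (by simp [hl]) ?_
    rintro g h10 h11 ⟨y, h12, h13⟩
    obtain ⟨Y, hY⟩ := mem_of_pow hσ h12 (r := r) ((pow_eq_one_iff_edM _ _).2
      (h13 ▸ (ed_dvd_one_iff g r).1 h10)) fun a => eq_one_of_pow_eq_one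
        ((Nat.Prime.coprime_iff_not_dvd hr).2 h9) hr.ne_zero
    have h14 := edM_fix hσ (A := y.1) fun i j => hY ▸ (Y i j).2
    rw [h13, h11, Multiset.map_add, Multiset.map_replicate, Polynomial.map_sub, map_X, map_C,
      map_one, add_left_inj, Multiset.map_singleton, Multiset.singleton_inj] at h14
    obtain ⟨a, rfl, h15, h16⟩ := exists_lift_poly hσ hf.1 h14
    have h17 := h16.irreducible_of_irreducible_map _ _ hf.2.1
    have h18 := (Tr_spec hr hr0).2.2 _ hf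
    obtain ⟨-, rfl | ⟨-, h19⟩⟩ := irred_of_dvd_X_pow_sub_one hr (cast_sub_ne F₀ hr0)
      (isPP_of_irred h16 h17) ((map_dvd_map' F₀.subtype).1 (by
        simpa using (dvd_X_pow_sub_one_iff _ _).2 hf.2.2.dvd))
    · exact h9 ((orderOf_eq_one_iff_dvd Fintype.card_pos).1 (by
        rw [← h18, natDegree_map, natDegree_X_sub_C]))
    · exact h7 (by rwa [Nat.card_eq_fintype_card, ← h19, h15, h18])
  have h10 : orderOf (Nat.card F₀ : ZMod r) = k := ((Nat.dvd_prime hk).1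
    ((orderOf_zmod_dvd_iff hq0.le _).2 (hq ▸ h9))).resolve_left fun e => h7 (e ▸ one_dvd _)
  obtain ⟨ω, hω0, hω⟩ := exists_orderOf_eq h9
  by_cases h11 : k = 2
  · subst h11
    have h12 := (orderOf_eq_two_iff_dvd hr hr2).1 h10
    have key : ∀ (t : Multiset F) (m : ℕ), m ∣ Nat.card F₀ + 1 → (∀ a ∈ t, a ^ m = 1) →
        (∀ μ, ¬ ∀ a ∈ t, t.count (μ * a⁻¹) = t.count a) → ∀ g, ed g = linM t →
        ¬ EH (subfieldSubgroup (ι := Fin (n + 1)) F₀ 1) g := fun t m a1 a2 a3 g a4 a5 => by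
      obtain ⟨c, hc, a6⟩ := a5.sub_lin hσ a4
      refine a3 (σ c * c⁻¹) fun a ha => ?_
      conv_lhs => rw [← a6, ← inv_of_pow (a2 a ha) a1, ← h0]
      exact Multiset.count_map_eq_count' _ _ (fun a b e => σ.injective
        (mul_left_cancel₀ (by simp [hc]) e)) a
    by_cases h13 : (r = 3 ∨ r = 5) ∧ n + 1 = r
    · have h14 := (padicValNat_dvd_iff_le (p := r) (n := 2) (a := Nat.card F₀ + 1) (by omega)).2 (by
        have := one_le_padicValNat_of_dvd (by omega) h12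
        have : padicValNat r (Nat.card F₀ + 1) ≠ 1 := fun e => h3 ⟨rfl, h13.2.symm, by omega, e⟩
        omega)
      obtain ⟨c, -, hc⟩ := exists_orderOf_eq (F := F) (card_sub_one hq ▸ h14.mul_right _)
      obtain ⟨t, z, a1, a2, a3, a4, a5, a6⟩ := exists_der_two hr hr2 hc
      exact not_allR_lin (by simp [a1, h13.2]) a2 a3 a5
        (key t _ h14 (fun a ha => by rw [sq, pow_mul, a3 a ha, a4]) a6)
    · obtain ⟨t, a1, a2, a3, a4, a5⟩ := exists_der_one hr hr2 hω (n := n + 1) (by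
        rw [h10] at h7; omega) h1 h13
      exact not_allR_lin (by simp [a1]) a2 a3 a4 (key t _ h12 a3 a5)
  have h12 : ω ^ r = 1 := hω ▸ pow_orderOf_eq_one ω
  have h13 : ∀ a : F, a ^ r = 1 → a ^ 2 = 1 → a = 1 := fun a =>
    eq_one_of_coprime ((Nat.coprime_primes hr Nat.prime_two).2 hr2)
  have n1 : ω ≠ 1 := fun e => hr.ne_one (by rw [← hω, e, orderOf_one])
  have h14 : ∀ m, ω ^ Nat.card F₀ ^ m = ω → k ∣ m := fun m e => by
    rw [← h10, orderOf_zmod_dvd_iff hq0.le, ← hω]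
    exact orderOf_dvd_of_pow_eq_one (mul_right_cancel₀ hω0 (by
      rw [← pow_succ, Nat.sub_add_cancel (Nat.one_le_pow _ _ hq0.le), e, one_mul]))
  have n2 : σ ω ≠ ω := fun e => hk.not_dvd_one (h14 1 (by rw [pow_one, ← h0, e]))
  have n3 : σ ω ≠ ω⁻¹ := fun e => h11 ((Nat.prime_dvd_prime_iff_eq hk Nat.prime_two).1
    (h14 2 (by rw [sq, pow_mul, ← h0, ← h0, e, map_inv₀, e, inv_inv])))
  obtain ⟨n, rfl⟩ : ∃ m, n = m + 1 := ⟨n - 1, by omega⟩
  have hm : ∀ a, a ∈ ω ::ₘ ω⁻¹ ::ₘ Multiset.replicate n 1 ↔ a = ω ∨ a = ω⁻¹ ∨ (n ≠ 0 ∧ a = 1) :=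
    fun a => by simp [Multiset.mem_replicate]
  refine not_allR_lin (t := ω ::ₘ ω⁻¹ ::ₘ Multiset.replicate n 1) (z := 1) (by simp) (by simp [hω0])
    (fun a ha => by rcases (hm a).1 ha with rfl | rfl | ⟨-, rfl⟩ <;> simp [h12])
    ⟨_, (hm ω).2 (by simp), _, (hm ω⁻¹).2 (by simp), fun e => n1 (h13 _ h12 (by
      rw [sq]; nth_rw 2 [e]; simp [hω0]))⟩ fun g a1 a2 => ?_
  obtain ⟨c, -, a3⟩ := a2.sub_lin hσ a1
  generalize σ c * c⁻¹ = e at a3
  have a4 := fun a ha => (hm _).1 (a3 ▸ Multiset.mem_map_of_mem (fun a => e * σ a) ((hm a).2 ha))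
  have a5 := a4 ω (by simp)
  have a6 := a4 ω⁻¹ (by simp)
  have a7 : σ ω ≠ 0 := by simpa using hω0
  have a8 : σ ω ^ r = 1 := by rw [← map_pow, h12, map_one]
  have n4 : σ ω ≠ 1 := by simpa using n1
  have a9 : ∀ a : F, n ≠ 0 → e * a = 1 → a = ω ∨ a = ω⁻¹ ∨ a = 1 := fun a a10 a11 => by
    obtain rfl := eq_inv_of_mul_eq_one_right a11
    rcases a4 1 (by simp [a10]) with a | a | ⟨-, a⟩ <;> simp at a <;> simp [a]
  rw [map_inv₀] at a6
  have a10 : e ^ r = 1 := by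
    rcases a5 with a | a | ⟨-, a⟩ <;> simpa [mul_pow, a8, h12] using congrArg (· ^ r) a
  have a11 : e ≠ 1 := by rintro rfl; simp only [one_mul] at a5; tauto
  have a12 : e * σ ω ≠ e * (σ ω)⁻¹ := fun a => n4 (h13 _ a8 (by
    have := mul_left_cancel₀ (by rintro rfl; simp [hr.ne_zero] at a10) a
    field_simp at this; exact this))
  have a13 := mul_inv_cancel₀ a7
  have a14 := mul_inv_cancel₀ hω0
  rcases a5 with a5 | a5 | ⟨a, a5⟩
  rotate_left 2
  · have := a9 _ a a5; tauto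
  all_goals rcases a6 with a6 | a6 | ⟨a, a6⟩
  · exact a12 (a5.trans a6.symm)
  · exact a11 (h13 _ a10 (by linear_combination e * (σ ω)⁻¹ * a5 + ω * a6 - e ^ 2 * a13 + a14))
  · rcases a9 _ a a6 with b | b | b
    exacts [n3 (inv_eq_iff_eq_inv.1 b), n2 (inv_injective b), n4 (inv_eq_one.1 b)]
  · exact a11 (h13 _ a10 (by linear_combination e * (σ ω)⁻¹ * a5 + ω⁻¹ * a6 - e ^ 2 * a13 + a14))
  · exact a12 (a5.trans a6.symm)
  · rcases a9 _ a a6 with b | b | b
    exacts [n3 (inv_eq_iff_eq_inv.1 b), n2 (inv_injective b), n4 (inv_eq_one.1 b)]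

theorem conj_sub_three [CharP F 3] [Nonempty ι] {k : ℕ} (hq : Fintype.card F = Nat.card F₀ ^ k)
    (h : Odd (Fintype.card ι) ∨ Odd k) (x : GL ι F) (hx : x ∈ specialLinear ι F)
    (h1 : ∃ z : F, (x ^ 3).1 = z • (1 : Matrix ι ι F)) :
    ∃ g ∈ specialLinear ι F, g⁻¹ * x * g ∈ subfieldSubgroup F₀ 1 := by
  have : Fact (Nat.Prime 3) := ⟨Nat.prime_three⟩
  obtain ⟨σ, h0, hσ⟩ := exists_frob F₀
  obtain ⟨z, hz⟩ := h1
  obtain ⟨c, rfl⟩ := (bijective_frobenius F 3).2 z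
  have hd := (mem_SL_iff x).1 hx
  obtain ⟨hc, h2⟩ := exists_smul_pow hd (toLin'_pow_eq hz) (by omega)
  obtain ⟨B, hB⟩ := eh_sub_uni (F₀ := F₀) 3 h2
  obtain ⟨y, h3, h4⟩ := EH.of_smul smGL_mem_sub _ _ (inv_ne_zero hc) (eh_sub_of_map hB (by
    simp [-LinearMap.det_toLin', hd, hc]))
  refine exists_conj_of h3 h4 fun d hd0 => ?_
  have h5 : ∀ q ∈ edM x.1, q.natDegree = 1 ∨ q.natDegree = 2 ∨ q.natDegree = 3 := fun q hq => by
    have := natDegree_le_of_dvd ((pow_eq_smul_iff_edM _ _ _).1 hz q hq)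
      (monic_X_pow_sub_C _ (by omega)).ne_zero
    have := (edM_isPP hq).natDegree_pos
    rw [natDegree_X_pow_sub_C] at *
    omega
  by_cases h6 : ∀ q ∈ edM x.1, q.natDegree = 2
  · have h7 := sum_natDegree_edM x.1
    rw [Multiset.map_congr rfl h6, Multiset.map_const', Multiset.sum_replicate, smul_eq_mul] at h7
    have hk := h.resolve_left (by rw [← h7]; simp)
    have hq0 : 1 < Nat.card F₀ := Finite.one_lt_card
    have h8 : Odd (Nat.card F₀) := (Nat.odd_pow_iff hk.pos.ne').1 (by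
      obtain ⟨n, -, e⟩ := FiniteField.card F 3
      rw [← hq, e]; exact Odd.pow (by decide))
    obtain ⟨m, hm⟩ : Odd (gs (Nat.card F₀) k) := Nat.odd_iff.2 (Eq.trans ((gs_modEq hq0.le k).of_dvd
      (Nat.Odd.sub_odd h8 odd_one).two_dvd) (Nat.odd_iff.1 hk))
    have h9 : d ^ (2 * m + 1) ∈ F₀ := (hσ _).1 (by
      rw [h0, ← Nat.sub_add_cancel hq0.le, pow_succ, ← pow_mul, ← hm, gs_mul hq0.le, ← hq,
        FiniteField.pow_card_sub_one_eq_one d hd0, one_mul])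
    obtain ⟨q, h10⟩ := exists_mem_edM x.1
    obtain ⟨Q, h11, h12⟩ := exists_comm_det_powM h10 (d ^ m)⁻¹
    let D := diagonal (Function.update (1 : ι → F) (Classical.arbitrary ι) (d ^ (2 * m + 1)))
    have h13 : D.det = d ^ (2 * m + 1) := by simp [D, Finset.prod_update_of_mem]
    refine ⟨Q, GeneralLinearGroup.mkOfDetNeZero D (h13 ▸ pow_ne_zero _ hd0),
      mem_subfield_one.2 ⟨1, one_ne_zero, fun i j => ?_⟩, h11, ?_⟩
    · change 1 * D i j ∈ F₀
      simp only [D, one_mul, diagonal_apply, Function.update_apply]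
      split_ifs
      exacts [h9, one_mem _, zero_mem _]
    · change Q.det * D.det = d
      rw [h12, h13, h6 q h10]; field_simp; ring
  push Not at h6
  obtain ⟨q, h7, h8⟩ := h6
  obtain ⟨e, he⟩ : ∃ e, e ^ q.natDegree = d := by
    rcases h5 q h7 with a | a | a
    · exact ⟨d, by rw [a, pow_one]⟩
    · exact absurd a h8
    · exact a ▸ (bijective_frobenius F 3).2 d
  obtain ⟨Q, h9, h10⟩ := exists_comm_det_powM h7 e
  exact ⟨Q, 1, one_mem _, h9, by simp [h10, he]⟩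

theorem exists_der_three [CharP F 3] {d : ℕ} (hd : d ≠ 0) (hι : Fintype.card ι = 2 * d)
    (hq : Fintype.card F = Nat.card F₀ ^ 2) : ∃ x ∈ specialLinear ι F,
    (∃ z : F, (x ^ 3).1 = z • (1 : Matrix ι ι F)) ∧ (∀ z : F, x.1 ≠ z • (1 : Matrix ι ι F)) ∧
    ∀ g ∈ specialLinear ι F, g⁻¹ * x * g ∉ subfieldSubgroup F₀ 1 := by
  have : Fact (Nat.Prime 3) := ⟨Nat.prime_three⟩
  have : Nonempty ι := Fintype.card_pos_iff.1 (by omega)
  obtain ⟨σ, h0, hσ⟩ := exists_frob F₀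
  have h2 : ringChar F ≠ 2 := by rw [ringChar.eq F 3]; decide
  obtain ⟨δ, hδ⟩ := FiniteField.exists_nonsquare h2
  have hδ0 : δ ≠ 0 := by rintro rfl; simp at hδ
  obtain ⟨B, hB⟩ := exists_uni (F := F₀) (n := ι) (μ := Multiset.replicate d 2)
    (by simp [Multiset.mem_replicate]) (by simp [hι, mul_comm])
  let u : GL ι F := SpecialLinearGroup.toGL (SpecialLinearGroup.map F₀.subtype B)
  have h3 : edM u.1 = _ := edM_map_uni F₀.subtype hB (by simp [Multiset.mem_replicate])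
  let D := GeneralLinearGroup.mkOfDetNeZero
    (diagonal (Function.update (1 : ι → F) (Classical.arbitrary ι) δ))
    (by simpa [Finset.prod_update_of_mem] using hδ0)
  have h4 : D.1.det = δ := by simp [D, Finset.prod_update_of_mem]
  have h5 : edM (D * u * D⁻¹).1 = uni F (Multiset.replicate d 2) := (edM_conj D _).trans h3
  have h6 : ∀ {A : Matrix ι ι F}, edM A = uni F (Multiset.replicate d 2) → A ^ 3 = 1 := fun h =>
    toLin'.injective (by
      rw [toLin'_pow, toLin'_one]; exact pow_of_ed_uni 3 h (by simp [Multiset.mem_replicate]))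
  refine ⟨D * u * D⁻¹, Subgroup.Normal.conj_mem (MonoidHom.normal_ker _) u (Units.ext (by simp [u])) D,
    ⟨1, by rw [Units.val_pow_eq_pow_val, h6 h5, one_smul]⟩, fun z e => not_scalar_of_uni h5 (a := 2)
      (Multiset.mem_replicate.2 ⟨hd, rfl⟩) (by decide) z ((toLin'_eq_smul_iff _ _).2 e), fun g hg h7 => hδ ?_⟩
  have h8 := (edM_conj' g _).trans h5
  obtain ⟨Y, hY⟩ := mem_of_pow hσ h7 (h6 h8) fun a e =>
    frobenius_inj F 3 (by simpa [frobenius_def] using e)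
  obtain ⟨R, hR⟩ := edM_eq_iff.1 (edM_eq_of_map F₀.subtype (A := Y) (B := B.1)
    ((congrArg edM hY).trans (h8.trans h3.symm)))
  let R' : GL ι F := GeneralLinearGroup.map F₀.subtype R
  have h9 : R' * (g⁻¹ * (D * u * D⁻¹) * g) = u * R' := Units.ext (by
    rw [Units.val_mul, ← hY]
    exact (Matrix.map_mul (f := F₀.subtype)).symm.trans ((congrArg (Matrix.map · F₀.subtype) hR).trans
      Matrix.map_mul))
  have h10 : R' * g⁻¹ * D * u = u * (R' * g⁻¹ * D) := by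
    rw [← mul_assoc, ← mul_assoc, ← h9]; group
  have h11 := isSquare_det_of_comm (N := toLin' (u.1 - 1)) (Z := toLin' (R' * g⁻¹ * D).1)
    (by rw [← sq, ← toLin'_pow, (uni_pow_eq_zero_iff h3 2).2 (by simp [Multiset.mem_replicate])]; simp)
    (by
      have := uni_rank h3
      simp only [Multiset.card_replicate] at this
      change 2 * (u.1 - 1).rank = _
      rw [finrank_fintype_fun_eq_card]; omega)
    (by rw [End.mul_eq_comp, End.mul_eq_comp, ← toLin'_mul, ← toLin'_mul, mul_sub, sub_mul,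
      ← Units.val_mul, h10]; simp)
  have h12 : g⁻¹.1.det = 1 := congrArg Units.val (inv_mem hg)
  rw [LinearMap.det_toLin', Units.val_mul, Units.val_mul, det_mul, det_mul, h12, h4, mul_one] at h11
  have h13 : R'.1.det ∈ F₀ := by
    rw [show R'.1.det = F₀.subtype R.1.det from (RingHom.map_det _ _).symm]; exact Subtype.prop _
  obtain ⟨m, hm⟩ := odd_of_two_ne hq (Ring.two_ne_zero h2)
  have h14 : R'.1.det ^ (2 * m) = 1 := mul_right_cancel₀ R'.det_ne_zero (by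
    rw [← pow_succ, one_mul, ← hm, ← h0]; exact (hσ _).2 h13)
  obtain ⟨b, hb⟩ := (FiniteField.isSquare_iff h2 R'.det_ne_zero).2 (by
    rw [hq, hm, show (2 * m + 1) ^ 2 / 2 = 2 * m * (m + 1) by
      rw [show (2 * m + 1) ^ 2 = 1 + 2 * (2 * m * (m + 1)) by ring]; omega, pow_mul, h14, one_pow])
  obtain ⟨a, ha⟩ := h11
  have hb0 : b ≠ 0 := fun e => R'.det_ne_zero (by simp [hb, e])
  exact ⟨a / b, by field_simp; linear_combination ha - δ * hb⟩

end Sub

end H16
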