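import Cfsg.Agent.H16.LA33

/-! Eigenspace bounds; tensor decomposition stabilizers. -/

set_option autoImplicit false

namespace H16

open Module Polynomial H23 H23.Form H14.Wall Matrix TensorProduct

universe u v

section Kd

variable {F : Type u} {V W : Type*} [Field F] [AddCommGroup V] [Module F V] [AddCommGroup W]
  [Module F W] {g : End F V} {h : End F W} {r k m : ℕ} {R : End F V → Prop}

theorem mem_ker_lin {c : F} {x : V} : x ∈ LinearMap.ker (aeval g (X - C c)) ↔ g x = c • x := by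
  simp [sub_eq_zero, Algebra.algebraMap_eq_smul_one]

variable [FiniteDimensional F V]

theorem kd_add_le (φ : W →ₗ[F] V) {c : F} (H : ∀ u, g (φ u) = c • φ u → u = 0) :
    kd g (X - C c) + finrank F W ≤ finrank F V := by
  rw [← LinearMap.finrank_range_of_inj (f := φ)
    ((injective_iff_map_eq_zero φ).2 fun u e => H u (by simp [e]))]
  refine Submodule.finrank_add_finrank_le_of_disjoint (Submodule.disjoint_def.2 ?_)
  rintro _ h1 ⟨u, rfl⟩
  rw [H u (mem_ker_lin.1 h1), map_zero]

theorem kd_congr [FiniteDimensional F W] (e : ed h = ed g) (p : F[X]) : kd h p = kd g p :=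
  (sim_of_ed_eq e).kd p

theorem finrank_congr [FiniteDimensional F W] (e : ed h = ed g) : finrank F W = finrank F V := by
  rw [← sum_natDegree_ed h, ← sum_natDegree_ed g, e]

theorem kd_linM [DecidableEq F] {t : Multiset F} (e : ed g = linM t) (c : F) :
    kd g (X - C c) = t.count c := by
  classical
  rw [SS.kd_eq_count (fun q hq => ?_) (monic_X_sub_C c) (irreducible_X_sub_C c), e,
    natDegree_X_sub_C, mul_one]
  · exact Multiset.count_map_eq_count' _ _ (fun _ _ => lin_inj) _
  · obtain ⟨a, -, rfl⟩ := Multiset.mem_map.1 (e ▸ hq :)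
    exact irreducible_X_sub_C a

theorem kd_Tr (hr : r.Prime) {s : Multiset F[X]} (hs : ∀ a ∈ s, a ∈ Tr F r)
    (e : ed g = s + Multiset.replicate k (X - C 1)) : kd g (X - C 1) = k := by
  classical
  rw [SS.kd_eq_count (fun q hq => ?_) (monic_X_sub_C 1) (irreducible_X_sub_C 1), e,
    natDegree_X_sub_C, mul_one, Multiset.count_add, Multiset.count_replicate_self,
    Multiset.count_eq_zero.2 (one_notMem_Tr hr hs), zero_add]
  rcases Multiset.mem_add.1 (e ▸ hq :) with h | h
  · exact (hs q h).2.1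
  · rw [Multiset.eq_of_mem_replicate h]; exact irreducible_X_sub_C 1

theorem kd_rep (h2 : (2 : F) ≠ 0) {a b : ℕ}
    (e : ed g = Multiset.replicate a (X - C 1) + Multiset.replicate b (X - C (-1))) :
    kd g (X - C 1) = a := by
  classical
  have : (-1 : F) ≠ 1 := fun e => h2 (by linear_combination -e)
  rw [kd_linM (e.trans (linM_rep ..).symm)]
  simp [Multiset.count_replicate, this]

theorem ed_eq_of_sq [FiniteDimensional F W] (h2 : (2 : F) ≠ 0) (hh : h ^ 2 = 1) {a b : ℕ}
    (h1 : kd h (X - C 1) = a) (h3 : a + b = finrank F W) :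
    ed h = Multiset.replicate a (X - C 1) + Multiset.replicate b (X - C (-1)) := by
  have h4 : h ^ 2 = (1 : F) ^ 2 • (1 : End F W) := by simp [hh]
  obtain ⟨a', b', h5⟩ := exists_rep_of_mem' (mem_ed_sq h4 (ss_of_pow h2 (by simp) h4))
  have h6 : a' + b' = finrank F W := by simpa [h5, -map_neg, -map_one] using sum_natDegree_ed h
  have h7 := kd_rep h2 h5
  rw [h5, show a' = a by omega, show b' = b by omega]

theorem dvd_kd_of_nsmul {s : Multiset F[X]} (e : ed g = k • s) (p : F[X]) : k ∣ kd g p := by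
  rw [kd_eq_sum, e, Multiset.map_nsmul, Multiset.sum_nsmul]
  exact dvd_mul_right _ _

omit [AddCommGroup V] [Module F V] [FiniteDimensional F V] in
theorem Tr_ne_nsmul (hr : r.Prime) {s t : Multiset F[X]} (hs : ∀ a ∈ s, a ∈ Tr F r) (h0 : s ≠ 0)
    (hn : s.Nodup) (hk : 2 ≤ k) : s + Multiset.replicate m (X - C 1) ≠ k • t := fun e => by
  classical
  obtain ⟨a, ha⟩ := Multiset.exists_mem_of_ne_zero h0
  have := congrArg (Multiset.count a) e
  rw [Multiset.count_add, Multiset.count_eq_one_of_mem hn ha, Multiset.count_nsmul,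
    Multiset.count_eq_zero.2 fun e : a ∈ Multiset.replicate m (X - C 1) =>
      one_notMem_Tr hr hs (Multiset.eq_of_mem_replicate e ▸ ha)] at this
  have := Nat.eq_one_of_mul_eq_one_right this.symm
  omega

omit [FiniteDimensional F V] in
theorem inj_pow (hg : Function.Injective g) (r : ℕ) : Function.Injective (g ^ r) := by
  rw [Module.End.coe_pow]; exact hg.iterate r

theorem ed_eq_of_nonsplit [FiniteDimensional F W] (hr : r.Prime) {z : F} (hz : ∀ b, b ^ r ≠ z)
    (hg : g ^ r = z • (1 : End F V)) (hh : h ^ r = z • (1 : End F W))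
    (e : finrank F W = finrank F V) : ed h = ed g := by
  obtain ⟨a, h1, h2⟩ := ed_nonsplit hr hz hg
  obtain ⟨b, h3, h4⟩ := ed_nonsplit hr hz hh
  rw [h1, h3, Nat.eq_of_mul_eq_mul_right hr.pos (h4.symm.trans (e.trans h2))]

/-- eigenspace alternative -/
def RK (k m : ℕ) (g : End F V) : Prop :=
  (∀ p, k ∣ kd g p) ∨ ∀ c, c ≠ 0 → kd g (X - C c) + m ≤ finrank F V

omit [FiniteDimensional F V] in
theorem RK.not (H : RK k m g) (hk : 2 ≤ k) (hn : k ∣ finrank F V) (hm : 2 ≤ m) {c : F} (hc : c ≠ 0) :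
    kd g (X - C c) + 1 ≠ finrank F V := fun e => by
  rcases H with H | H
  · have := Nat.le_of_dvd one_pos ((Nat.dvd_add_right (H _)).1 (e ▸ hn))
    omega
  · have := H c hc
    omega

theorem not_allR_char (hR : ∀ g, R g → RK k m g) (hk : 2 ≤ k) (hn : k ∣ finrank F V) (hm : 2 ≤ m)
    (h0 : 2 ≤ finrank F V) (p : ℕ) [hp : Fact p.Prime] [CharP F p] : ¬ AllR R p :=
  not_allR_uni p (j := 2) (k := finrank F V - 2) le_rfl hp.out.two_le (by omega) fun g hg H =>
    (hR g H).not hk hn hm one_ne_zero (by rw [kd_uni hg]; simp; omega)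

theorem not_allR_one (hR : ∀ g, R g → RK k m g) (hk : 2 ≤ k) (hn : k ∣ finrank F V) (hm : 2 ≤ m)
    (h0 : 2 ≤ finrank F V) {c ω : F} (h1 : ω ≠ 1) (h2 : ω ^ r = 1) (h3 : c ^ finrank F V * ω = 1) :
    ¬ AllR R r := by
  classical
  obtain ⟨n, hV⟩ : ∃ n, finrank F V = n + 2 := ⟨_, (Nat.sub_add_cancel h0).symm⟩
  have hc : c ≠ 0 := fun e => by simp [e, hV] at h3
  have h4 : c * ω ≠ c := fun e => h1 (mul_left_cancel₀ hc (e.trans (mul_one c).symm))
  refine not_allR_lin (t := (c * ω) ::ₘ Multiset.replicate (n + 1) c) (z := c ^ r) (by simp [hV])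
    (by rw [← h3, hV]; simp; ring) (by simp [Multiset.mem_replicate, mul_pow, h2])
    ⟨_, by simp, c, by simp, h4⟩ fun g hg H => (hR g H).not hk hn hm hc ?_
  rw [kd_linM hg, Multiset.count_cons_of_ne h4.symm, Multiset.count_replicate_self, hV]

theorem not_allR_pair (hR : ∀ g, R g → RK k m g) (hk : 2 ≤ k) (hn : k ∣ finrank F V) (hm : 3 ≤ m)
    (h0 : 3 ≤ finrank F V) {ω : F} (h1 : ω ≠ 1) (hr : r ≠ 0) (h2 : ω ^ r = 1)
    (h3 : ω⁻¹ ≠ ω ∨ k ≠ 2) : ¬ AllR R r := by
  classical
  obtain ⟨n, hV⟩ : ∃ n, finrank F V = n + 3 := ⟨_, (Nat.sub_add_cancel h0).symm⟩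
  have hc : ω ≠ 0 := fun e => by simp [e, hr] at h2
  have h4 : ω⁻¹ ≠ 1 := by simpa using h1
  refine not_allR_lin (t := ω ::ₘ ω⁻¹ ::ₘ Multiset.replicate (n + 1) 1) (z := 1) (by simp [hV])
    (by simp [hc]) (by simp [Multiset.mem_replicate, h2])
    ⟨_, by simp, 1, by simp, h1⟩ fun g hg H => ?_
  have h5 : kd g (X - C 1) = n + 1 := by
    rw [kd_linM hg, Multiset.count_cons_of_ne h1.symm, Multiset.count_cons_of_ne h4.symm,
      Multiset.count_replicate_self]
  rcases hR g H with H | H
  · rcases h3 with h3 | h3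
    · have := H (X - C ω)
      rw [kd_linM hg, Multiset.count_cons_self, Multiset.count_cons_of_ne h3.symm,
        Multiset.count_eq_zero.2 fun e => h1 (Multiset.eq_of_mem_replicate e)] at this
      have := Nat.le_of_dvd one_pos this
      omega
    · have := Nat.le_of_dvd two_pos ((Nat.dvd_add_right (h5 ▸ H (X - C 1))).1 (hV ▸ hn :))
      omega
  · have := H 1 one_ne_zero
    omega

theorem exists_dual_of_not_scalar (hg : ∀ c : F, g ≠ c • 1) :
    ∃ (v : V) (l : Dual F V), v ≠ 0 ∧ l v = 0 ∧ l (g v) ≠ 0 := by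
  obtain ⟨v, hv⟩ : ∃ v, LinearIndependent F ![v, g v] := by
    by_contra! h
    exact (LinearMap.exists_eq_smul_id_of_forall_notLinearIndependent h).elim hg
  obtain ⟨l, h1, h2⟩ := Submodule.exists_dual_map_eq_bot_of_notMem (p := F ∙ v) (x := g v)
    (fun e => by
      obtain ⟨c, hc⟩ := Submodule.mem_span_singleton.1 e
      exact (LinearIndependent.pair_iff' (hv.ne_zero 0)).1 hv c hc) inferInstance
  exact ⟨v, l, hv.ne_zero 0, (Submodule.eq_bot_iff _).1 h2 _ ⟨v, by simp, rfl⟩, h1⟩

end Kd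

section Tens

variable {F : Type u} {V S W : Type*} [Field F] [AddCommGroup V] [Module F V] [AddCommGroup S]
  [Module F S] [AddCommGroup W] [Module F W] [FiniteDimensional F V] [FiniteDimensional F S]
  [FiniteDimensional F W] {g : End F V} {A : End F S} {B : End F W} {r : ℕ}

theorem ed_map_comm (A : End F S) (B : End F W) :
    ed (TensorProduct.map A B) = ed (TensorProduct.map B A) :=
  Sim.ed_eq ⟨TensorProduct.comm F S W, fun x => by
    induction x with
    | zero => simp
    | tmul => simp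
    | add x y h1 h2 => simp [h1, h2]⟩

theorem ed_map_right (A : End F S) (c : F) :
    ed (TensorProduct.map A (c • 1 : End F W)) = finrank F W • ed (c • A) := by
  refine (Sim.ed_eq (g := piE fun _ : Fin (finrank F W) => c • A)
    ⟨(TensorProduct.congr (LinearEquiv.refl F S) (finBasis F W).equivFun).trans
      (piScalarRight F F S _), fun x => ?_⟩).trans (by simp [ed_piE])
  induction x with
  | zero => simp
  | tmul => ext i; simp [smul_smul, mul_comm]
  | add x y h1 h2 => simp only [map_add, h1, h2]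

theorem ed_map_left (c : F) (B : End F W) :
    ed (TensorProduct.map (c • 1 : End F S) B) = finrank F S • ed (c • B) := by
  rw [ed_map_comm, ed_map_right]

theorem kd_map_le (hA : ∀ c : F, A ≠ c • 1) (hB : Function.Injective B) (c : F) :
    kd (TensorProduct.map A B) (X - C c) + finrank F W ≤ finrank F (S ⊗[F] W) := by
  obtain ⟨v, l, -, h1, h2⟩ := exists_dual_of_not_scalar hA
  refine kd_add_le (TensorProduct.mk F S W v) fun u e => ?_
  have := congrArg (fun x => TensorProduct.lid F W (l.rTensor W x)) e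
  simpa [h1, h2, map_eq_zero_iff B hB] using this

theorem kd_map_lt (hA : ∀ c : F, A ≠ c • 1) (hA' : Function.Injective A) (hB : ∀ c : F, B ≠ c • 1)
    (hB' : Function.Injective B) (h3 : 3 ≤ finrank F W) (c : F) :
    kd (TensorProduct.map A B) (X - C c) + (finrank F S + 1) ≤ finrank F (S ⊗[F] W) := by
  obtain ⟨v, l, h0, h1, h2⟩ := exists_dual_of_not_scalar hA
  obtain ⟨w, m, -, h4, h5⟩ := exists_dual_of_not_scalar hB
  obtain ⟨x, h6, h7⟩ := (LinearMap.ker (m.prod (m ∘ₗ B))).ne_bot_iff.1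
    (LinearMap.ker_ne_bot_of_finrank_lt (by simp; omega))
  replace h6 : m x = 0 ∧ m (B x) = 0 := Prod.mk_eq_zero.1 h6
  have := kd_add_le (g := TensorProduct.map A B) (c := c) (((TensorProduct.mk F S W).flip w).coprod
    (LinearMap.toSpanSingleton F _ (v ⊗ₜ x))) fun u e => by
      have a1 := congrArg (fun x => TensorProduct.rid F S (m.lTensor S x)) e
      have a2 : u.1 = 0 := by simpa [h4, h5, h6, map_eq_zero_iff A hA'] using a1
      have a3 := congrArg (fun x => TensorProduct.lid F W (l.rTensor W x)) e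
      exact Prod.ext a2 (by simpa [a2, h1, h2, h7, map_eq_zero_iff B hB'] using a3)
  simpa using this

theorem scalar_of_map_pow [Nontrivial W] (hB : Function.Injective B) {z : F}
    (h : TensorProduct.map A B ^ r = z • 1) : ∃ c : F, A ^ r = c • 1 := by
  by_contra! h1
  have := kd_map_le h1 (inj_pow hB r) z
  rw [← TensorProduct.map_pow, h, kd, show aeval (z • 1 : End F (S ⊗[F] W)) (X - C z) = 0 by
    simp [Algebra.algebraMap_eq_smul_one], LinearMap.ker_zero, finrank_top] at this
  have := finrank_pos (R := F) (M := W)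
  omega

variable (S W) in
/-- `g` is similar to a tensor product -/
def ET (g : End F V) : Prop := ∃ (A : End F S) (B : End F W), Function.Injective A ∧
  Function.Injective B ∧ ed (TensorProduct.map A B) = ed g

theorem ET.of_smul (c : F) (g : End F V) (hc : c ≠ 0) (h : ET S W (c • g)) : ET S W g := by
  obtain ⟨A, B, h1, h2, h3⟩ := h
  refine ⟨c⁻¹ • A, B, (smul_right_injective S (inv_ne_zero hc)).comp h1, h2, ?_⟩
  rw [TensorProduct.map_smul_left, ← inv_smul_smul₀ hc g]
  exact ((sim_of_ed_eq h3).smul c⁻¹).ed_eq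

theorem ET.rk (h : ET S W g) : RK (finrank F S) (finrank F W) g := by
  obtain ⟨A, B, -, h2, h3⟩ := h
  by_cases h4 : ∀ c : F, A ≠ c • 1
  · exact .inr fun c _ => kd_congr h3 _ ▸ finrank_congr h3 ▸ kd_map_le h4 h2 c
  push Not at h4
  obtain ⟨c, rfl⟩ := h4
  exact .inl (dvd_kd_of_nsmul (h3.symm.trans (ed_map_left c B)))

theorem order_le_of_pow [Fintype F] (hr : r.Prime) (hr0 : (r : F) ≠ 0) (h : g ^ r = 1)
    (h1 : g ≠ 1) : orderOf (Fintype.card F : ZMod r) ≤ finrank F V := by
  obtain ⟨s, k, h2, h3⟩ := Tr_decomp hr hr0 fun q hq => ⟨ed_isPP hq, (ed_dvd_one_iff g r).1 h q hq⟩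
  have h4 := (h3 ▸ sum_natDegree_ed g :).symm.trans (sum_deg_add hr hr0 h2 k)
  have h5 : s ≠ 0 := fun e => h1 (((eq_smul_iff_ed g 1).2 fun q hq => by
    rw [h3, e, zero_add] at hq; exact Multiset.eq_of_mem_replicate hq).trans (one_smul _ _))
  have := Nat.le_mul_of_pos_left (orderOf (Fintype.card F : ZMod r)) (Multiset.card_pos.2 h5)
  omega

omit [FiniteDimensional F V] in
theorem exists_root_of_pow [Fintype F] [Nontrivial V] (hr : r.Prime)
    (h1 : ¬ r ∣ Fintype.card F - 1) (hg : Function.Injective g) {z : F} (h : g ^ r = z • 1) :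
    ∃ c : F, c ≠ 0 ∧ (c • g) ^ r = 1 := by
  have hz : z ≠ 0 := fun e => by
    obtain ⟨v, hv⟩ := exists_ne (0 : V)
    exact hv (inj_pow hg r (by simp [h, e]))
  obtain ⟨c, h2, h3⟩ := exists_pow_eq_of_coprime ((Nat.Prime.coprime_iff_not_dvd hr).2 h1) _
    (inv_ne_zero hz)
  exact ⟨c, h2, by rw [_root_.smul_pow, h, h3, inv_smul_smul₀ hz]⟩

theorem not_allET [Fintype F] (p : ℕ) [hp : Fact p.Prime] [CharP F p] (hr : r.Prime)
    (ha : 2 ≤ finrank F S) (hb : finrank F S < finrank F W)
    (hV : finrank F V = finrank F S * finrank F W) (h : r ∣ glc (Fintype.card F) (finrank F V))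
    (H : AllR (ET S W (V := V) (F := F)) r) : r = 2 ∧ finrank F S = 2 ∧ Odd (Fintype.card F) ∧
      padicValNat 2 (Fintype.card F - 1) ≤ padicValNat 2 (finrank F V) := by
  have h1 : finrank F S ∣ finrank F V := hV ▸ dvd_mul_right _ _
  have h2 : 6 ≤ finrank F V := by nlinarith
  have hr0 : (r : F) ≠ 0 := cast_ne_zero_of_ne p hr (by
    rintro rfl; exact not_allR_char (fun _ => ET.rk) ha h1 (by omega) (by omega) r H)
  have h3 : ∀ ω : F, orderOf ω = r → ω⁻¹ = ω ∧ finrank F S = 2 := fun ω e => by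
    by_contra h4
    exact not_allR_pair (fun _ => ET.rk) ha h1 (by omega) (by omega) (ω := ω)
      (by rintro rfl; exact hr.ne_one (e.symm.trans orderOf_one)) hr.ne_zero
      (e ▸ pow_orderOf_eq_one ω) (not_and_or.1 h4) H
  by_cases h4 : r ∣ Fintype.card F - 1
  · obtain ⟨ω, h5, h6⟩ := exists_orderOf_eq h4
    obtain rfl : r = 2 := (Nat.prime_dvd_prime_iff_eq hr Nat.prime_two).1 (h6 ▸
      orderOf_dvd_of_pow_eq_one (by rw [sq]; nth_rw 1 [← (h3 ω h6).1]; exact inv_mul_cancel₀ h5))
    refine ⟨rfl, (h3 ω h6).2, by simpa using coprime_card_of_cast (F := F) Nat.prime_two hr0,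
      not_lt.1 fun h7 => ?_⟩
    obtain ⟨c, -, h8⟩ := exists_pow_eq_neg_one (F := F) (m := finrank F V) (by omega)
      ((padicValNat_dvd_iff_le (by have := Fintype.one_lt_card (α := F); omega)).2 h7)
    exact not_allR_one (fun _ => ET.rk) ha h1 (by omega) (by omega) (c := c) (ω := -1)
      (fun e => hr0 (by linear_combination -e)) (by simp) (by simp [h8]) H
  have := Module.nontrivial_of_finrank_pos (R := F) (M := V) (by omega)
  have := Module.nontrivial_of_finrank_pos (R := F) (M := S) (by omega)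
  have := Module.nontrivial_of_finrank_pos (R := F) (M := W) (by omega)
  obtain ⟨f, hf⟩ := Tr_nonempty (F := F) hr hr0
  obtain ⟨l, hl⟩ := Nat.exists_eq_add_of_le (orderOf_le_of_dvd_glc hr hr0 h)
  refine absurd H (not_allR_Tr hr hr0 h4 (s := {f}) (k := l) (by simpa) (by simp) (by simp [hl]) ?_)
  rintro g h5 h6 ⟨A, B, h7, h8, h9⟩
  by_cases h10 : ∀ c : F, A ≠ c • 1
  · have h11 := kd_map_le h10 h8 1
    rw [kd_congr h9, finrank_congr h9, kd_Tr hr (by simpa) h6] at h11
    obtain ⟨z, hz⟩ := scalar_of_map_pow h8 (pow_of_ed_eq h9 (h5.trans (one_smul F _).symm))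
    obtain ⟨c, h12, h13⟩ := exists_root_of_pow hr h4 h7 hz
    have := order_le_of_pow hr hr0 h13 fun e => h10 c⁻¹ (by rw [← e, inv_smul_smul₀ h12])
    omega
  push Not at h10
  obtain ⟨c, rfl⟩ := h10
  exact Tr_ne_nsmul hr (by simpa) (by simp) (by simp) ha
    ((h6.symm.trans h9.symm).trans (ed_map_left c B))

theorem allET_two [Fintype F] (h2 : (2 : F) ≠ 0) (ha : finrank F S = 2) (hb : finrank F W ≠ 0)
    (hV : finrank F V = finrank F S * finrank F W)
    (h : padicValNat 2 (Fintype.card F - 1) ≤ padicValNat 2 (finrank F V)) :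
    AllR (ET S W (V := V) (F := F)) 2 := by
  have := Module.nontrivial_of_finrank_pos (R := F) (M := V) (by rw [hV]; positivity)
  refine allR_two h2 ET.of_smul (fun g c a b _ _ h3 h4 h5 => ?_) fun g z hd h3 h4 => ?_
  · obtain ⟨b, rfl⟩ : Even b := by
      by_contra h6
      have h7 : c ^ finrank F V = -1 := by
        rw [(Nat.not_even_iff_odd.1 h6).neg_pow, mul_neg, ← pow_add, h3] at h4
        exact neg_eq_iff_eq_neg.1 h4
      have h8 : c ≠ 0 := fun e => by simp [e, finrank_pos.ne'] at h7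
      have := val_lt_of_pow_eq_neg_one h2 finrank_pos.ne' (by
        have := Fintype.one_lt_card (α := F); omega) h7 (FiniteField.pow_card_sub_one_eq_one c h8)
      omega
    obtain ⟨a, rfl⟩ : ∃ a', a = a' + a' := ⟨finrank F W - b, by rw [ha] at hV; omega⟩
    obtain ⟨B, hB⟩ := exists_linM (V := W) (t := Multiset.replicate a 1 + Multiset.replicate b (-1 : F))
      (by rw [ha] at hV; simp; omega)
    refine ⟨(1 : F) • 1, B, fun x y e => by simpa using e, ?_, ?_⟩
    · exact Function.LeftInverse.injective (g := B) fun x => by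
        simpa [sq] using LinearMap.congr_fun (pow_linM hB (r := 2) (z := 1) (by
          simp +contextual [Multiset.mem_replicate, or_imp])) x
    · rw [ed_map_left, ha, one_smul, hB, linM_rep, h5, two_smul, Multiset.replicate_add,
        Multiset.replicate_add]
      abel
  · obtain ⟨A, hA⟩ := exists_ed_of_finrank (V := S) (s := {X ^ 2 - C z})
      (by simpa using isPP_of_irred (monic_X_pow_sub_C z two_ne_zero)
            (X_pow_sub_C_irreducible_of_prime Nat.prime_two h3)) (by simp [ha])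
    have h5 : A ^ 2 = z • 1 := (ed_dvd_iff A 2 z).2 (by simp [hA])
    refine ⟨A, 1, Function.LeftInverse.injective (g := z⁻¹ • A) fun x => ?_, Function.injective_id,
      ed_eq_of_nonsplit Nat.prime_two h3 h4 ?_ (by simp [hV])⟩
    · have := LinearMap.congr_fun h5 x
      simp only [sq, End.mul_apply] at this
      simp [this, ne_zero_of_det hd h4]
    · rw [TensorProduct.map_pow, h5, one_pow, TensorProduct.map_smul_left, TensorProduct.map_one]

theorem edM_tr {ι κ : Type} [Fintype ι] [DecidableEq ι] [Fintype κ] [DecidableEq κ] (e : ι ≃ κ)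
    (P : GL ι F) (Y : Matrix κ κ F) : edM (As.tr e P Y) = edM Y :=
  (edM_conj P _).trans (edM_submatrix Y e)

open scoped Kronecker in
theorem edM_kron {ι κ : Type} [Fintype ι] [DecidableEq ι] [Fintype κ] [DecidableEq κ]
    (A : Matrix ι ι F) (B : Matrix κ κ F) :
    edM (A ⊗ₖ B) = ed (TensorProduct.map (toLin' A) (toLin' B)) := by
  rw [← ed_eq_edM_toMatrix ((Pi.basisFun F ι).tensorProduct (Pi.basisFun F κ)),
    TensorProduct.toMatrix_map]
  simp

theorem inj_toLin' {ι : Type} [Fintype ι] [DecidableEq ι] (x : GL ι F) :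
    Function.Injective (toLin' x.1) := (glE ι F x).injective

theorem eh_tensor {ι : Type} [Fintype ι] [DecidableEq ι] {a b : ℕ} (e : ι ≃ Fin a × Fin b)
    (P : GL ι F) : EH (Cfsg.Geo.tensorProductSubgroup a b e P) = ET (Fin a → F) (Fin b → F) := by
  ext g
  refine ⟨?_, ?_⟩
  · rintro ⟨y, h1, h2⟩
    obtain ⟨A, B, rfl⟩ := As.mem_tensorProductSubgroup_iff.1 h1
    exact ⟨_, _, inj_toLin' A, inj_toLin' B, (edM_kron ..).symm.trans ((edM_tr ..).symm.trans h2)⟩
  · rintro ⟨A, B, h1, h2, h3⟩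
    obtain ⟨A, rfl⟩ := exists_GL_of_inj h1
    obtain ⟨B, rfl⟩ := exists_GL_of_inj h2
    exact ⟨_, As.mem_tensorProductSubgroup_iff.2 ⟨A, B, rfl⟩,
      (edM_tr ..).trans ((edM_kron ..).trans h3)⟩

theorem dvd_glc_of_relIndex [Fintype F] {ι : Type} [Fintype ι] [DecidableEq ι]
    {G H : Subgroup (GL ι F)} (h : r ∣ H.relIndex G) :
    r ∣ glc (Fintype.card F) (finrank F (ι → F)) := by
  rw [finrank_fintype_fun_eq_card, ← card_GL_glc]
  exact (h.trans (H.relIndex_dvd_card G)).trans G.card_subgroup_dvd_card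

end Tens

end H16
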