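import Cfsg.Agent.H16.LA34
import Cfsg.Agent.H23.Lf1

/-! Elements of prime order and field extension subgroups. -/

set_option autoImplicit false

namespace H16

open Module Polynomial H23 H23.Form H14.Wall Matrix

universe u v

section Gen

variable {F : Type u} {V : Type*} [Field F] [AddCommGroup V] [Module F V] [FiniteDimensional F V]
  {g : End F V} {r : ℕ}

theorem charpoly_of_nodup (hr : (r : F) ≠ 0) (h : g ^ r = 1) (hn : (ed g).Nodup)
    (hV : finrank F V = r) : g.charpoly = X ^ r - 1 := by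
  have h0 : r ≠ 0 := by rintro rfl; simp at hr
  have h1 := ss_of_pow hr one_ne_zero (h.trans (one_smul F _).symm)
  refine (eq_of_monic_of_dvd_of_natDegree_le g.charpoly_monic (monic_X_pow_sub_C (1 : F) h0) ?_
    (by rw [natDegree_X_pow_sub_C, g.charpoly_natDegree, hV])).symm
  have := Finset.prod_dvd_of_coprime (t := ⟨ed g, hn⟩) (s := id) (fun a ha b hb e =>
    (h1 a ha).coprime_iff_not_dvd.2 fun h2 => e (eq_of_monic_of_associated (ed_isPP ha).monic
      (ed_isPP hb).monic ((h1 a ha).associated_of_dvd (h1 b hb) h2))) ((ed_dvd_one_iff g r).1 h)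
  simpa [charpoly_eq_prod_ed, Finset.prod] using this

theorem even_of_val [Fintype F] (h2 : (2 : F) ≠ 0) {n a b : ℕ} (hn : n ≠ 0)
    (h : padicValNat 2 (Fintype.card F - 1) ≤ padicValNat 2 n) {c : F} (h3 : a + b = n)
    (h4 : c ^ a * (-c) ^ b = 1) : Even b := by
  by_contra h6
  have h7 : c ^ n = -1 := by
    rw [(Nat.not_even_iff_odd.1 h6).neg_pow, mul_neg, ← pow_add, h3] at h4
    exact neg_eq_iff_eq_neg.1 h4
  have h8 : c ≠ 0 := fun e => by simp [e, hn] at h7
  have := val_lt_of_pow_eq_neg_one h2 hn (by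
    have := Fintype.one_lt_card (α := F); omega) h7 (FiniteField.pow_card_sub_one_eq_one c h8)
  omega

omit [FiniteDimensional F V] in
theorem inj_of_pow {z : F} (hz : z ≠ 0) (hr : r ≠ 0) (h : g ^ r = z • 1) : Function.Injective g :=
  Function.Injective.of_comp (f := (g ^ (r - 1) : End F V)) fun x y e =>
    smul_right_injective V hz (by
      have := pow_sub_one_mul hr g ▸ h
      exact (LinearMap.congr_fun this x).symm.trans (e.trans (LinearMap.congr_fun this y)))

theorem kd_add_kd (h2 : (2 : F) ≠ 0) (h : g ^ 2 = 1) :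
    kd g (X - C 1) + kd g (X - C (-1)) = finrank F V := by
  classical
  have h4 : g ^ 2 = (1 : F) ^ 2 • (1 : End F V) := by simp [h]
  obtain ⟨a, b, h5⟩ := exists_rep_of_mem' (mem_ed_sq h4 (ss_of_pow h2 (by simp) h4))
  have h6 : a + b = finrank F V := by simpa [h5, -map_neg, -map_one] using sum_natDegree_ed g
  have : (1 : F) ≠ -1 := fun e => h2 (by linear_combination e)
  rw [kd_rep h2 h5, kd_linM (h5.trans (linM_rep ..).symm), ← h6]
  simp [Multiset.count_replicate, this]

end Gen

section Ext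

variable {F : Type u} {E V : Type*} [Field F] [Field E] [Algebra F E] [AddCommGroup V] [Module F V]
  [Module E V] [IsScalarTower F E V] {g y : End F V} {α : E →+* E} {r m : ℕ}

/-- semilinear maps -/
def Semi (y : End F V) (α : E →+* E) : Prop := ∀ (k : E) v, y (k • v) = α k • y v

theorem semi_res (y : End E V) : Semi (y.restrictScalars F) (RingHom.id E) := fun k v => y.map_smul k v

omit [IsScalarTower F E V] [Algebra F E] in
theorem Semi.exists_res [LinearMap.CompatibleSMul V V F E] (h : Semi y (RingHom.id E)) :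
    ∃ y' : End E V, y'.restrictScalars F = y := ⟨⟨y.toAddHom, h⟩, rfl⟩

theorem res_pow (y : End E V) (k : ℕ) :
    (y.restrictScalars F : End F V) ^ k = (y ^ k).restrictScalars F :=
  LinearMap.ext fun v => by simp [Module.End.pow_apply]

theorem kd_res (y : End E V) (p : F[X]) :
    kd (y.restrictScalars F : End F V) p = finrank F E * kd y (p.map (algebraMap F E)) := by
  have h : ∀ v, aeval (y.restrictScalars F : End F V) p v = aeval y (p.map (algebraMap F E)) v :=
    fun v => by
      induction p using Polynomial.induction_on' with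
      | add p q hp hq => simp [hp, hq]
      | monomial n a => simp [aeval_monomial, res_pow]
  rw [kd, kd, finrank_mul_finrank, show LinearMap.ker (aeval (y.restrictScalars F : End F V) p) =
    (LinearMap.ker (aeval y (p.map (algebraMap F E)))).restrictScalars F from
      Submodule.ext fun v => by simp [h]]
  rfl

theorem kd_res_one (y : End E V) :
    kd (y.restrictScalars F : End F V) (X - C 1) = finrank F E * kd y (X - C 1) := by
  rw [kd_res]; simp

theorem Semi.smul (h : Semi y α) (c : F) : Semi (c • y) α := fun k v => by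
  rw [LinearMap.smul_apply, LinearMap.smul_apply, h, smul_comm]

theorem Semi.two_kd_le [FiniteDimensional F V] (h : Semi y α) (hα : α ≠ RingHom.id E) {c : F}
    (hc : c ≠ 0) : 2 * kd y (X - C c) ≤ finrank F V := by
  obtain ⟨k, hk⟩ : ∃ k, α k ≠ k := by by_contra! h; exact hα (RingHom.ext h)
  have h0 : k ≠ 0 := by rintro rfl; simp at hk
  rw [two_mul]
  refine kd_add_le ((LinearMap.lsmul E V k).restrictScalars F ∘ₗ Submodule.subtype _) fun u e => ?_
  have h1 : α k • y u = c • k • u.1 := (h k u).symm.trans e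
  rw [mem_ker_lin.1 u.2, smul_comm c, ← sub_eq_zero, ← sub_smul] at h1
  simpa [sub_eq_zero, hk, hc] using h1

theorem Semi.eq_id [Finite E] [Nontrivial V] (h : Semi y α) {z : F} (hz : z ≠ 0) (hr : r ≠ 0)
    (h1 : y ^ r = z • 1) (h2 : r.Coprime (finrank F E)) : α = RingHom.id E := by
  have : Finite F := Finite.of_injective _ (algebraMap F E).injective
  have : FiniteDimensional F E := Module.Finite.of_finite
  obtain ⟨v, hv⟩ := exists_ne (0 : V)
  have h3 : y v ≠ 0 := fun e => hv (by
    have := LinearMap.congr_fun ((pow_sub_one_mul hr y).trans h1) v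
    simpa [e, hz] using this.symm)
  let s : Gal(E/F) := AlgEquiv.ofBijective ⟨α, fun c => smul_left_injective E h3 (by
    simp only [algebraMap_smul]; exact (h _ v).symm.trans (by simp))⟩
    (Finite.injective_iff_bijective.1 α.injective)
  have h4 : ∀ (j : ℕ) (k : E), (y ^ j) (k • v) = (s ^ j) k • (y ^ j) v := fun j k => by
    induction j with
    | zero => rfl
    | succ j ih => rw [pow_succ', pow_succ', End.mul_apply, ih, h]; rfl
  have h5 : s = 1 := eq_one_of_coprime h2 (AlgEquiv.ext fun k => smul_left_injective E hv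
    (smul_right_injective V hz (by simpa [h1, smul_comm z] using (h4 r k).symm)))
    (by rw [← IsGalois.card_aut_eq_finrank]; exact pow_card_eq_one')
  exact RingHom.ext fun k => congrArg (fun s : Gal(E/F) => s k) h5

variable (E) in
/-- `g` is similar to a semilinear map -/
def EX (g : End F V) : Prop :=
  ∃ (y : End F V) (α : E →+* E), Function.Injective y ∧ Semi y α ∧ ed y = ed g

variable [FiniteDimensional F V]

theorem EX.of_smul (c : F) (g : End F V) (hc : c ≠ 0) (h : EX E (c • g)) : EX E g := by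
  obtain ⟨y, α, h1, h2, h3⟩ := h
  refine ⟨c⁻¹ • y, α, (smul_right_injective V (inv_ne_zero hc)).comp h1, h2.smul _, ?_⟩
  rw [← inv_smul_smul₀ hc g]
  exact ((sim_of_ed_eq h3).smul c⁻¹).ed_eq

theorem Semi.rk (h : Semi y α) (e : ed y = ed g) (hm : 2 * m ≤ finrank F V + 1) :
    RK (finrank F E) m g := by
  by_cases h1 : α = RingHom.id E
  · subst h1
    obtain ⟨y, rfl⟩ := h.exists_res
    exact .inl fun p => by rw [← kd_congr e, kd_res]; exact dvd_mul_right _ _
  · exact .inr fun c hc => by have := h.two_kd_le h1 hc; rw [kd_congr e] at this; omega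

theorem EX.rk (hm : 2 * m ≤ finrank F V + 1) (g : End F V) (h : EX E g) : RK (finrank F E) m g :=
  let ⟨_, _, _, h1, h2⟩ := h; h1.rk h2 hm

omit [FiniteDimensional F V] in
theorem finrank_dvd_ext : finrank F E ∣ finrank F V := ⟨_, (finrank_mul_finrank F E V).symm⟩

variable [Fintype F] [Finite E]

theorem exists_frob_semi (hr : finrank F E = r) (hV : finrank F V = r) (h1 : r ≠ 1) :
    ∃ (y : End F V) (α : E →+* E), Function.Injective y ∧ Semi y α ∧ y ^ r = 1 ∧ y ≠ 1 ∧
      y.charpoly = X ^ r - 1 := by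
  have : FiniteDimensional F E := Module.Finite.of_finite
  have := Module.Finite.of_restrictScalars_finite F E V
  have h0 : 0 < r := hr ▸ finrank_pos
  have h2 := finrank_mul_finrank F E V
  rw [hr, hV] at h2
  let e := LinearEquiv.ofFinrankEq (R := E) E V (by
    rw [finrank_self]; exact Nat.eq_of_mul_eq_mul_left h0 (by omega))
  let φ := FiniteField.frobeniusAlgHom F E
  have h3 : minpoly F φ.toLinearMap = X ^ r - 1 := hr ▸ FiniteField.minpoly_frobeniusAlgHom F E
  have h4 : φ.toLinearMap.charpoly = X ^ r - 1 := by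
    refine eq_of_monic_of_dvd_of_natDegree_le (monic_X_pow_sub_C (1 : F) h0.ne')
      (LinearMap.charpoly_monic _) (h3 ▸ LinearMap.minpoly_dvd_charpoly _)
      (by rw [← C_1, natDegree_X_pow_sub_C, LinearMap.charpoly_natDegree, hr])
  have h5 : Sim φ.toLinearMap ((e.restrictScalars F).conj φ.toLinearMap) :=
    ⟨e.restrictScalars F, fun v => by simp⟩
  refine ⟨(e.restrictScalars F).conj φ.toLinearMap, φ, e.injective.comp
    (φ.injective.comp e.symm.injective), fun k v => by simp [-map_smul, ← e.map_smul, e.symm.map_smul], ?_, fun h => ?_,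
    by rw [LinearEquiv.charpoly_conj, h4]⟩
  · have := LinearMap.aeval_self_charpoly ((e.restrictScalars F).conj φ.toLinearMap)
    rwa [LinearEquiv.charpoly_conj, h4, map_sub, map_pow, aeval_X, map_one, sub_eq_zero] at this
  · have h6 := congrArg natDegree h3
    rw [(e.restrictScalars F).conj.injective (h.trans (LinearEquiv.conj_id _).symm),
      ← End.one_eq_id, minpoly.one, ← C_1, natDegree_X_sub_C, natDegree_X_pow_sub_C] at h6
    exact h1 h6.symm

theorem ex_of_nodup (hr : finrank F E = r) (hV : finrank F V = r) (h1 : r ≠ 1) (h0 : (r : F) ≠ 0)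
    (h : g ^ r = 1) (hn : (ed g).Nodup) : EX E g := by
  obtain ⟨y, α, h2, h3, h4, -, h5⟩ := exists_frob_semi hr hV h1
  exact ⟨y, α, h2, h3, ((ss_of_pow h0 one_ne_zero (h4.trans (one_smul F _).symm)).sim_of_charpoly
    (ss_of_pow h0 one_ne_zero (h.trans (one_smul F _).symm))
    (h5.trans (charpoly_of_nodup h0 h hn hV).symm)).ed_eq⟩

omit [FiniteDimensional F V] [IsScalarTower F E V] in
theorem exists_root_ext (hr : r.Prime) (hk : finrank F E = r) (h : r ∣ Fintype.card F - 1) {z : F}
    (hz : z ≠ 0) : ∃ a : E, a ^ r = algebraMap F E z := by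
  have := Fintype.ofFinite E
  have h1 := gs_mul (Fintype.card_pos (α := F)) r
  obtain ⟨l, hl⟩ := (((gs_modEq (Fintype.card_pos (α := F)) r).of_dvd h).dvd_iff dvd_rfl).2 dvd_rfl
  obtain ⟨a, -, ha⟩ := (exists_pow_eq_iff ((map_ne_zero (algebraMap F E)).2 hz) r).2 (by
    rw [Module.card_eq_pow_finrank (K := F) (V := E), hk, ← h1, hl, mul_assoc,
      Nat.gcd_mul_right_left, Nat.mul_div_cancel_left _ hr.pos, orderOf_dvd_iff_pow_eq_one,
      ← map_pow, pow_mul', FiniteField.pow_card_sub_one_eq_one z hz, one_pow, map_one])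
  exact ⟨a, ha⟩

theorem allEX_two_iff (p : ℕ) [hp : Fact p.Prime] [CharP F p] (hk : finrank F E = 2)
    [Nontrivial V] : AllR (EX E (V := V) (F := F)) 2 ↔ finrank F V = 2 ∨ (Odd (Fintype.card F) ∧
      padicValNat 2 (Fintype.card F - 1) ≤ padicValNat 2 (finrank F V)) := by
  have h1 := finrank_mul_finrank F E V
  have h0 := finrank_pos (R := F) (M := V)
  have h3 := finrank_dvd_ext (F := F) (E := E) (V := V)
  rw [hk] at h1
  by_cases h2 : p = 2
  · subst h2
    have h4 : ¬ Odd (Fintype.card F) := by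
      obtain ⟨m, -, e⟩ := FiniteField.card F 2
      simp [e, Nat.even_pow]
    refine ⟨fun H => Or.inl (by_contra fun h => not_allR_char (EX.rk (m := 2) (by omega)) hk.ge h3
      le_rfl (by omega) 2 H), fun h => allR_char 2 EX.of_smul fun g h5 h6 => ?_⟩
    obtain ⟨y, α, a1, a2, a3, a4, -⟩ := exists_frob_semi hk (h.resolve_right fun e => h4 e.1) (by simp)
    obtain ⟨a5, a6⟩ := ed_of_invol a3
    obtain ⟨a7, a8⟩ := ed_of_invol h5
    have := mt rkE_eq_zero.1 a4
    have := mt rkE_eq_zero.1 h6
    have := h.resolve_right fun e => h4 e.1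
    exact ⟨y, α, a1, a2, by rw [a6, a8, show rkE y = rkE g by omega]⟩
  have h4 : (2 : F) ≠ 0 := cast_ne_zero_of_ne p Nat.prime_two (Ne.symm h2)
  refine ⟨fun H => by_contra fun h => ?_, fun h => allR_two h4 EX.of_smul
    (fun g c a b h5 h6 h7 h8 h9 => ?_) fun g z hd h5 h6 => ?_⟩
  · rw [not_or, not_and, not_le] at h
    obtain ⟨c, -, h8⟩ := exists_pow_eq_neg_one (F := F) h0.ne' ((padicValNat_dvd_iff_le (by
      have := Fintype.one_lt_card (α := F); omega)).2
      (h.2 (by simpa using coprime_card_of_cast (F := F) Nat.prime_two h4)))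
    exact not_allR_one (EX.rk (m := 2) (by omega)) hk.ge h3 le_rfl (by omega) (c := c) (ω := -1)
      (fun e => h4 (by linear_combination -e)) (by simp) (by simp [h8]) H
  · rcases h with h | h
    · obtain ⟨rfl, rfl⟩ : a = 1 ∧ b = 1 := by omega
      exact ex_of_nodup hk h (by simp) h4 (by simpa using pow_of_lin h9)
        (by simpa [h9, -map_neg, -map_one] using lin_ne_neg h4 one_ne_zero)
    have := Module.Finite.of_restrictScalars_finite F E V
    obtain ⟨b, rfl⟩ := even_of_val h4 h0.ne' h.2 h7 h8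
    obtain ⟨a, rfl⟩ : ∃ a', a = 2 * a' := ⟨finrank E V - b, by omega⟩
    obtain ⟨y, hy⟩ := exists_linM (V := V)
      (t := Multiset.replicate a 1 + Multiset.replicate b (-1 : E)) (by simp; omega)
    rw [linM_rep] at hy
    have h10 : (y.restrictScalars F : End F V) ^ 2 = 1 := by
      rw [res_pow, pow_of_lin hy, one_pow, one_smul]; rfl
    exact ⟨_, _, inj_of_pow one_ne_zero two_ne_zero (h10.trans (one_smul F _).symm), semi_res y,
      (ed_eq_of_sq h4 h10 (by rw [kd_res_one, hk, kd_rep (by
        rwa [← map_ofNat (algebraMap F E), _root_.map_ne_zero]) hy]) h7).trans h9.symm⟩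
  · have hz := ne_zero_of_det hd h6
    obtain ⟨a, ha⟩ := exists_root_ext Nat.prime_two hk (dvd_of_nonsplit Nat.prime_two h5) hz
    have h7 : ((a • 1 : End E V).restrictScalars F : End F V) ^ 2 = z • 1 := by
      rw [res_pow, _root_.smul_pow, ha]; ext; simp
    exact ⟨_, _, inj_of_pow hz two_ne_zero h7, semi_res _,
      ed_eq_of_nonsplit Nat.prime_two h5 h6 h7 rfl⟩

theorem allEX_ord (hr : r.Prime) (hr2 : r ≠ 2) (h0 : (r : F) ≠ 0) (hk : finrank F E = r)
    (hV : finrank F V = r) (h : orderOf (Fintype.card F : ZMod r) = r - 1) :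
    AllR (EX E (V := V) (F := F)) r := by
  have h1 := hr.two_le
  have := Module.nontrivial_of_finrank_pos (R := F) (M := V) (by omega)
  rintro g hd ⟨z, hz⟩ hs
  obtain ⟨c, h2, h3⟩ := exists_root_of_pow hr (by
    rw [← orderOf_eq_one_iff_dvd Fintype.card_pos]; omega)
    (inj_of_pow (ne_zero_of_det hd hz) hr.ne_zero hz) hz
  refine EX.of_smul c g h2 (ex_of_nodup hk hV hr.ne_one h0 h3 ?_)
  obtain ⟨s, k, h4, h5⟩ := Tr_decomp hr h0 fun q hq => ⟨ed_isPP hq, (ed_dvd_one_iff _ r).1 h3 q hq⟩
  have h6 := (h5 ▸ sum_natDegree_ed (c • g) :).symm.trans (sum_deg_add hr h0 h4 k)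
  have h7 : s ≠ 0 := fun e => hs c⁻¹ (by
    rw [← inv_smul_smul₀ h2 g, (eq_smul_iff_ed (c • g) 1).2 fun q hq => by
      rw [h5, e, zero_add] at hq; exact Multiset.eq_of_mem_replicate hq, one_smul])
  have h8 := Multiset.card_pos.2 h7
  rw [hV, h] at h6
  have h9 : s.card = 1 := by
    by_contra h9
    have := Nat.mul_le_mul_right (r - 1) (show 2 ≤ s.card by omega)
    omega
  obtain ⟨f, rfl⟩ := Multiset.card_eq_one.1 h9
  obtain rfl : k = 1 := by simp at h6; omega
  simpa [h5, -map_one, eq_comm] using one_notMem_Tr hr h4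

omit [Finite E] in
theorem not_allEX_ord (hr : r.Prime) (h5 : 5 ≤ r) (h0 : (r : F) ≠ 0) (hk : finrank F E = r)
    (hV : finrank F V = r) (h : orderOf (Fintype.card F : ZMod r) ≠ r - 1) :
    ¬ AllR (EX E (V := V) (F := F)) r := by
  have := Module.nontrivial_of_finrank_pos (R := F) (M := V) (by omega)
  have := Fact.mk hr
  by_cases h1 : r ∣ Fintype.card F - 1
  · obtain ⟨ω, -, h2⟩ := exists_orderOf_eq h1
    exact not_allR_pair (EX.rk (m := 3) (by omega)) (by omega) finrank_dvd_ext le_rfl (by omega)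
      (ω := ω) (by rintro rfl; exact hr.ne_one (h2.symm.trans orderOf_one)) hr.ne_zero
      (h2 ▸ pow_orderOf_eq_one ω) (Or.inr (by omega))
  obtain ⟨t, ht⟩ := ZMod.orderOf_dvd_card_sub_one (a := (Fintype.card F : ZMod r)) fun e =>
    (Nat.Prime.coprime_iff_not_dvd hr).1 (coprime_card_of_cast hr h0)
      ((ZMod.natCast_eq_zero_iff _ _).1 e)
  have h2 := orderOf_card_pos hr h0
  have h3 : 2 ≤ t := by
    by_contra h3
    obtain rfl | rfl : t = 0 ∨ t = 1 := by omega
    all_goals omega
  have h4 := Nat.mul_le_mul_left (orderOf (Fintype.card F : ZMod r)) h3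
  obtain ⟨f, hf⟩ := Tr_nonempty (F := F) hr h0
  refine not_allR_Tr hr h0 h1 (s := {f}) (k := r - orderOf (Fintype.card F : ZMod r)) (by simpa)
    (by simp) (by simp; omega) fun g _ h6 H => ?_
  have h7 := kd_Tr hr (by simpa) h6
  rcases EX.rk (m := (r + 1) / 2) (by omega) g H with H | H
  · have := Nat.le_of_dvd (by omega) (h7 ▸ H _)
    omega
  · have := H 1 one_ne_zero
    omega

theorem allEX_three (hk : finrank F E = 3) (hV : finrank F V = 3)
    (h : Fintype.card F % 9 = 4 ∨ Fintype.card F % 9 = 7) : AllR (EX E (V := V) (F := F)) 3 := by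
  have := Module.nontrivial_of_finrank_pos (R := F) (M := V) (by omega)
  have h1 : 3 ∣ Fintype.card F - 1 := by omega
  rintro g hd ⟨z, hz⟩ hs
  obtain rfl : z = 1 := by
    by_cases h2 : ∀ b, b ^ 3 ≠ z
    · obtain ⟨k, h3, h4⟩ := ed_nonsplit Nat.prime_three h2 hz
      rw [det_of_nonsplit (by decide) h3, show k = 1 by omega, pow_one] at hd
      exact hd
    push Not at h2
    obtain ⟨c, rfl⟩ := h2
    have h3 : c ^ 9 = 1 := by simpa [hd, hV, ← pow_mul] using (det_pow_of hz).symm
    have h4 := FiniteField.pow_card_sub_one_eq_one c fun e => by simp [e] at h3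
    rw [← Nat.div_add_mod (Fintype.card F - 1) 9, pow_add, pow_mul, h3, one_pow, one_mul] at h4
    rcases h with h | h
    · rwa [show (Fintype.card F - 1) % 9 = 3 by omega] at h4
    · rw [show (Fintype.card F - 1) % 9 = 6 by omega] at h4
      linear_combination h3 - c ^ 3 * h4
  rw [one_smul] at hz
  refine ex_of_nodup hk hV (by simp) (cast_ne_zero_of_dvd h1) hz ?_
  obtain ⟨t, h2, h3⟩ := ed_eq_linM Nat.prime_three h1 hz
  obtain ⟨a, b, c, rfl⟩ := Multiset.card_eq_three.1
    ((linM_deg t).symm.trans ((h3 ▸ sum_natDegree_ed g :).trans hV))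
  have h4 : a * (b * c) = 1 := by simpa [hd] using (det_linM h3).symm
  have h5 : ¬ (a = b ∧ b = c) := by
    rintro ⟨rfl, rfl⟩
    exact hs a ((eq_smul_iff_ed g a).2 (by simp [h3, linM]))
  have a1 := h2 a (by simp)
  have a2 := h2 b (by simp)
  have a3 := h2 c (by simp)
  rw [h3]
  refine Multiset.Nodup.map (fun _ _ => lin_inj) ?_
  simp only [Multiset.insert_eq_cons, Multiset.nodup_cons, Multiset.mem_cons,
    Multiset.mem_singleton, Multiset.nodup_singleton, and_true, not_or]
  refine ⟨⟨?_, ?_⟩, ?_⟩ <;> rintro rfl <;> apply h5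
  · exact ⟨rfl, by linear_combination c * a1 - a * h4⟩
  · have : a = b := by linear_combination b * a1 - a * h4
    exact ⟨this, this.symm⟩
  · exact ⟨by linear_combination -a * a2 + b * h4, rfl⟩

omit [Finite E] in
theorem not_allEX_three (hk : finrank F E = 3) (hV : finrank F V = 3)
    (h : Fintype.card F % 9 = 1) : ¬ AllR (EX E (V := V) (F := F)) 3 := by
  obtain ⟨c, h1, h2⟩ := exists_orderOf_eq (F := F) (d := 9) (by omega)
  refine not_allR_one (EX.rk (m := 2) (by omega)) (by omega) finrank_dvd_ext le_rfl (by omega)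
    (c := c) (ω := (c ^ 3)⁻¹) (fun e => ?_) ?_ (by simp [hV, h1])
  · simpa [h2] using orderOf_dvd_of_pow_eq_one (inv_eq_one.1 e)
  · rw [inv_pow, ← pow_mul, inv_eq_one, ← orderOf_dvd_iff_pow_eq_one, h2]

end Ext

section Bridge

variable {ι : Type} [Fintype ι] [DecidableEq ι] [Nonempty ι] {F : Type u} [Field F] [Finite F]
  {k : ℕ} {K : Subalgebra F (Matrix ι ι F)}

open Cfsg.Geo

theorem mem_norm_iff (hK : IsFieldSubalgebra k K) (x : GL ι F) :
    letI := (As.IsFieldSubalgebra.isField hK).toField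
    x ∈ subalgebraNormalizer K ↔ ∃ α : K →+* K, Semi (toLin' x.1) α := by
  let := (As.IsFieldSubalgebra.isField hK).toField
  exact mem_normalizer_iff_semi.trans ⟨exists_semi, fun ⟨α, h⟩ k => ⟨α k, h k⟩⟩

theorem eh_ext (hK : IsFieldSubalgebra k K) :
    letI := (As.IsFieldSubalgebra.isField hK).toField
    EH (subalgebraNormalizer K) = EX K := by
  let := (As.IsFieldSubalgebra.isField hK).toField
  ext g
  refine ⟨fun ⟨y, h1, h2⟩ => ?_, fun ⟨y, α, h1, h2, h3⟩ => ?_⟩
  · obtain ⟨α, h3⟩ := (mem_norm_iff hK y).1 h1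
    exact ⟨_, α, inj_toLin' y, h3, h2⟩
  · obtain ⟨y, rfl⟩ := exists_GL_of_inj h1
    exact ⟨y, (mem_norm_iff hK y).2 ⟨α, h2⟩, h3⟩

end Bridge

end H16
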