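import Cfsg.Agent.H16.LA35

/-! Elements of prime order of symplectic groups: extension fields and tensor products. -/

set_option autoImplicit false

namespace H16

open Module Polynomial H23 H23.Form H14.Wall Matrix TensorProduct

universe u v

section AP

variable {F : Type u} {V : Type*} [Field F] [AddCommGroup V] [Module F V] [FiniteDimensional F V]
  {g h : End F V} {r k m d : ℕ} {R : End F V → Prop}

/-- every isometry of order `r` modulo scalars satisfies `R` -/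
def AllP {σ : F →+* F} (Φ : Form σ V) (R : End F V → Prop) (r : ℕ) : Prop :=
  ∀ g, Pres Φ g → (∃ z : F, g ^ r = z • (1 : End F V)) → (∀ z : F, g ≠ z • (1 : End F V)) → R g

omit [FiniteDimensional F V] in
theorem exists_diag_basis {n : ℕ} (b : Basis (Fin n) F V) {t : Multiset F} (h : t.card = n) :
    ∃ D : End F V, ed D = linM t ∧ ∀ i, ∃ c ∈ t, D (b i) = c • b i := by
  induction t using Quotient.inductionOn with
  | h l =>
  obtain rfl : l.length = n := h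
  have := Module.Finite.of_basis b
  refine ⟨b.equivFun.symm.conj (piE fun i => l.get i • (1 : End F F)), ?_,
    fun i => ⟨l.get i, by simp, b.equivFun.injective ?_⟩⟩
  · rw [← (sim_conj _ _).ed_eq, ed_piE, show (⟦l⟧ : Multiset F) = Finset.univ.val.map l.get by simp; rfl]
    simp only [ed_scalar, finrank_self, Multiset.replicate_one, linM, Multiset.map_map]
    rw [← Multiset.sum_map_singleton (Multiset.map _ _), Multiset.map_map]
    rfl
  · ext j
    by_cases e : i = j <;> simp [e, Finsupp.single_apply]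

variable {Φ : Form (RingHom.id F) V}

theorem exists_sq_neg (hΦ : Φ.Nondeg) (hε : Φ.ε = -1) (hκ : Φ.κ = 0) :
    ∃ g, Pres Φ g ∧ g ^ 2 = -1 := by
  obtain ⟨m, hm⟩ := even_finrank_alt hΦ hε
  obtain ⟨g, h1, h2⟩ := exists_pres_of_iso (iso_alt (spForm_nondeg m) hΦ rfl rfl hε hκ
    (by rw [finrank_sp]; omega)) (sp_pres ⟨_, SymplecticGroup.J_mem (Fin m) F⟩)
  refine ⟨g, h1, (pow_of_ed_eq h2.sim.ed_eq.symm (z := -1) (toLin'_pow_eq ?_)).trans (by simp)⟩
  simp [sq, J_squared]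

theorem even_kd [Finite F] (hΦ : Φ.Nondeg) (hε : Φ.ε = -1) (hg : Pres Φ g) (hs : SS g) :
    Even (kd g (X - C 1)) := by
  classical
  rw [hs.kd_eq_count (monic_X_sub_C 1) (irreducible_X_sub_C 1), natDegree_X_sub_C, mul_one]
  convert (as_of_alt hΦ hε hg).2 1 (by simp)

theorem ed_eq_of_sq_neg [Finite F] [Nontrivial V] (h2 : (2 : F) ≠ 0) (hΦ : Φ.Nondeg)
    (hε : Φ.ε = -1) (hg : Pres Φ g) (hh : Pres Φ h) (h1 : g ^ 2 = -1) (h3 : h ^ 2 = -1) :
    ed h = ed g := by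
  obtain ⟨m, hm⟩ := even_finrank_alt hΦ hε
  have key : ∀ g, Pres Φ g → g ^ 2 = -1 → _ := fun g hg h1 => (alt_sq_cases h2 hΦ hε hg (z := -1)
    (by simp [h1]) (d := m) (by omega)).2.resolve_left fun ⟨a, b, _, h4⟩ => h2 (by
      have := smul_left_injective F (one_ne_zero (α := End F V))
        ((pow_of_lin h4).symm.trans (h1.trans (neg_one_smul F _).symm))
      linear_combination this)
  rcases key g hg h1 with ⟨c, a1, a2⟩ | ⟨a1, a2⟩ <;> rcases key h hh h3 with ⟨c', a3, a4⟩ | ⟨a3, a4⟩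
  · rcases sq_eq_sq_iff_eq_or_eq_neg.1 (a1.trans a3.symm) with rfl | rfl
    · rw [a2, a4]
    · rw [a2, a4, neg_neg, add_comm]
  · exact absurd a1 (a3 c)
  · exact absurd a3 (a1 c')
  · rw [a2, a4]

theorem allP_two [Finite F] [Nontrivial V] (h2 : (2 : F) ≠ 0) (hΦ : Φ.Nondeg) (hε : Φ.ε = -1)
    (hV : finrank F V = 2 * d) (h1 : ∀ g a b, a ≠ 0 → b ≠ 0 → a + b = d →
      ed g = Multiset.replicate (2 * a) (X - C 1) + Multiset.replicate (2 * b) (X - C (-1)) → R g)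
    (h3 : ∀ g, Pres Φ g → g ^ 2 = -1 → R g) : AllP Φ R 2 := by
  rintro g hg ⟨z, hz⟩ hs
  obtain ⟨-, ⟨a, b, h4, h5⟩ | h4⟩ := alt_sq_cases h2 hΦ hε hg hz hV
  · refine h1 g a b (fun e => hs (-1) ((eq_smul_iff_ed g _).2 fun q hq => ?_))
      (fun e => hs 1 ((eq_smul_iff_ed g _).2 fun q hq => ?_)) h4 h5
    all_goals
      rw [h5, e] at hq
      exact Multiset.eq_of_mem_replicate (by simpa [-map_neg, -map_one] using hq)
  refine h3 g hg (((ed_dvd_iff g 2 (-1)).2 fun q hq => ?_).trans (by simp))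
  rcases h4 with ⟨c, h4, h5⟩ | ⟨-, h5⟩ <;> rw [h5] at hq
  · rw [← h4, show (X ^ 2 - C (c ^ 2) : F[X]) = (X - C c) * (X - C (-c)) by simp; ring]
    rcases Multiset.mem_add.1 (Multiset.mem_of_mem_nsmul hq) with h | h <;>
      rw [Multiset.mem_singleton.1 h]
    exacts [dvd_mul_right _ _, dvd_mul_left _ _]
  · rw [Multiset.eq_of_mem_replicate hq]

theorem not_allP_char (hΦ : Φ.Nondeg) (hε : Φ.ε = -1) (hκ : Φ.κ = 0) (hR : ∀ g, R g → RK k m g)
    (hk : 2 ≤ k) (hn : k ∣ finrank F V) (hm : 2 ≤ m) (h0 : 2 ≤ finrank F V) (p : ℕ)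
    [CharP F p] : ¬ AllP Φ R p := fun H => by
  have := Module.nontrivial_of_finrank_pos (R := F) (M := V) (by omega)
  obtain ⟨w, hw⟩ := exists_ne (0 : V)
  obtain ⟨g, h1, h2⟩ := exists_tv_alt hΦ hε hκ w 1
  obtain ⟨v, hv⟩ := hΦ.exists_ne hw
  have h3 : ∀ (j : ℕ) x, (g.toLinearMap ^ j) x = x + ((j : F) * Φ.B w x) • w := fun j x => by
    induction j with
    | zero => simp
    | succ j ih => simp [pow_succ', ih, h2, H14.Wall.B_self_alt hε, add_mul, add_smul]; abel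
  have h4 : kd g.toLinearMap (X - C 1) + 1 = finrank F V := by
    rw [← Module.Dual.finrank_ker_add_one_of_ne_zero (f := Φ.B w) fun e => by simp [e] at hv]
    exact congrArg (fun A : Submodule F V => finrank F A + 1)
      (Submodule.ext fun x => mem_ker_lin.trans (by simp [h2, hw]))
  refine (hR _ (H _ (pres_O ⟨g, h1⟩) ⟨1, LinearMap.ext fun x => by simp [h3]⟩ fun z e => ?_)).not
    hk hn hm one_ne_zero h4
  classical
  rw [kd_linM (t := Multiset.replicate (finrank F V) z) (by rw [e, ed_scalar]; simp [linM]),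
    Multiset.count_replicate] at h4
  split_ifs at h4 <;> omega

theorem not_allP_two [Finite F] (h2 : (2 : F) ≠ 0) (hΦ : Φ.Nondeg) (hε : Φ.ε = -1) (hκ : Φ.κ = 0)
    (hV : 4 ≤ finrank F V) (hno : ∀ g, g ^ 2 = 1 → kd g (X - C 1) + 2 = finrank F V → ¬ R g) :
    ¬ AllP Φ R 2 := fun H => by
  obtain ⟨m, hm⟩ := even_finrank_alt hΦ hε
  obtain ⟨g, h3, h4⟩ := exists_alt_of_as hΦ hε hκ (s := Multiset.replicate (finrank F V - 2)
    (X - C 1) + Multiset.replicate 2 (X - C (-1))) (fun q hq => by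
      rcases Multiset.mem_add.1 hq with h | h <;> rw [Multiset.eq_of_mem_replicate h] <;>
        exact ⟨monic_X_sub_C _, irreducible_X_sub_C _, by simp⟩)
    ((as_rep (by simp) ⟨m - 1, by omega⟩).add (as_rep (by simp) even_two))
    (by simp [-map_one, -map_neg]; omega)
  exact hno g (by simpa using pow_of_lin h4) (by rw [kd_rep h2 h4]; omega) (H g h3
    ⟨_, pow_of_lin h4⟩ (not_scalar_of_lin h2 one_ne_zero (by omega) two_ne_zero h4))

variable [Fintype F]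

theorem not_allP_Tr (hΦ : Φ.Nondeg) (hε : Φ.ε = -1) (hκ : Φ.κ = 0) (hr : r.Prime) (hr2 : r ≠ 2)
    (hr0 : (r : F) ≠ 0) {i c : ℕ} (hi : i = orderOf (Fintype.card F : ZMod r))
    (hc : c = if Even i then i else 2 * i) (hV : c ≤ finrank F V)
    (hno : ∀ g s l, (∀ a ∈ s, a ∈ Tr F r) → s.Nodup → s ≠ 0 → 0 < c → c < r → l + c = finrank F V →
      g ^ r = 1 → ed g = s + Multiset.replicate l (X - C 1) → ¬ R g) : ¬ AllP Φ R r := fun H => by
  obtain ⟨b, h1, h2⟩ := Tr_id_cases hr hr2 hr0 hi hc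
  obtain ⟨s, h3, h4, h5, h6⟩ := exists_Tr_blocks (σ := RingHom.id F) (fun _ => rfl) hr hr0 h2
  have h7 : 0 < i := hi ▸ orderOf_card_pos hr hr0
  have h8 : 0 < c := by split_ifs at hc <;> omega
  have := Module.nontrivial_of_finrank_pos (R := F) (M := V) (by omega)
  have h9 : s ≠ 0 := by rintro rfl; rw [h1, ← h5] at h8; simp at h8
  obtain ⟨g, hg, h10⟩ := exists_alt_Tr hΦ hε hκ hr hr2 hr0 h3 (map_dual_id s ▸ h4)
    (k := finrank F V - c) (by rw [h5, ← hi]; omega)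
  obtain ⟨f, hf⟩ := Multiset.exists_mem_of_ne_zero h9
  obtain ⟨a1, a2, -⟩ := Tr_spec hr hr0
  have a3 := Nat.mul_le_mul_right i (card_le_of_nodup h6 h3)
  have a4 := (pow_of_ed_Tr hr h3 h9 h10).1
  exact hno g s _ h3 h6 h9 h8 (by rw [← hi] at a2; rw [h5] at a3; omega) (by omega) a4 h10
    (H g hg ⟨1, by simp [a4]⟩ fun z e => not_scalar_of_mem (h10 ▸ Multiset.mem_add.2 (.inl hf))
      (Tr_ne_lin hr hr2 (h3 f hf) (scalar_norm hΦ (e ▸ hg))) e)

theorem c_le_of_pres {σ : F →+* F} {Φ : Form σ V} (hΦ : Φ.Nondeg) (hr : r.Prime) (hr0 : (r : F) ≠ 0)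
    {b : ℕ} (hb : (b = 1 ∧ ∀ a ∈ Tr F r, dual σ a = a) ∨ (b = 2 ∧ ∀ a ∈ Tr F r, dual σ a ≠ a))
    (hg : Pres Φ g) (h : g ^ r = 1) : ∃ N, (g ≠ 1 → N ≠ 0) ∧
      kd g (X - C 1) + N * (b * orderOf (Fintype.card F : ZMod r)) = finrank F V := by
  obtain ⟨s, k, h1, h2, h3, h4, h5⟩ := exists_Tr_ed hr hr0 hΦ hg h
  obtain ⟨N, h6, -⟩ := Tr_blocks Φ.invol hr hb h1 h2
  exact ⟨N, fun e e' => h4 e (Multiset.card_eq_zero.1 (by simp [h6, e'])),
    by rw [kd_Tr hr h1 h5, ← h3, h6, mul_assoc, add_comm]⟩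

theorem exists_of_dvd_alt (hΦ : Φ.Nondeg) (hε : Φ.ε = -1) (hκ : Φ.κ = 0) (hr : r.Prime)
    (hr0 : (r : F) ≠ 0) (hV : finrank F V = 2 * d) {X P : ℕ} (hX : X ≠ 0)
    (h1 : qf (Fintype.card F ^ 2) d = X * P) (h : r * X ∣ Nat.card Φ.O) : r ∣ P :=
  dvd_of_mul_dvd ((coprime_card_of_cast hr hr0).pow_right _) hX
    (by rwa [card_O_alt' hΦ hε hκ hV, h1] at h)

end AP

section Bridge

variable {ι : Type} [Fintype ι] [DecidableEq ι] {F : Type u} [Field F] {σ : F →+* F}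
  {Φ : Form σ (ι → F)} {r : ℕ} {G H : Subgroup (GL ι F)}

/-- `g` is similar to an isometry in `H` -/
def EP (Φ : Form σ (ι → F)) (H : Subgroup (GL ι F)) (g : End F (ι → F)) : Prop :=
  ∃ y ∈ H, Pres Φ (toLin' y.1) ∧ edM y.1 = ed g

theorem allP_of (hΦ : Φ.Nondeg) (hG : ∀ x : GL ι F, x ∈ G ↔ Pres Φ (toLin' x.1))
    (h : ∀ x ∈ G, (∃ z : F, (x ^ r).1 = z • (1 : Matrix ι ι F)) →
      (∀ z : F, x.1 ≠ z • (1 : Matrix ι ι F)) → ∃ g ∈ G, g⁻¹ * x * g ∈ H) : AllP Φ (EP Φ H) r :=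
  (gl_forall_iff hG (fun _ h => h.inj hΦ) (R := fun x => EP Φ H (toLin' x.1)) _
    fun _ _ => Iff.rfl).1 fun x h1 h2 h3 =>
      let ⟨y, a1, a2, a3⟩ := (conj_mem_iff hG h1).1 (h x h1 h2 h3); ⟨y, a1, a2, a3.sim.ed_eq⟩

theorem of_allP [Finite F] [Nonempty ι] {Φ : Form (RingHom.id F) (ι → F)} (hΦ : Φ.Nondeg)
    (hε : Φ.ε = -1) (hκ : Φ.κ = 0) (hr : (r : F) ≠ 0)
    (hG : ∀ x : GL ι F, x ∈ G ↔ Pres Φ (toLin' x.1)) (h : AllP Φ (EP Φ H) r) :
    ∀ x ∈ G, (∃ z : F, (x ^ r).1 = z • (1 : Matrix ι ι F)) →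
      (∀ z : F, x.1 ≠ z • (1 : Matrix ι ι F)) → ∃ g ∈ G, g⁻¹ * x * g ∈ H :=
  (gl_forall_iff hG (fun _ h => h.inj hΦ) (fun g => ∃ y ∈ H, Pres Φ (toLin' y.1) ∧
    Iso Φ (toLin' y.1) Φ g) fun _ hx => conj_mem_iff hG hx).2 fun g h1 ⟨z, h2⟩ h3 =>
      let ⟨y, a1, a2, a3⟩ := h g h1 ⟨z, h2⟩ h3
      ⟨y, a1, a2, uq_alt hΦ hε hκ h1 (ss_of_pow hr (right_ne_zero_of_mul_eq_one
        (scalar_norm hΦ (h2 ▸ pres_pow h1 r))) h2) _ Φ _ hΦ rfl rfl a2 a3⟩

end Bridge

section Tens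

variable {F : Type u} {V S W : Type*} [Field F] [AddCommGroup V] [Module F V] [AddCommGroup S]
  [Module F S] [AddCommGroup W] [Module F W] {g : End F V} {A : End F S} {B : End F W} {r : ℕ}
  {Φ : Form (RingHom.id F) V} {Ψ : Form (RingHom.id F) S} {β : LinearMap.BilinForm F W}
  {T : S ⊗[F] W ≃ₗ[F] V}

/-- `g` is similar to an isometry preserving the tensor decomposition -/
def ETP (Φ : Form (RingHom.id F) V) (T : S ⊗[F] W ≃ₗ[F] V) (g : End F V) : Prop :=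
  ∃ (A : End F S) (B : End F W), Function.Injective A ∧ Function.Injective B ∧
    Pres Φ (T.conj (TensorProduct.map A B)) ∧ ed (TensorProduct.map A B) = ed g

variable (hT : ∀ x w x' w', Φ.B (T (x ⊗ₜ w)) (T (x' ⊗ₜ w')) = Ψ.B x x' * β w w')
include hT

theorem pres_conj_map (hκ : Φ.κ = 0) (hA : Pres Ψ A) (hB : ∀ w w', β (B w) (B w') = β w w') :
    Pres Φ (T.conj (TensorProduct.map A B)) := by
  refine ⟨fun u v => ?_, fun _ => by rw [Q_of_κ hκ, Q_of_κ hκ]⟩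
  obtain ⟨u, rfl⟩ := T.surjective u
  obtain ⟨v, rfl⟩ := T.surjective v
  simp only [LinearEquiv.conj_apply_apply, LinearEquiv.symm_apply_apply]
  induction u with
  | zero => simp
  | add x y h1 h2 => simp [h1, h2]
  | tmul x w =>
    induction v with
    | zero => simp
    | add x y h1 h2 => simp only [map_add, h1, h2]
    | tmul => simp [hT, hA.B, hB]

theorem smu_of_map (hΦ : Φ.Nondeg) [Nontrivial V] (h : Pres Φ (T.conj (TensorProduct.map A B))) :
    ∃ μ, SMu Ψ μ A := by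
  have h1 : ∀ x w x' w', Ψ.B (A x) (A x') * β (B w) (B w') = Ψ.B x x' * β w w' :=
    fun x w x' w' => by simpa [hT] using h.B (T (x ⊗ₜ w)) (T (x' ⊗ₜ w'))
  obtain ⟨x, w, x', w', h2⟩ : ∃ x w x' w', Ψ.B x x' * β w w' ≠ 0 := by
    by_contra! h2
    obtain ⟨u, hu⟩ := exists_ne (0 : V)
    refine hu (hΦ u fun v => ?_)
    clear hu
    obtain ⟨u, rfl⟩ := T.surjective u
    obtain ⟨v, rfl⟩ := T.surjective v
    induction u with
    | zero => simp
    | add x y h1 h2 => simp [h1, h2]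
    | tmul x w =>
      induction v with
      | zero => simp
      | add x y h1 h2 => simp [h1, h2]
      | tmul => rw [hT, h2]
  have h3 := right_ne_zero_of_mul (h1 x w x' w' ▸ h2)
  exact ⟨β w w' / β (B w) (B w'), fun y y' => by field_simp; rw [h1]; ring⟩

variable [FiniteDimensional F V] [FiniteDimensional F S] [FiniteDimensional F W] [Fintype F]

theorem not_allETP (p : ℕ) [hp : Fact p.Prime] [CharP F p] (hΦ : Φ.Nondeg) (hε : Φ.ε = -1)
    (hκ : Φ.κ = 0) (hΨ : Ψ.Nondeg) (hκ' : Ψ.κ = 0) (hr : r.Prime) (ha : 2 ≤ finrank F S)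
    (hb : 3 ≤ finrank F W) (h : r ∣ Nat.card Φ.O) (H : AllP Φ (ETP Φ T) r) :
    r = 2 ∧ finrank F S = 2 := by
  have hV : finrank F V = finrank F S * finrank F W := by rw [← T.finrank_eq, finrank_tensorProduct]
  have h1 : finrank F S ∣ finrank F V := hV ▸ dvd_mul_right _ _
  have h2 : 6 ≤ finrank F V := by nlinarith
  have h0 : ∀ g, ETP Φ T g → RK _ _ g := fun g ⟨A, B, a1, a2, _, a3⟩ => ET.rk ⟨A, B, a1, a2, a3⟩
  have hr0 : (r : F) ≠ 0 := cast_ne_zero_of_ne p hr (by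
    rintro rfl; exact not_allP_char hΦ hε hκ h0 ha h1 (by omega) (by omega) r H)
  by_cases hr2 : r = 2
  · subst hr2
    refine ⟨rfl, by_contra fun h3 => not_allP_two hr0 hΦ hε hκ (by omega) (fun g _ h4 h5 => ?_) H⟩
    rcases h0 g h5 with h5 | h5
    · have := Nat.le_of_dvd two_pos ((Nat.dvd_add_right (h5 _)).1 (h4 ▸ h1))
      omega
    · have := h5 1 one_ne_zero
      omega
  have := Module.nontrivial_of_finrank_pos (R := F) (M := V) (by omega)
  have := Module.nontrivial_of_finrank_pos (R := F) (M := S) (by omega)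
  have := Module.nontrivial_of_finrank_pos (R := F) (M := W) (by omega)
  obtain ⟨d, hd⟩ := even_finrank_alt hΦ hε
  obtain ⟨j, h3, h4⟩ := (Prime.dvd_finsetProd_iff hr.prime _).1 (exists_of_dvd_alt hΦ hε hκ hr hr0
    (d := d) (by omega) one_ne_zero (one_mul _).symm (by simpa))
  have h5 := Nat.le_of_dvd (by omega) ((c_dvd_iff Fintype.card_pos rfl rfl _).2 h4)
  have h6 := Finset.mem_range.1 h3
  refine absurd H (not_allP_Tr hΦ hε hκ hr hr2 hr0 rfl rfl (by omega) ?_)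
  rintro g s l a1 a2 a3 - - a4 a5 a6 ⟨A, B, a7, a8, a9, a10⟩
  by_cases b1 : ∀ c : F, A ≠ c • 1
  swap
  · push Not at b1
    obtain ⟨c, rfl⟩ := b1
    exact Tr_ne_nsmul hr a1 a3 a2 ha ((a6.symm.trans a10.symm).trans (ed_map_left c B))
  by_cases b2 : ∀ c : F, B ≠ c • 1
  swap
  · push Not at b2
    obtain ⟨c, rfl⟩ := b2
    exact Tr_ne_nsmul hr a1 a3 a2 (by omega) ((a6.symm.trans a10.symm).trans (ed_map_right A c))
  have b3 := kd_map_lt b1 a7 b2 a8 hb 1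
  rw [kd_congr a10, finrank_congr a10, kd_Tr hr a1 a6] at b3
  have b4 : ¬ r ∣ Fintype.card F - 1 := fun e => by
    rw [(orderOf_eq_one_iff_dvd Fintype.card_pos).2 e] at a4
    simp at a4; omega
  obtain ⟨z, hz⟩ := scalar_of_map_pow a8 (pow_of_ed_eq a10 (a5.trans (one_smul F _).symm))
  obtain ⟨c, b5, b6⟩ := exists_root_of_pow hr b4 a7 hz
  obtain ⟨μ, b7⟩ := smu_of_map hT hΦ a9
  have b8 := b7.smul c
  rw [eq_one_of_pow_eq_one ((Nat.Prime.coprime_iff_not_dvd hr).2 b4) hr.ne_zero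
    ((b8.pow_eq hΨ (b6.trans (one_smul F _).symm)).trans (by simp))] at b8
  obtain ⟨b, b9, b10⟩ := Tr_id_cases hr hr2 hr0 rfl rfl
  obtain ⟨N, b11, b12⟩ := c_le_of_pres hΨ hr hr0 b10 (b8.pres (.inl hκ')) b6
  have := Nat.le_mul_of_pos_left (b * orderOf (Fintype.card F : ZMod r))
    (Nat.pos_of_ne_zero (b11 fun e => b1 c⁻¹ (by rw [← e, inv_smul_smul₀ b5])))
  omega

theorem allETP_two (h2 : (2 : F) ≠ 0) (hΦ : Φ.Nondeg) (hε : Φ.ε = -1) (hκ : Φ.κ = 0)
    (hΨ : Ψ.Nondeg) (hε' : Ψ.ε = -1) (hκ' : Ψ.κ = 0) (hβ : LinearMap.IsSymm β) (ha : finrank F S = 2)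
    [Nontrivial V] : AllP Φ (ETP Φ T) 2 := by
  have hV : finrank F V = 2 * finrank F W := by rw [← T.finrank_eq, finrank_tensorProduct, ha]
  refine allP_two h2 hΦ hε hV (fun g a b _ _ h3 h4 => ?_) fun g hg h3 => ?_
  · have := invertibleOfNonzero h2
    obtain ⟨e, he⟩ := LinearMap.BilinForm.exists_orthogonal_basis hβ
    obtain ⟨B, h5, h6⟩ := exists_diag_basis e (t := Multiset.replicate a 1 + Multiset.replicate b (-1 : F))
      (by simpa)
    rw [linM_rep] at h5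
    refine ⟨(1 : F) • 1, B, fun x y e => by simpa using e, inj_of_pow (by simp) two_ne_zero
      (pow_of_lin h5), pres_conj_map hT hκ (by simpa using pres_one Ψ) fun w w' => ?_, ?_⟩
    · refine LinearMap.congr_fun₂ (LinearMap.ext_basis (B := β.compl₁₂ B B) (B' := β) e e
        fun i j => ?_) w w'
      obtain ⟨c, h7, h8⟩ := h6 i
      by_cases h9 : i = j
      · subst h9
        rcases Multiset.mem_add.1 h7 with h | h <;> simp [h8, Multiset.eq_of_mem_replicate h]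
      · obtain ⟨c', -, h10⟩ := h6 j
        simp [h8, h10, show β (e i) (e j) = 0 from he h9]
    · rw [ed_map_left, ha, one_smul, h5, h4, smul_add, Multiset.nsmul_replicate,
        Multiset.nsmul_replicate]
  · obtain ⟨A, h4, h5⟩ := exists_sq_neg hΨ hε' hκ'
    have h6 := pres_conj_map hT hκ h4 (B := 1) fun _ _ => rfl
    refine ⟨A, 1, h4.inj hΨ, Function.injective_id, h6, (sim_conj ..).ed_eq.trans (ed_eq_of_sq_neg h2 hΦ hε hg h6 h3
      ((pow_of_ed_eq (sim_conj ..).ed_eq.symm (z := -1) ?_).trans (neg_one_smul _ _)))⟩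
    rw [TensorProduct.map_pow, h5, one_pow, ← neg_one_smul F, TensorProduct.map_smul_left,
      TensorProduct.map_one]

end Tens

section TB

open scoped Kronecker

variable {F : Type u} [Field F] {ι κ μ : Type} [Fintype ι] [DecidableEq ι] [Fintype κ]
  [DecidableEq κ] [Fintype μ] [DecidableEq μ]

/-- the tensor structure given by coordinates -/
noncomputable def tE (e : ι ≃ κ × μ) (P : GL ι F) : (κ → F) ⊗[F] (μ → F) ≃ₗ[F] (ι → F) :=
  ((Pi.basisFun F κ).tensorProduct (Pi.basisFun F μ)).equivFun ≪≫ₗ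
    LinearEquiv.funCongrLeft F F e ≪≫ₗ glE ι F P

omit [DecidableEq κ] [DecidableEq μ] in
theorem tE_tmul (e : ι ≃ κ × μ) (P : GL ι F) (x : κ → F) (w : μ → F) :
    tE e P (x ⊗ₜ w) = P.1 *ᵥ ((fun p : κ × μ => x p.1 * w p.2) ∘ e) := by
  refine congrArg (P.1 *ᵥ ·) (funext fun i => ?_)
  simp [Basis.tensorProduct_repr_tmul_apply (i := (e i).1) (j := (e i).2), mul_comm]

theorem conj_tE (e : ι ≃ κ × μ) (P : GL ι F) (A : GL κ F) (B : GL μ F) :
    (tE e P).conj (TensorProduct.map (toLin' A.1) (toLin' B.1)) =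
      toLin' (As.trG e P (As.kronG A B)).1 := by
  refine LinearMap.ext fun v => ?_
  obtain ⟨v, rfl⟩ := (tE e P).surjective v
  rw [LinearEquiv.conj_apply_apply, LinearEquiv.symm_apply_apply]
  induction v with
  | zero => simp
  | add x y h1 h2 => simp only [map_add, h1, h2]
  | tmul x w =>
    rw [map_tmul, tE_tmul, tE_tmul, toLin'_apply, toLin'_apply, toLin'_apply, As.trG_val,
      As.tr_mulVec, As.kronG_val]
    congr 2
    ext p
    simp only [mulVec, dotProduct, Fintype.sum_prod_type, kroneckerMap_apply, Finset.sum_mul_sum]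
    exact Finset.sum_congr rfl fun _ _ => Finset.sum_congr rfl fun _ _ => by ring

theorem ep_tensor {a b : ℕ} (Φ : Form (RingHom.id F) (ι → F)) (e : ι ≃ Fin a × Fin b)
    (P : GL ι F) : EP Φ (Cfsg.Geo.tensorProductSubgroup a b e P) = ETP Φ (tE e P) := by
  ext g
  refine ⟨?_, ?_⟩
  · rintro ⟨y, h1, h2, h3⟩
    obtain ⟨A, B, rfl⟩ := As.mem_tensorProductSubgroup_iff.1 h1
    exact ⟨_, _, inj_toLin' A, inj_toLin' B, conj_tE e P A B ▸ h2,
      (edM_kron ..).symm.trans ((edM_tr ..).symm.trans h3)⟩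
  · rintro ⟨A, B, h1, h2, h3, h4⟩
    obtain ⟨A, rfl⟩ := exists_GL_of_inj h1
    obtain ⟨B, rfl⟩ := exists_GL_of_inj h2
    exact ⟨_, As.mem_tensorProductSubgroup_iff.2 ⟨A, B, rfl⟩, conj_tE e P A B ▸ h3,
      (edM_tr ..).trans ((edM_kron ..).trans h4)⟩

open Cfsg.Geo in
theorem tE_form {a b : ℕ} {e : ι ≃ Fin a × Fin b} {P : GL ι F} {f f₁ f₂} (h1 : IsBilinearForm f₁)
    (h2 : IsBilinearForm f₂) (h : IsTensorFormStructure id f f₁ f₂ e P) : ∃ c, ∀ x w x' w',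
      f (tE e P (x ⊗ₜ w)) (tE e P (x' ⊗ₜ w')) = f₁ x x' * (c * f₂ w w') := by
  obtain ⟨c, -, h⟩ := h
  refine ⟨c, fun x w x' w' => ?_⟩
  rw [tE_tmul, tE_tmul, h, mul_left_comm]
  conv_rhs => rw [As.eq_fog_of_bilin h1, As.eq_fog_of_bilin h2]
  simp only [formOfGram, Fintype.sum_prod_type, kroneckerMap_apply, Finset.sum_mul_sum, id,
    RingHom.id_apply]
  exact congrArg _ (Finset.sum_congr rfl fun a _ => Finset.sum_congr rfl fun b _ =>
    Finset.sum_congr rfl fun c _ => Finset.sum_congr rfl fun d _ => by ring)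

end TB

end H16
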