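import Cfsg.Agent.H16.LA36

/-! Elements of prime order of symplectic groups and field extension subgroups. -/

set_option autoImplicit false

namespace H16

open Module Polynomial H23 H23.Form H14.Wall Matrix

universe u v

theorem qf_mul (x k m : ℕ) (hk : k ≠ 0) : qf x (k * m) = qf (x ^ k) m *
    ∏ j ∈ Finset.range (k * m) with ¬ k ∣ j + 1, (x ^ (j + 1) - 1) := by
  rw [qf, ← Finset.prod_filter_mul_prod_filter_not _ (fun j => k ∣ j + 1), qf]
  congr 1
  refine (Finset.prod_bij (fun i _ => k * (i + 1) - 1) (fun i hi => ?_) (fun i _ j _ e => ?_)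
    (fun j hj => ?_) fun i _ => ?_).symm
  · have := Nat.mul_le_mul_left k (Finset.mem_range.1 hi)
    have := Nat.mul_pos (Nat.pos_of_ne_zero hk) i.succ_pos
    simp only [Finset.mem_filter, Finset.mem_range]
    exact ⟨by simp only [Nat.succ_eq_add_one] at *; omega,
      by rw [Nat.sub_add_cancel this]; exact dvd_mul_right _ _⟩
  · have := Nat.mul_pos (Nat.pos_of_ne_zero hk) i.succ_pos
    have := Nat.mul_pos (Nat.pos_of_ne_zero hk) j.succ_pos
    have := Nat.eq_of_mul_eq_mul_left (Nat.pos_of_ne_zero hk) (show k * (i + 1) = k * (j + 1) by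
      simp only [Nat.succ_eq_add_one] at *; omega)
    omega
  · obtain ⟨h1, _ | i, h2⟩ := Finset.mem_filter.1 hj
    · omega
    refine ⟨i, Finset.mem_range.2 (Nat.le_of_mul_le_mul_left (c := k) ?_ (Nat.pos_of_ne_zero hk)),
      by omega⟩
    have := Finset.mem_range.1 h1
    simp only [Nat.succ_eq_add_one]; omega
  · rw [Nat.sub_add_cancel (Nat.mul_pos (Nat.pos_of_ne_zero hk) i.succ_pos), pow_mul]

section Ext

variable {F : Type u} {E V : Type*} [Field F] [Field E] [Algebra F E] [AddCommGroup V] [Module F V]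
  [Module E V] [IsScalarTower F E V] {g y : End F V} {α τ : E →+* E} {r d : ℕ}
  {Φ : Form (RingHom.id F) V} {Ψ : Form τ V}

theorem exists_sd {ι : Type*} [Fintype ι] (b : Basis ι E V)
    (hα : ∀ c, α (algebraMap F E c) = algebraMap F E c) (h2 : ∀ a, α (α a) = a) (μ : E) :
    ∃ y : End F V, Semi y α ∧ (∀ i, y (b i) = μ • b i) ∧ ∀ v, y (y v) = (μ * α μ) • v := by
  classical
  refine ⟨⟨⟨fun v => b.equivFun.symm fun i => μ * α (b.equivFun v i), fun u v => ?_⟩,
    fun c v => ?_⟩, fun k v => ?_, fun i => ?_, fun v => ?_⟩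
  all_goals apply b.equivFun.injective; ext j
  · simp [-Basis.equivFun_symm_apply, -Basis.equivFun_apply, mul_add]
  · simp only [RingHom.id_apply, ← algebraMap_smul E c, map_smul, LinearEquiv.apply_symm_apply,
      Pi.smul_apply, smul_eq_mul, map_mul, hα, mul_left_comm]
  · simp [-Basis.equivFun_symm_apply, mul_left_comm]
  · by_cases e : i = j <;> simp [-Basis.equivFun_symm_apply, e, Finsupp.single_apply]
  · simp [-Basis.equivFun_symm_apply, -Basis.equivFun_apply, h2, mul_assoc]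

omit [Algebra F E] [IsScalarTower F E V] in
theorem Semi.B_eq {ι : Type*} [Fintype ι] (b : Basis ι E V) (h : Semi y α)
    (hτ : ∀ a, τ (α a) = α (τ a))
    (hb : ∀ i j, Ψ.B (y (b i)) (y (b j)) = α (Ψ.B (b i) (b j))) (u v : V) :
    Ψ.B (y u) (y v) = α (Ψ.B u v) := by
  rw [← b.sum_repr u, ← b.sum_repr v]
  simp only [map_sum, LinearMap.sum_apply, show ∀ k v, y (k • v) = α k • y v from h, B_smul_left,
    B_smul_right, hb, map_mul, hτ]

variable (E) in
/-- `g` is similar to a semilinear isometry -/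
def EXP (Φ : Form (RingHom.id F) V) (g : End F V) : Prop :=
  ∃ (y : End F V) (α : E →+* E), Pres Φ y ∧ Semi y α ∧ ed y = ed g

variable [Finite E]

omit [IsScalarTower F E V] in
theorem pres_semi (h : Lift Φ Ψ) (hκ : Φ.κ = 0) (hα : ∀ c, α (algebraMap F E c) = algebraMap F E c)
    (hy : ∀ u v, Ψ.B (y u) (y v) = α (Ψ.B u v)) : Pres Φ y :=
  ⟨fun u v => by rw [h.B_eq, h.B_eq, hy, tr_map (σ := RingHom.id F) (fun _ => rfl) hα]; rfl,
    fun _ => by rw [Q_of_κ hκ, Q_of_κ hκ]⟩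

theorem pres_res_iff (h : Lift Φ Ψ) (hκ : Φ.κ = 0) (hκ' : Ψ.κ = 0) {y : End E V} :
    Pres Φ (y.restrictScalars F) ↔ Pres Ψ y :=
  ⟨fun H => ⟨fun u v => tr_ext (F := F) fun k => by
    rw [h.tr, h.tr, ← y.map_smul, ← H.B u]; rfl, fun _ => by rw [Q_of_κ hκ', Q_of_κ hκ']⟩,
    fun H => pres_semi h hκ (α := RingHom.id E) (fun _ => rfl) H.B⟩

variable [FiniteDimensional F V]

theorem EXP.cases [Nontrivial V] (h : Lift Φ Ψ) (hκ : Φ.κ = 0) (hκ' : Ψ.κ = 0) (H : EXP E Φ g)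
    (hr : r ≠ 0) (h1 : g ^ r = 1) : (∃ y : End E V, Pres Ψ y ∧ y ^ r = 1 ∧
      kd g (X - C 1) = finrank F E * kd y (X - C 1)) ∨
      (2 * kd g (X - C 1) ≤ finrank F V ∧ ¬ r.Coprime (finrank F E)) := by
  obtain ⟨y, α, h2, h3, h4⟩ := H
  have h5 := pow_of_ed_eq h4 (h1.trans (one_smul F _).symm)
  rw [← kd_congr h4]
  by_cases h6 : α = RingHom.id E
  · subst h6
    obtain ⟨y, rfl⟩ := h3.exists_res
    exact .inl ⟨y, (pres_res_iff h hκ hκ').1 h2, LinearMap.ext fun v => by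
      simpa [res_pow] using LinearMap.congr_fun h5 v, kd_res_one y⟩
  · exact .inr ⟨h3.two_kd_le h6 one_ne_zero, fun e => h6 (h3.eq_id one_ne_zero hr h5 e)⟩

omit [FiniteDimensional F V] in
theorem exp_res (h : Lift Φ Ψ) (hκ : Φ.κ = 0) (hκ' : Ψ.κ = 0) {y : End E V} (hy : Pres Ψ y)
    (e : ed (y.restrictScalars F : End F V) = ed g) : EXP E Φ g :=
  ⟨_, _, (pres_res_iff h hκ hκ').2 hy, semi_res y, e⟩

omit [Finite E] in
theorem EXP.rk (hV : 3 ≤ finrank F V) (g : End F V) (H : EXP E Φ g) : RK (finrank F E) 2 g :=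
  let ⟨_, _, _, h1, h2⟩ := H; h1.rk h2 (by omega)

omit [Finite E] [FiniteDimensional F V] [IsScalarTower F E V] in
theorem cast_ext_ne (hr : (r : F) ≠ 0) : (r : E) ≠ 0 := by
  rwa [← map_natCast (algebraMap F E), _root_.map_ne_zero]

variable [Fintype F]

theorem not_allEXP_sp {Ψ : Form (RingHom.id E) V} (p : ℕ) [hp : Fact p.Prime] [CharP F p]
    (h : Lift Φ Ψ) (hε : Φ.ε = -1) (hκ : Φ.κ = 0) (hκ' : Ψ.κ = 0) (hr : r.Prime)
    (hk : (finrank F E).Prime) (hV : finrank F V = 2 * d) (hd : 2 ≤ d)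
    (hΩ : r * Nat.card Ψ.O ∣ Nat.card Φ.O) (H : AllP Φ (EXP E Φ) r) :
    r = 2 ∧ d = 2 ∧ finrank F E = 2 ∧ Odd (Fintype.card F) := by
  have := h.nt
  have := Fintype.ofFinite E
  have := Module.Finite.of_restrictScalars_finite F E V
  have : FiniteDimensional F E := Module.Finite.of_finite
  have hε' : Ψ.ε = -1 := by simp [h.eps, hε]
  obtain ⟨m, hm⟩ := even_finrank_alt h.nondeg hε'
  have h1 : d = finrank F E * m := by
    have := finrank_mul_finrank F E V
    rw [hm, hV, mul_add] at this; omega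
  have h2 := hk.two_le
  have h3 : finrank F E ≤ d := Nat.le_of_dvd (by omega) (h1 ▸ dvd_mul_right _ _)
  have hr0 : (r : F) ≠ 0 := cast_ne_zero_of_ne p hr (by
    rintro rfl
    exact not_allP_char h.nd hε hκ (EXP.rk (by omega)) h2 finrank_dvd_ext le_rfl (by omega) r H)
  have key : ∀ g c, EXP E Φ g → g ^ r = 1 → kd g (X - C 1) + c = 2 * d →
      2 * finrank F E ∣ c ∨ (d ≤ c ∧ r = finrank F E) := fun g c a1 a2 a3 => by
    refine (a1.cases h hκ hκ' hr.ne_zero a2).imp (fun ⟨y, a4, a5, a6⟩ => ?_) fun ⟨a4, a5⟩ =>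
      ⟨by omega, by_contra fun e => a5 ((Nat.coprime_primes hr hk).2 e)⟩
    obtain ⟨j, hj⟩ := even_kd h.nondeg hε' a4
      (ss_of_pow (cast_ext_ne hr0) one_ne_zero (a5.trans (one_smul E _).symm))
    exact (Nat.dvd_add_right (b := kd g (X - C 1)) ⟨j, by rw [a6, hj]; ring⟩).1
      ⟨m, by rw [a3, h1]; ring⟩
  by_cases hr2 : r = 2
  · subst hr2
    have h4 : d = 2 := by_contra fun h4 => not_allP_two hr0 h.nd hε hκ (by omega) (fun g a1 a2 a3 => by
      rcases key g 2 a3 a1 (hV ▸ a2) with a4 | a4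
      · have := Nat.le_of_dvd two_pos a4; omega
      · omega) H
    exact ⟨rfl, h4, by omega, by simpa using coprime_card_of_cast (F := F) Nat.prime_two hr0⟩
  have hq := Fintype.one_lt_card (α := F)
  rw [card_O_alt' h.nondeg hε' hκ' (d := m) (by omega), Module.card_eq_pow_finrank (K := F),
    ← pow_mul _ _ 2, mul_comm _ 2, pow_mul _ 2] at hΩ
  obtain ⟨j, h4, h5⟩ := (Prime.dvd_finsetProd_iff hr.prime _).1 (exists_of_dvd_alt h.nd hε hκ hr hr0
    hV (qf_pos (Nat.one_lt_pow hk.ne_zero (Nat.one_lt_pow two_ne_zero hq)) _).ne' (h1 ▸ qf_mul _ _ _ hk.ne_zero)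
    ((mul_dvd_mul_left r (dvd_mul_left _ _)).trans hΩ))
  obtain ⟨h6, h7⟩ := Finset.mem_filter.1 h4
  have h8 := (c_dvd_iff Fintype.card_pos rfl rfl _).2 h5
  have h9 := Nat.le_of_dvd (by omega) h8
  have h10 := Finset.mem_range.1 h6
  refine absurd H (not_allP_Tr h.nd hε hκ hr hr2 hr0 rfl rfl (by omega) ?_)
  intro g s l a1 _ _ _ a2 a3 a4 a5 a6
  rcases key g _ a6 a4 (by rw [kd_Tr hr a1 a5, a3, hV]) with a7 | a7
  · exact h7 (Nat.dvd_of_mul_dvd_mul_left two_pos (a7.trans h8))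
  · omega

theorem allEXP_sp {Ψ : Form (RingHom.id E) V} (h2 : (2 : F) ≠ 0) (h : Lift Φ Ψ) (hε : Φ.ε = -1)
    (hκ : Φ.κ = 0) (hκ' : Ψ.κ = 0) (hk : finrank F E = 2) (hV : finrank F V = 2 * 2) :
    AllP Φ (EXP E Φ) 2 := by
  have := h.nt
  have := Module.Finite.of_restrictScalars_finite F E V
  have : FiniteDimensional F E := Module.Finite.of_finite
  have hε' : Ψ.ε = -1 := by simp [h.eps, hε]
  refine allP_two h2 h.nd hε hV (fun g a b h3 h4 h5 h6 => ?_) fun g hg h3 => ?_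
  · obtain ⟨m, e, h7, h8, h9⟩ := exists_symplectic_basis (B := Ψ.B) (H14.Wall.B_self_alt hε')
      h.nondeg
    let φ := FiniteField.frobeniusAlgHom F E
    have a1 : orderOf φ = 2 := hk ▸ FiniteField.orderOf_frobeniusAlgHom F E
    obtain ⟨y, a2, a3, a4⟩ := exists_sd e (α := φ) φ.commutes
      (fun a => DFunLike.congr_fun (a1 ▸ pow_orderOf_eq_one φ) a) 1
    have a5 : y ^ 2 = 1 := LinearMap.ext fun v => by simpa [sq] using a4 v
    have a6 : (φ : E →+* E) ≠ RingHom.id E := fun e => by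
      rw [show φ = 1 from AlgHom.ext (RingHom.congr_fun e), orderOf_one] at a1
      omega
    have a7 := a2.two_kd_le a6 one_ne_zero
    have a8 := a2.two_kd_le a6 (neg_ne_zero.2 one_ne_zero)
    have a9 := kd_add_kd h2 a5
    refine ⟨y, φ, pres_semi h hκ φ.commutes (a2.B_eq e (fun _ => rfl) ?_), a2,
      (ed_eq_of_sq h2 a5 (by omega) (by omega)).trans h6.symm⟩
    rintro (i | i) (j | j) <;> simp only [a3, one_smul]
    · simp [h8]
    · simp [h7, apply_ite]
    · rw [Ψ.symm, h7, hε']; simp [apply_ite]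
    · simp [h9]
  · obtain ⟨y, h4, h5⟩ := exists_sq_neg h.nondeg hε' hκ'
    exact exp_res h hκ hκ' h4 (ed_eq_of_sq_neg h2 h.nd hε hg ((pres_res_iff h hκ hκ').2 h4) h3
      (by rw [res_pow, h5]; rfl))

omit [Algebra F E] [IsScalarTower F E V] [Finite E] [FiniteDimensional F V] [Fintype F] in
theorem exists_herm_of_skew (hτ : τ ≠ RingHom.id E) (hΨ : Ψ.Nondeg) (hε : Ψ.ε = -1) :
    ∃ (Θ : Form τ V) (c : E), τ c = -c ∧ Θ.Nondeg ∧ Θ.ε = 1 ∧ (∀ u v, Ψ.B u v = c * Θ.B u v) ∧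
      (∀ y, Pres Ψ y ↔ Pres Θ y) ∧ Ψ.O = Θ.O := by
  obtain ⟨a, ha⟩ : ∃ a, τ a ≠ a := by by_contra! h; exact hτ (RingHom.ext h)
  have h1 : τ (τ a - a) = -(τ a - a) := by simp [Ψ.invol]
  have h2 := sub_ne_zero.2 ha
  let Θ := ofHerm hτ Ψ.invol ((τ a - a)⁻¹ • Ψ.B) ⟨fun u v => by
    simp [-map_sub, -neg_sub, h1, Ψ.symm u v, hε]⟩
  have h3 : ∀ u v, Ψ.B u v = (τ a - a) * Θ.B u v := fun u v => by simp [Θ, h2]
  have h4 : ∀ v, Ψ.Q v = Θ.Q v := fun v => Q_of_κ (kappa_of_ne hτ) v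
  exact ⟨Θ, _, h1, fun x hx => hΨ x fun y => by rw [h3, hx, mul_zero], rfl, h3,
    fun y => ⟨fun H => ⟨by simpa [h3, h2] using H.B, by simpa [h4] using H.Q⟩,
      fun H => ⟨by simpa [h3, h2] using H.B, by simpa [h4] using H.Q⟩⟩,
    Subgroup.ext fun y => and_congr (by simp [h3, h2]) (by simp [h4])⟩

theorem allEXP_gu_iff (p : ℕ) [hp : Fact p.Prime] [CharP F p] (h2 : (2 : F) ≠ 0) (h : Lift Φ Ψ)
    (hτ : τ ≠ RingHom.id E) (hε : Φ.ε = -1) (hκ : Φ.κ = 0) (hr : r.Prime)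
    (hk : finrank F E = 2) (hV : finrank F V = 2 * d) (hd : 2 ≤ d)
    (hΩ : r * Nat.card Ψ.O ∣ Nat.card Φ.O) : AllP Φ (EXP E Φ) r ↔ r = 2 := by
  have := h.nt
  have := Fintype.ofFinite E
  have := Module.Finite.of_restrictScalars_finite F E V
  have : FiniteDimensional F E := Module.Finite.of_finite
  have hF : Fintype.card E = Fintype.card F ^ 2 := hk ▸ Module.card_eq_pow_finrank
  obtain rfl := As.eq_conj hτ h.invol hF
  obtain ⟨Θ, c, h3, h4, h5, h6, h7, h8⟩ := exists_herm_of_skew hτ h.nondeg (by simp [h.eps, hε])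
  have hκ' := kappa_of_ne (Φ := Ψ) hτ
  have h1 : finrank E V = d := by
    have := finrank_mul_finrank F E V
    rw [hk, hV] at this; omega
  refine ⟨fun H => by_contra fun hr2 => ?_, ?_⟩
  · have hr0 : (r : F) ≠ 0 := cast_ne_zero_of_ne p hr (by
      rintro rfl
      exact not_allP_char h.nd hε hκ (EXP.rk (by omega)) hk.ge finrank_dvd_ext le_rfl (by omega) r H)
    have hq := Fintype.one_lt_card (α := F)
    rw [h8, H22.card_O_herm hF d Θ h4 h5 (kappa_of_ne hτ) h1, ← uf] at hΩ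
    obtain ⟨j, a1, a2⟩ := (Prime.dvd_finsetProd_iff hr.prime _).1 (exists_of_dvd_alt h.nd hε hκ hr
      hr0 hV (uf_pos hq d).ne' (qf_sq_uf _ _) ((mul_dvd_mul_left r (dvd_mul_left _ _)).trans hΩ))
    have a3 := (c_dvd_iff (r := r) (q := Fintype.card F) Fintype.card_pos rfl rfl (j + 1)).2 (by
      rw [← pow_mul, mul_comm, pow_mul]; exact dvd_sq_sub_one (by split_ifs at a2 <;> tauto))
    have a4 := Nat.le_of_dvd (by omega) a3
    have a5 := Finset.mem_range.1 a1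
    have a6 : orderOf (Fintype.card F : ZMod r) % 4 ≠ 2 := fun e => by
      split_ifs at a2 with a6
      · have := Nat.odd_iff.1 (Odd.of_dvd_nat a6.add_one ((orderOf_zmod_dvd_iff (by omega) _).2 a2))
        omega
      · refine hr2 (eq_two_of_dvd hr (by positivity) a2 ((orderOf_zmod_dvd_iff (by omega) _).1 ?_))
        obtain ⟨i, hi⟩ : ∃ i, orderOf (Fintype.card F : ZMod r) = 2 * (2 * i + 1) :=
          ⟨orderOf (Fintype.card F : ZMod r) / 4, by omega⟩
        rw [hi, if_pos (by simp)] at a3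
        rw [hi]
        exact Nat.Coprime.mul_dvd_of_dvd_of_dvd (by simp) (Nat.not_even_iff_odd.1 a6).add_one.two_dvd
          (Nat.dvd_of_mul_dvd_mul_left two_pos a3)
    refine not_allP_Tr h.nd hε hκ hr hr2 hr0 rfl rfl (by omega) ?_ H
    intro g s l b1 _ _ b2 _ b3 b4 b5 b6
    obtain ⟨y, b7, b8, b9⟩ := (b6.cases h hκ hκ' hr.ne_zero b4).resolve_right fun e =>
      e.2 (hk ▸ (Nat.coprime_primes hr Nat.prime_two).2 hr2)
    obtain ⟨N, -, b10⟩ := c_le_of_pres h4 hr (cast_ext_ne hr0) (.inr ⟨rfl, fun a ha e =>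
      a6 ((conj_dual_iff hr hr2 (cast_ext_ne hr0) ha).1 e)⟩) ((h7 y).1 b7) b8
    rw [← (Tr_conj_cases hF hr hr2 (cast_ext_ne hr0) rfl rfl rfl).1, h1] at b10
    rw [kd_Tr hr b1 b5, hk] at b9
    split_ifs at b2 b3 b10 with b11
    · have := Nat.even_iff.1 b11
      rcases N with _ | N
      · omega
      · rw [add_mul] at b10; omega
    · rcases N with _ | N
      · omega
      · rw [add_mul] at b10; omega
  rintro rfl
  refine allP_two h2 h.nd hε hV (fun g a b _ _ a1 a2 => ?_) fun g hg a1 => ?_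
  · obtain ⟨y, a3, a4⟩ := exists_herm_lin h4 h5 (odd_of_two_ne hF (cast_ext_ne (r := 2) h2))
      (one_pow _) (a1.trans h1.symm)
    exact exp_res h hκ hκ' ((h7 y).2 a3) ((ed_eq_of_sq h2
      (by rw [res_pow, pow_of_lin a4, one_pow, one_smul]; rfl)
      (by rw [kd_res_one, hk, kd_rep (cast_ext_ne (r := 2) h2) a4]) (by omega)).trans a2.symm)
  · obtain ⟨e, he⟩ := exists_orthonormal_basis_herm hτ h5 h4 rfl
    obtain ⟨μ, hμ⟩ := exists_norm_eq_of_invol hτ h.invol (μ := -1) (by simp [-conj_apply])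
    obtain ⟨y, a2, a3, a4⟩ := exists_sd e h.alg h.invol μ
    have a5 := pres_semi h hκ h.alg (a2.B_eq e (fun _ => rfl) fun i j => by
      rw [a3, a3, B_smul_left, B_smul_right, ← mul_assoc, hμ, h6, he, map_mul, h3]
      split_ifs <;> simp [-conj_apply])
    exact ⟨y, _, a5, a2, ed_eq_of_sq_neg h2 h.nd hε hg a5 a1
      (LinearMap.ext fun v => by simpa [sq, mul_comm μ, hμ, -conj_apply] using a4 v)⟩

end Ext

section Bridge

variable {ι : Type} [Fintype ι] [DecidableEq ι] [Nonempty ι] {F : Type u} [Field F] [Finite F]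
  {k r : ℕ} {K : Subalgebra F (Matrix ι ι F)} {Φ : Form (RingHom.id F) (ι → F)}

open Cfsg.Geo

theorem ep_ext (hK : IsFieldSubalgebra k K) (hΦ : Φ.Nondeg) :
    letI := (As.IsFieldSubalgebra.isField hK).toField
    EP Φ (subalgebraNormalizer K) = EXP K Φ := by
  let := (As.IsFieldSubalgebra.isField hK).toField
  ext g
  refine ⟨fun ⟨y, h1, h2, h3⟩ => ?_, fun ⟨y, α, h1, h2, h3⟩ => ?_⟩
  · obtain ⟨α, h4⟩ := (mem_norm_iff hK y).1 h1
    exact ⟨_, α, h2, h4, h3⟩
  · obtain ⟨y, rfl⟩ := exists_GL_of_inj (h1.inj hΦ)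
    exact ⟨y, (mem_norm_iff hK y).2 ⟨α, h2⟩, h1, h3⟩

theorem mul_card_dvd_ext (hK : IsFieldSubalgebra k K) {G : Subgroup (GL ι F)}
    (hG : ∀ x : GL ι F, x ∈ G ↔ Pres Φ (toLin' x.1)) (hκ : Φ.κ = 0)
    (h : r ∣ (subalgebraNormalizer K).relIndex G) :
    letI := (As.IsFieldSubalgebra.isField hK).toField
    ∀ {τ : K →+* K} {Ψ : Form τ (ι → F)}, Lift Φ Ψ → Ψ.κ = 0 →
      r * Nat.card Ψ.O ∣ Nat.card Φ.O := by
  let := (As.IsFieldSubalgebra.isField hK).toField
  have : Finite K := Subtype.finite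
  intro τ Ψ h1 h2
  rw [← card_eq_O hG, ← relIndex_mul_card G]
  let φ : Ψ.O →* GL ι F := MonoidHom.mk' (fun x => (glE ι F).symm (x.1.restrictScalars F))
    fun x y => map_mul (glE ι F).symm (x.1.restrictScalars F) (y.1.restrictScalars F)
  have h3 : ∀ x, toLin' (φ x).1 = x.1.toLinearMap.restrictScalars F := fun x =>
    (congrArg toLin' (glE_symm_coe _)).trans (toLin'_toMatrix' _)
  exact mul_dvd_mul h (Subgroup.card_dvd_of_injective (φ.codRestrict _ fun x =>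
    ⟨(mem_norm_iff hK _).2 ⟨_, h3 x ▸ semi_res _⟩, (hG _).2 (h3 x ▸ (pres_res_iff h1 hκ h2).2
      (pres_O x))⟩) fun x y e => Subtype.ext (LinearEquiv.ext fun v => DFunLike.congr_fun
        ((glE ι F).symm.injective (congrArg Subtype.val e)) v))

end Bridge

end H16
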