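import Cfsg.Agent.H16.LA36
import Cfsg.Agent.H23.As6

/-! Normalizers of groups of symplectic type: general lemmas. -/

set_option autoImplicit false

namespace H16.NX

open Module Polynomial H23 H23.Form H14.Wall Matrix Cfsg.Geo

universe u

section Grp

variable {Γ : Type*} [Group Γ] {H : Subgroup Γ} {y : Γ} {r : ℕ}

theorem card_modEq_fix [Finite H] (hr : r.Prime) (h1 : ∀ u ∈ H, y * u * y⁻¹ ∈ H)
    (h2 : ∀ u ∈ H, y ^ r * u = u * y ^ r) :
    Nat.card H ≡ Nat.card (H ⊓ Subgroup.centralizer {y} : Subgroup Γ) [MOD r] := by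
  classical
  have := Fact.mk hr
  let := Fintype.ofFinite H
  let f : Function.End H := fun u => ⟨y * u * y⁻¹, h1 u u.2⟩
  have h3 : ∀ (k : ℕ) (u : H), ((f ^ k) u).1 = y ^ k * u * (y ^ k)⁻¹ := fun k u => by
    induction k with
    | zero => simp; rfl
    | succ k ih =>
      rw [pow_succ']
      change y * ((f ^ k) u).1 * y⁻¹ = _
      rw [ih, pow_succ']; group
  have h4 := Equiv.Perm.card_fixedPoints_modEq (f := f) (p := r) (n := 1) (funext fun u =>
    Subtype.ext (by rw [pow_one, h3, h2 u u.2, mul_inv_cancel_right]; rfl))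
  rw [← Nat.card_eq_fintype_card, ← Nat.card_eq_fintype_card] at h4
  convert h4 using 1
  refine Nat.card_congr ⟨fun u => ⟨⟨u.1, u.2.1⟩, Subtype.ext ?_⟩, fun u => ⟨u.1.1, u.1.2, ?_⟩,
    fun _ => rfl, fun _ => rfl⟩
  · change y * u * y⁻¹ = u
    rw [← Subgroup.mem_centralizer_singleton_iff.1 u.2.2, mul_inv_cancel_right]
  · have : y * u.1.1 * y⁻¹ = u.1.1 := congrArg Subtype.val u.2
    exact Subgroup.mem_centralizer_singleton_iff.2 (mul_inv_eq_iff_eq_mul.1 this).symm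

theorem exists_order_of_relIndex {G : Subgroup Γ} [Finite G] (hr : r.Prime) (h : r ∣ H.relIndex G) :
    ∃ x ∈ G, x ^ r = 1 ∧ x ≠ 1 := by
  have := Fact.mk hr
  obtain ⟨x, hx⟩ := exists_prime_orderOf_dvd_card' (G := G) r
    (relIndex_mul_card G H ▸ h.mul_right _)
  refine ⟨x, x.2, ?_, fun e => hr.ne_one ?_⟩
  · rw [← Subgroup.coe_pow, ← hx, pow_orderOf_eq_one]; rfl
  · rw [← hx, show x = 1 from Subtype.ext e, orderOf_one]

theorem not_dvd_relIndex {G K : Subgroup Γ} (h1 : K ≤ H) (h2 : K ≤ G)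
    (h : ¬ r * Nat.card K ∣ Nat.card G) : ¬ r ∣ H.relIndex G := fun e => h
  (relIndex_mul_card G H ▸ Nat.mul_dvd_mul e (Subgroup.card_dvd_of_le (le_inf h1 h2)))

theorem card_eq_two_mul {a b : Γ} (hb : b ∈ H) (h1 : b * a ≠ a * b)
    (h2 : ∀ u ∈ H, u * a = a * u ∨ u * b * a = a * (u * b)) :
    Nat.card H = 2 * Nat.card (H ⊓ Subgroup.centralizer {a} : Subgroup Γ) := by
  rw [inf_comm, ← relIndex_mul_card H (Subgroup.centralizer {a})]
  congr 1
  refine Subgroup.index_eq_two_iff.2 ⟨⟨b, hb⟩, fun u => ?_⟩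
  simp only [Subgroup.mem_subgroupOf, Subgroup.mem_centralizer_singleton_iff, Subgroup.coe_mul]
  by_cases h3 : u.1 * a = a * u.1
  · exact Or.inr ⟨h3, fun e => h1 (mul_left_cancel (a := u.1)
      (by rw [← mul_assoc, e, ← mul_assoc, ← mul_assoc, h3]))⟩
  · exact Or.inl ⟨(h2 u u.2).resolve_left h3, h3⟩

end Grp

section Herm

variable {F : Type u} {V : Type*} [Field F] [Fintype F] [AddCommGroup V] [Module F V]
  [FiniteDimensional F V] {q : ℕ} {hF : Fintype.card F = q ^ 2} {Φ : Form (conj hF) V}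
  {g : End F V} {s : Multiset F[X]} {r n : ℕ}

/-- the centralizer in the unitary group has all determinants -/
def CD (Φ : Form (conj hF) V) (g : End F V) : Prop :=
  ∀ l : F, l ^ (q + 1) = 1 → ∃ k, Pres Φ k ∧ k * g = g * k ∧ LinearMap.det k = l

omit [FiniteDimensional F V] in
theorem CD.of_smul {c : F} (hc : c ≠ 0) (h : CD Φ (c • g)) : CD Φ g := fun l hl => by
  obtain ⟨k, h1, h2, h3⟩ := h l hl
  exact ⟨k, h1, smul_right_injective _ hc (by simpa using h2), h3⟩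

theorem cd_of_lin (hΦ : Φ.Nondeg) (hε : Φ.ε = 1) (hg : Pres Φ g) {c : F} (hc : c ^ (q + 1) = 1)
    (h : X - C c ∈ ed g) : CD Φ g := fun l hl => by
  obtain ⟨A, h1, h2, h3⟩ := herm_nd hΦ hε hg (Multiset.singleton_le.2 h)
    (by rw [Multiset.map_singleton, dual_lin_norm hc])
  obtain ⟨⟨v, hv⟩, h4, h5⟩ := finrank_eq_one_iff'.1 (h1.trans (by simp))
  obtain ⟨w, hw, h6⟩ := nondeg_restrict_iff'.1 h2 v hv fun e => h4 (Subtype.ext e)
  obtain ⟨a, ha⟩ := h5 ⟨w, hw⟩
  obtain ⟨b, hb⟩ := h5 ⟨_, h3 v hv⟩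
  replace hb : g v = b • v := (congrArg Subtype.val hb).symm
  have h7 : Φ.B v v ≠ 0 := fun e => h6 (by
    rw [show w = a • v from (congrArg Subtype.val ha).symm, map_smul, e, smul_zero])
  have h8 : conj hF (Φ.B v v) = Φ.B v v := by simpa [hε] using (Φ.symm v v).symm
  have h9 : conj hF b * b = 1 := mul_right_cancel₀ h7 (by
    have := hg.B v v
    rw [hb, B_smul_left, B_smul_right] at this
    linear_combination this)
  refine ⟨Φ.qrefl v ((l - 1) / Φ.B v v), SMu.pres (Or.inl (kappa_of_ne (conj_ne_id hF)))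
    fun x y => (Φ.qrefl_B ?_ x y).trans (one_mul _).symm, LinearMap.ext fun x => ?_, ?_⟩
  · rw [hε, map_div₀, h8, map_sub, map_one, conj_apply]
    field_simp
    linear_combination hl
  · have := hg.B v x
    rw [hb, B_smul_left] at this
    simp only [End.mul_apply, qrefl_apply, map_add, map_smul, hb, smul_smul]
    congr 2
    linear_combination (l - 1) / Φ.B v v * (b * this - Φ.B v (g x) * h9)
  · rw [det_qrefl]; field_simp; ring

theorem cd_of_hyp [Nontrivial V] (hΦ : Φ.Nondeg) (hg : Pres Φ g) (hs : SS g)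
    (h : ed g = s + s.map (dual (conj hF))) : CD Φ g := fun l hl => by
  have h0 : ∀ p ∈ s, p ∈ ed g := fun p hp => by simp [h, hp]
  obtain ⟨A, B, hA, hB, h1, h2, h3, h4, h5⟩ := (uq_herm (conj_ne_id hF) hΦ hg).exists_ts
    (fun p hp => ed_isPP (h0 p hp)) (fun p hp => ed_coeff_ne hΦ hg p (h0 p hp)) (rs_zero Φ)
    (h.trans (add_zero _).symm)
  have h6 : finrank F V = 2 * finrank F A := by
    rw [finrank_eq_sum_ed hA, h4, ← sum_natDegree_ed g, h, Multiset.map_add, Multiset.sum_add,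
      Multiset.map_map, two_mul]
    congr 2
    exact Multiset.map_congr rfl fun p hp => natDegree_dual _ (ed_coeff_ne hΦ hg p (h0 p hp))
  have hc : IsCompl A B := ⟨h3, codisjoint_iff.2 (Submodule.eq_top_of_finrank_eq (by
    have := Submodule.finrank_sup_add_finrank_inf_eq A B
    rw [h3.eq_bot, finrank_bot] at this
    omega))⟩
  obtain ⟨x, hx, rfl⟩ := exists_eq_pow_pred hF hl
  obtain ⟨p, hp⟩ := Multiset.exists_mem_of_ne_zero (s := s) (by
    rintro rfl
    have := finrank_pos (R := F) (M := V)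
    rw [h6, finrank_eq_sum_ed hA, h4] at this
    simp at this)
  obtain ⟨φ, h7, h8⟩ := exists_comm_det_of_irred (h4 ▸ hp : p ∈ ed (g.restrict hA))
    (hs p (h0 p hp)) x⁻¹
  obtain ⟨k, h9, h10⟩ := exists_pair_map hΦ h1 h2 hc h1 h2 hc
    (LinearMap.equivOfDetNeZero φ (h8 ▸ inv_ne_zero hx))
  replace h9 : ∀ x : A, k.1 x = φ x := h9
  have h11 : ∀ x ∈ A, k.1.toLinearMap x ∈ A := fun x hx => (h9 ⟨x, hx⟩).symm ▸ (φ ⟨x, hx⟩).2
  have h12 := ed_of_polar hΦ (pres_O k) h11 (map_le_iff_inv.1 h10.le) hc h1.1 h2.1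
  have h13 : ∀ a ∈ A, k.1 (g a) = g (k.1 a) := fun a ha => by
    rw [h9 ⟨_, hA a ha⟩, h9 ⟨a, ha⟩]
    exact congrArg Subtype.val (LinearMap.congr_fun h7 ⟨a, ha⟩)
  refine ⟨k.1, pres_O k, ?_, ?_⟩
  · refine LinearMap.ext fun v => ?_
    obtain ⟨a, ha, b, hb, rfl⟩ := Submodule.mem_sup.1 (hc.sup_eq_top.ge (Submodule.mem_top (x := v)))
    have h14 : k.1 (g b) = g (k.1 b) := sub_eq_zero.1 (hΦ _ fun w => by
      obtain ⟨w, rfl⟩ : ∃ w', k.1 (g w') = w := by
        obtain ⟨w1, rfl⟩ := k.1.surjective w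
        obtain ⟨w2, rfl⟩ := (hg.toO hΦ).1.surjective w1
        exact ⟨w2, rfl⟩
      obtain ⟨a', ha', b', hb', rfl⟩ :=
        Submodule.mem_sup.1 (hc.sup_eq_top.ge (Submodule.mem_top (x := w)))
      have e1 := (map_le_iff_inv.1 h10.le)
      have e2 := h2.1 _ (sub_mem (e1 _ (hB b hb)) (hB _ (e1 b hb))) _ (e1 _ (hB b' hb'))
      rw [map_add, map_add, map_add]
      erw [e2]
      rw [map_sub, LinearMap.sub_apply, k.2.1, h13 a' ha', hg.B, hg.B, k.2.1, sub_self, add_zero])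
    simp only [End.mul_apply, map_add, LinearEquiv.coe_coe, h13 a ha, h14]
  · rw [det_of_dual h12 fun p hp => ed_coeff_ne hΦ (pres_O k) p (by simp [h12, hp]),
      show k.1.toLinearMap.restrict h11 = φ from LinearMap.ext fun x => Subtype.ext (h9 x), h8,
      conj_apply, inv_pow, inv_inv]
    obtain ⟨t, rfl⟩ : ∃ t, q = t + 1 := ⟨q - 1, by have := two_le_of_card_eq_sq hF; omega⟩
    simp [pow_succ', hx]

theorem of_all_su {H : Subgroup (GL (Fin n) F)}
    (h : ∀ g, Pres (huForm hF n) g → LinearMap.det g = 1 → (∃ z : F, g ^ r = z • (1 : End F _)) →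
      (∀ z : F, g ≠ z • (1 : End F _)) → CD (huForm hF n) g ∧ EP (huForm hF n) H g) :
    ∀ x ∈ Cfsg.GU n F q ⊓ specialLinear (Fin n) F,
      (∃ z : F, (x ^ r).1 = z • (1 : Matrix (Fin n) (Fin n) F)) →
      (∀ z : F, x.1 ≠ z • (1 : Matrix (Fin n) (Fin n) F)) →
      ∃ g ∈ Cfsg.GU n F q ⊓ specialLinear (Fin n) F, g⁻¹ * x * g ∈ H := fun x h1 h2 h3 => by
  have hΦ := huForm_nondeg hF n
  obtain ⟨h4, y, h5, h6, h7⟩ := (gl_forall_iff (r := r)
    (C := fun g => Pres (huForm hF n) g ∧ LinearMap.det g = 1) (mem_SU_pres hF)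
    (fun _ h => inj_of_det h.2) (R := fun x => CD (huForm hF n) (toLin' x.1) ∧ EP (huForm hF n) H (toLin' x.1))
    (fun g => CD (huForm hF n) g ∧ EP (huForm hF n) H g) fun _ _ => Iff.rfl).2 (fun g hg => h g hg.1 hg.2) x h1 h2 h3
  obtain ⟨P, h8, h9⟩ := (conj_mem_iff (mem_GU_pres hF) h1.1).2 ⟨y, h5, h6,
    iso_herm (conj_ne_id hF) hΦ hΦ rfl h6 ((mem_GU_pres hF x).1 h1.1) h7⟩
  have h10 := det_norm hΦ ((mem_GU_pres hF P).1 h8)
  obtain ⟨k, h11, h12, h13⟩ := h4 (LinearMap.det (toLin' P.1))⁻¹ (by rw [inv_pow, h10, inv_one])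
  obtain ⟨k, rfl⟩ := exists_GL_of_inj (g := k) (h11.toO hΦ).1.injective
  have h14 : k * x = x * k := Units.ext (toLin'.injective (by simp only [Units.val_mul, toLin'_mul]; exact h12))
  refine ⟨k * P, ⟨mul_mem ((mem_GU_pres hF k).2 h11) h8, (mem_SL_iff _).2 ?_⟩, ?_⟩
  · rw [Units.val_mul, toLin'_mul, LinearMap.det_comp, h13, inv_mul_cancel₀]
    intro e; simp [e] at h10
  · rwa [show (k * P)⁻¹ * x * (k * P) = P⁻¹ * x * P by
      rw [mul_assoc, ← mul_assoc x, ← h14]; group]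

end Herm

end H16.NX
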