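import Cfsg.Agent.H16.NX1
import Cfsg.Agent.H23.Ex6

/-! The normalizer of an extraspecial group of order 27 in dimension three. -/

set_option autoImplicit false

namespace H16.NX

open Module Polynomial H23 H23.Form H14.Wall Matrix Cfsg.Geo
open H23.As (cj cj_val cj_eq_iff cj_apply sc sc_val tr TrF trace_cj)

universe u

section Gen

variable {ι : Type} [Fintype ι] [DecidableEq ι] {F : Type u} [Field F] {A : Matrix ι ι F}

theorem edM_diagonal (d : ι → F) : edM (diagonal d) = linM (Finset.univ.val.map d) := by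
  rw [edM, show toLin' (diagonal d) = piE fun i => d i • (1 : End F F) from
    LinearMap.ext fun x => funext fun i => by simp [mulVec_diagonal], ed_piE]
  simp only [ed_scalar, finrank_self, Multiset.replicate_one, linM, Multiset.map_map]
  rw [← Multiset.sum_map_singleton (Multiset.map _ _), Multiset.map_map]
  rfl

theorem trace_linM {t : Multiset F} (h : edM A = linM t) : A.trace = t.sum := by
  have h1 : A.charpoly = (t.map fun a => X - C a).prod := by rw [charpoly_eq_prod_edM, h]; rfl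
  rw [trace_eq_sum_roots_charpoly_of_splits (h1 ▸ Splits.multisetProd fun f hf => by
    obtain ⟨a, -, rfl⟩ := Multiset.mem_map.1 hf
    exact Splits.X_sub_C a), h1, roots_multiset_prod_X_sub_C]

theorem edM_cj (P : GL ι F) (A : Matrix ι ι F) : edM (cj P A) = edM A := edM_conj P A

theorem exists_cj (P : GL ι F) (h : A.det ≠ 0) : ∃ y : GL ι F, y.1 = cj P A :=
  ⟨_, (cj_val P (.mkOfDetNeZero A h)).symm⟩

theorem ed_invol (h2 : (2 : F) ≠ 0) (h : A * A = 1) : ∃ a b, a + b = Fintype.card ι ∧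
    edM A = Multiset.replicate a (X - C 1) + Multiset.replicate b (X - C (-1)) ∧
      A.trace = a - b ∧ (a = 0 → A = -1) := by
  have h1 : toLin' A ^ 2 = (1 : F) ^ 2 • (1 : End F (ι → F)) := toLin'_pow_eq (by simp [_root_.sq, h])
  obtain ⟨a, b, h3⟩ := exists_rep_of_mem' (mem_ed_sq h1 (ss_of_pow h2 (by simp) h1))
  refine ⟨a, b, by simpa [h3, -map_neg, -map_one] using sum_natDegree_ed (toLin' A), h3,
    by rw [trace_linM (h3.trans (linM_rep a b _ _).symm)]; simp [sub_eq_add_neg], fun e => ?_⟩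
  have := (eq_smul_iff_ed (toLin' A) (-1)).2 fun q hq => by
    rw [h3, e] at hq
    exact Multiset.eq_of_mem_replicate (by simpa [-map_neg, -map_one] using hq)
  simpa using (toLin'_eq_smul_iff _ _).1 this

theorem smGL_mem_norm {R : Subgroup (GL ι F)} (y : GL ι F) (hy : y ∈ subgroupNormalizer R) (c : F)
    (hc : c ≠ 0) : smGL c hc y ∈ subgroupNormalizer R := fun u => by
  rw [show smGL c hc y * u * (smGL c hc y)⁻¹ = y * u * y⁻¹ from
    mul_inv_eq_iff_eq_mul.2 (Units.ext (by simp [mul_assoc]))]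
  exact hy u

end Gen

section Three

variable {F : Type u} [Field F] {ω : F} {R : Subgroup (GL (Fin 3) F)} {P a b : GL (Fin 3) F}

theorem comm_of_card {G : Type*} [Group G] (h : Nat.card G ∣ 9) (x y : G) : x * y = y * x := by
  have : Fact (Nat.Prime 3) := ⟨by norm_num⟩
  obtain ⟨k, h1, h2⟩ := (Nat.dvd_prime_pow (p := 3) (m := 2) (by norm_num)).1 h
  by_cases h3 : k = 2
  · exact (IsPGroup.isMulCommutative_of_card_eq_prime_sq (p := 3) (h3 ▸ h2)).is_comm.comm x y
  · have := isCyclic_of_card_dvd_prime (α := G) (p := 3) (by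
      obtain rfl | rfl : k = 0 ∨ k = 1 := by omega
      all_goals simp [h2])
    exact mul_comm' x y

theorem es_pair' (hc : Nat.card R = 27) (he : Monoid.exponent R = 3) (hn : ¬ IsMulCommutative R)
    (hω : ω ^ 2 + ω + 1 = 0) (h3 : (3 : F) ≠ 0) : ∃ x ∈ R, ∃ y ∈ R,
      x.1 * y.1 = ω • (y.1 * x.1) ∧ x.1 ^ 3 = 1 ∧ y.1 ^ 3 = 1 := by
  have : Fact (Nat.Prime 3) := ⟨by norm_num⟩
  have a1 : ∀ r : R, r.1.1 ^ 3 = 1 := fun r =>
    congrArg (fun g : R => g.1.1) (he ▸ Monoid.pow_exponent_eq_one r)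
  obtain ⟨x, y, a2⟩ : ∃ x y : R, x * y ≠ y * x := by
    by_contra! a2
    exact hn ⟨⟨a2⟩⟩
  obtain ⟨k, a3, a4⟩ := IsPGroup.card_center_eq_prime_pow (G := R) (p := 3) (n := 3) hc (by omega)
  have a5 := comm_of_card (G := R ⧸ Subgroup.center R) (by
    have := Subgroup.card_eq_card_quotient_mul_card_subgroup (Subgroup.center R)
    obtain ⟨k, rfl⟩ := Nat.exists_eq_add_of_le' a3
    rw [hc, a4, pow_succ] at this
    exact ⟨3 ^ k, by rw [← mul_assoc] at this; omega⟩) y x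
  have a6 := Subgroup.mem_center_iff.1 (QuotientGroup.eq.1 (show ((y * x : R) :
    R ⧸ Subgroup.center R) = (x * y : R) from a5))
  obtain ⟨c, hc⟩ : ∃ c, c = (y * x)⁻¹ * (x * y) := ⟨_, rfl⟩
  rw [← hc] at a6
  have a7 : x.1.1 * y.1.1 = c.1.1 * (y.1.1 * x.1.1) :=
    congrArg (fun g : R => g.1.1) (show x * y = c * (y * x) by rw [← a6, hc]; group)
  have w0 : ω ^ 3 = 1 := by linear_combination (ω - 1) * hω
  have key : ∀ e : F, e ≠ 1 → e ^ 3 = 1 → (c.1.1 - e • 1).det = 0 → c.1.1 = e • 1 := by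
    intro e e1 e3 e0
    let E := LinearMap.ker (toLin' (c.1.1 - e • 1))
    have b1 : ∀ v, v ∈ E ↔ c.1.1 *ᵥ v = e • v := fun v => by
      simp [E, sub_eq_zero]
    have b2 : ∀ r : R, ∀ v ∈ E, toLin' r.1.1 v ∈ E := fun r v hv => (b1 _).2 (by
      rw [toLin'_apply, mulVec_mulVec, show c.1.1 * r.1.1 = r.1.1 * c.1.1 from
        congrArg (fun g : R => g.1.1) (a6 r).symm, ← mulVec_mulVec, (b1 v).1 hv, mulVec_smul])
    have b3 : ∀ r : R, LinearMap.det ((toLin' r.1.1).restrict (b2 r)) ≠ 0 := fun r e => by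
      have := congrArg LinearMap.det (restrict_pow_eq (b2 r) (toLin'_pow_eq (z := 1) (k := 3)
        (by simp [a1 r])))
      simp [e] at this
    have b4 : (toLin' x.1.1).restrict (b2 x) * (toLin' y.1.1).restrict (b2 y) =
        e • ((toLin' y.1.1).restrict (b2 y) * (toLin' x.1.1).restrict (b2 x)) :=
      LinearMap.ext fun v => Subtype.ext (by
        change x.1.1 *ᵥ y.1.1 *ᵥ v.1 = e • y.1.1 *ᵥ x.1.1 *ᵥ v.1
        rw [mulVec_mulVec, a7, ← mulVec_mulVec, ← mulVec_mulVec]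
        exact (b1 _).1 (b2 y _ (b2 x _ v.2)))
    have b5 := congrArg LinearMap.det b4
    rw [LinearMap.det_smul, map_mul, map_mul, mul_comm, eq_comm, mul_eq_right₀
      (mul_ne_zero (b3 y) (b3 x))] at b5
    have b6 : finrank F E ≤ 3 := by simpa using E.finrank_le
    have b7 : finrank F E ≠ 0 := fun e => by
      obtain ⟨v, v0, hv⟩ := exists_mulVec_eq_zero_iff.2 e0
      exact v0 ((Submodule.finrank_eq_zero.1 e).le (show v ∈ E from hv))
    obtain h | h | h : finrank F E = 1 ∨ finrank F E = 2 ∨ finrank F E = 3 := by omega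
    · exact absurd (by simpa [h] using b5) e1
    · rw [h] at b5
      exact absurd (by linear_combination e3 - e * b5) e1
    · exact sub_eq_zero.1 (toLin'.injective ((LinearMap.ker_eq_top.1
        (Submodule.eq_top_of_finrank_eq (by simpa using h))).trans (map_zero _).symm))
  have w1 : ω ≠ 1 := by rintro rfl; exact h3 (by linear_combination hω)
  have w2 : ω ^ 2 ≠ 1 := fun e => w1 (by linear_combination w0 - ω * e)
  by_cases b1 : (c.1.1 - ω • 1).det = 0
  · exact ⟨x, x.2, y, y.2, by rw [a7, key ω w1 w0 b1]; simp, a1 x, a1 y⟩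
  by_cases b2 : (c.1.1 - (ω ^ 2) • 1).det = 0
  · refine ⟨y, y.2, x, x.2, ?_, a1 y, a1 x⟩
    rw [a7, key _ w2 (by linear_combination (ω ^ 3 + 1) * w0) b2, smul_mul_assoc, one_mul,
      smul_smul, ← pow_succ', w0, one_smul]
  refine absurd ?_ a2
  have b3 : (c.1.1 - ω • 1) * (c.1.1 - (ω ^ 2) • 1) * (c.1.1 - 1) = 0 := by
    have := a1 c
    simp only [mul_sub, sub_mul, smul_mul_assoc, mul_smul_comm, one_mul, mul_one,
      pow_succ, pow_zero] at this ⊢
    rw [this]
    match_scalars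
    · linear_combination -w0
    · linear_combination -hω
    · linear_combination hω + w0
  have b4 : IsUnit ((c.1.1 - ω • 1) * (c.1.1 - (ω ^ 2) • 1)) :=
    (isUnit_iff_isUnit_det _).2 (by rw [det_mul]; exact (mul_ne_zero b1 b2).isUnit)
  rw [b4.mul_right_eq_zero, sub_eq_zero] at b3
  exact Subtype.ext (Units.ext (by simpa [b3] using a7))

theorem es_basis (hω : ω ^ 2 + ω + 1 = 0) (h3 : (3 : F) ≠ 0) {x y : Matrix (Fin 3) (Fin 3) F}
    (h : x * y = ω • (y * x)) (x3 : x ^ 3 = 1) (y3 : y ^ 3 = 1) : ∃ P : GL (Fin 3) F,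
      x = cj P !![1, 0, 0; 0, ω, 0; 0, 0, ω ^ 2] ∧ y = cj P !![0, 0, 1; 1, 0, 0; 0, 1, 0] := by
  have a0 : ∀ v, x *ᵥ y *ᵥ v = ω • y *ᵥ x *ᵥ v := fun v => by
    rw [mulVec_mulVec, h, smul_mulVec, mulVec_mulVec]
  have x4 : ∀ v, x *ᵥ x *ᵥ x *ᵥ v = v := fun v => by
    rw [mulVec_mulVec, mulVec_mulVec, ← _root_.sq, ← pow_succ, x3, one_mulVec]
  have y4 : ∀ v, y *ᵥ y *ᵥ y *ᵥ v = v := fun v => by
    rw [mulVec_mulVec, mulVec_mulVec, ← _root_.sq, ← pow_succ, y3, one_mulVec]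
  have w1 : ω ≠ 1 := by rintro rfl; exact h3 (by linear_combination hω)
  have w2 : ω ^ 2 ≠ 1 := fun e => w1 (by linear_combination (ω - 1) * hω - ω * e)
  have w3 : ω ≠ ω ^ 2 := fun e => w1 (mul_left_cancel₀ (a := ω) (by rintro rfl; simp at hω)
    (by linear_combination -e))
  obtain ⟨v, v0, hv⟩ : ∃ v ≠ 0, x *ᵥ v = v := by
    by_contra! a1
    have a2 : ∀ w, w + x *ᵥ w + x *ᵥ x *ᵥ w = 0 := fun w => by_contra fun e =>
      a1 _ e (by simp only [mulVec_add, x4]; abel)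
    have a3 := congrArg (y *ᵥ y *ᵥ ·) (a2 (y *ᵥ Pi.single 0 1))
    have a4 := congrArg (y *ᵥ ·) (a2 (y *ᵥ y *ᵥ Pi.single 0 1))
    simp only [a0, mulVec_add, mulVec_smul, y4, mulVec_zero] at a3 a4
    have a5 := congrFun (a2 (Pi.single 0 1)) 0
    replace a3 := congrFun a3 0
    replace a4 := congrFun a4 0
    simp only [Pi.add_apply, Pi.smul_apply, smul_eq_mul, Pi.zero_apply, Pi.single_eq_same] at a3 a4 a5
    exact h3 (by linear_combination a3 + a4 + a5 - ((x *ᵥ Pi.single 0 1) 0 +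
      (ω ^ 2 - ω + 1) * (x *ᵥ x *ᵥ Pi.single 0 1) 0) * hω)
  have b1 : x *ᵥ y *ᵥ v = ω • y *ᵥ v := by rw [a0, hv]
  have b2 : x *ᵥ y *ᵥ y *ᵥ v = ω ^ 2 • y *ᵥ y *ᵥ v := by
    rw [a0, b1, mulVec_smul, smul_smul, _root_.sq]
  let P := (of ![v, y *ᵥ v, y *ᵥ y *ᵥ v])ᵀ
  have c1 : IsUnit P := linearIndependent_cols_iff_isUnit.1 (Module.End.eigenvectors_linearIndependent'
    (toLin' x) ![1, ω, ω ^ 2] (by
      intro i j; fin_cases i <;> fin_cases j <;> simp [w1, w2, w3, w1.symm, w2.symm, w3.symm]) _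
      fun i => ⟨Module.End.mem_eigenspace_iff.2 (by
        fin_cases i; exacts [hv.trans (one_smul F v).symm, b1, b2]),
        fun e => v0 (by
          fin_cases i
          exacts [e, by rw [← y4 v, show y *ᵥ v = 0 from e]; simp,
            by rw [← y4 v, show y *ᵥ y *ᵥ v = 0 from e]; simp])⟩)
  refine ⟨c1.unit, (cj_eq_iff.2 ?_).symm, (cj_eq_iff.2 ?_).symm⟩ <;>
    change P * _ = _ * P <;> ext i j
  · fin_cases j
    exacts [Eq.trans (by simp [P, mul_apply, Fin.sum_univ_three]) (congrFun hv i).symm,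
      Eq.trans (by simp [P, mul_apply, Fin.sum_univ_three, mul_comm]) (congrFun b1 i).symm,
      Eq.trans (by simp [P, mul_apply, Fin.sum_univ_three, mul_comm]) (congrFun b2 i).symm]
  · fin_cases j
    exacts [Eq.trans (b := (y *ᵥ v) i) (by simp [P, mul_apply, Fin.sum_univ_three]) rfl,
      Eq.trans (b := (y *ᵥ y *ᵥ v) i) (by simp [P, mul_apply, Fin.sum_univ_three]) rfl,
      Eq.trans (by simp [P, mul_apply, Fin.sum_univ_three]) (congrFun (y4 v) i).symm]

/-- normal form of an extraspecial group of order 27 -/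
structure N3 (R : Subgroup (GL (Fin 3) F)) (ω : F) (P a b : GL (Fin 3) F) : Prop where
  card : Nat.card R = 27
  om : ω ^ 2 + ω + 1 = 0
  three : (3 : F) ≠ 0
  ha : a ∈ R
  hb : b ∈ R
  ea : a.1 = cj P !![1, 0, 0; 0, ω, 0; 0, 0, ω ^ 2]
  eb : b.1 = cj P !![0, 0, 1; 1, 0, 0; 0, 1, 0]

namespace N3

variable (h : N3 R ω P a b)
include h

theorem w0 : ω ^ 3 = 1 := by linear_combination (ω - 1) * h.om

theorem w1 : ω ≠ 1 := by rintro rfl; exact h.three (by linear_combination h.om)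

theorem fin : Finite R := Nat.finite_of_card_ne_zero (by simp [h.card])

theorem comm : a.1 * b.1 = ω • (b.1 * a.1) := by
  rw [h.ea, h.eb, ← map_mul (cj P), ← map_mul (cj P), ← map_smul (cj P)]
  congr 1
  ext i j
  fin_cases i <;> fin_cases j <;> simp [mul_apply, Fin.sum_univ_three]
  · linear_combination -h.w0
  · ring

theorem om_mem : ∃ z ∈ R, z.1 = ω • (1 : Matrix (Fin 3) (Fin 3) F) :=
  ⟨a * b * (b * a)⁻¹, mul_mem (mul_mem h.ha h.hb) (inv_mem (mul_mem h.hb h.ha)), by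
    rw [Units.val_mul, Units.val_mul, h.comm, smul_mul_assoc, ← Units.val_mul, Units.mul_inv]⟩

theorem le_of {K : Subgroup (GL (Fin 3) F)} (h1 : a ∈ K) (h2 : b ∈ K) : R ≤ K := by
  have := h.fin
  have h3 := Subgroup.card_dvd_of_le (inf_le_left : R ⊓ K ≤ R)
  rw [h.card] at h3
  obtain ⟨k, h4, h5⟩ := (Nat.dvd_prime_pow (p := 3) (m := 3) (by norm_num)).1 h3
  by_cases h6 : k = 3
  · exact (Subgroup.eq_of_le_of_card_ge (inf_le_left : R ⊓ K ≤ R)
      (by rw [h5, h6, h.card]; rfl)).ge.trans inf_le_right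
  have h7 := congrArg (fun g : (R ⊓ K : Subgroup _) => g.1.1) (comm_of_card (G := (R ⊓ K : Subgroup _))
    (h5 ▸ pow_dvd_pow 3 (show k ≤ 2 by omega)) ⟨a, h.ha, h1⟩ ⟨b, h.hb, h2⟩)
  have h8 := congrArg (· * (b * a)⁻¹.1) (h7.symm.trans h.comm)
  simp only [smul_mul_assoc, ← Units.val_mul, Subgroup.coe_mul, mul_inv_cancel] at h8
  exact absurd (by simpa using (congrFun (congrFun h8 0) 0).symm) h.w1

theorem mem_norm {g a' b' : GL (Fin 3) F} (h1 : a' ∈ R) (h2 : b' ∈ R) (h3 : g.1 * a.1 = a'.1 * g.1)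
    (h4 : g.1 * b.1 = b'.1 * g.1) : g ∈ subgroupNormalizer R := by
  have := h.fin
  refine Subgroup.mem_normalizer_fintype (S := (R : Set _)) fun u hu =>
    (show u ∈ R.comap (MulAut.conj g).toMonoidHom from h.le_of ?_ ?_ hu)
  · change g * a * g⁻¹ ∈ R
    rwa [show g * a = a' * g from Units.ext h3, mul_inv_cancel_right]
  · change g * b * g⁻¹ ∈ R
    rwa [show g * b = b' * g from Units.ext h4, mul_inv_cancel_right]

theorem root {s : F} (hs : s ^ 3 = 1) : ∃ i, s = ω ^ i := by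
  have : (s - 1) * (s - ω) * (s - ω ^ 2) = 0 := by
    linear_combination hs - (s ^ 2 - s) * h.om + (s - 1) * h.w0
  rcases mul_eq_zero.1 this with e | e
  · rcases mul_eq_zero.1 e with e | e
    exacts [⟨0, by simpa [sub_eq_zero] using e⟩, ⟨1, by simpa [sub_eq_zero] using e⟩]
  · exact ⟨2, sub_eq_zero.1 e⟩

theorem diag_mem {s t : F} (hs : s ^ 3 = 1) (ht : t ^ 3 = 1) :
    ∃ u ∈ R, u.1 = cj P (diagonal ![s, s * t, s * t ^ 2]) := by
  obtain ⟨i, rfl⟩ := h.root hs
  obtain ⟨j, rfl⟩ := h.root ht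
  obtain ⟨z, h1, h2⟩ := h.om_mem
  refine ⟨z ^ i * a ^ j, mul_mem (pow_mem h1 i) (pow_mem h.ha j), ?_⟩
  rw [Units.val_mul, Units.val_pow_eq_pow_val, Units.val_pow_eq_pow_val, h2, h.ea, ← map_pow (cj P),
    _root_.smul_pow, one_pow, smul_mul_assoc, one_mul, ← map_smul (cj P),
    show !![1, 0, 0; 0, ω, 0; 0, 0, ω ^ 2] = diagonal ![1, ω, ω ^ 2] by
      ext i j; fin_cases i <;> fin_cases j <;> simp, diagonal_pow, ← diagonal_smul]
  congr 2
  ext k
  fin_cases k <;> simp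
  left; ring

theorem diag {d : Fin 3 → F} (hd : ∀ i, d i ^ 3 = 1) :
    ∃ y ∈ subgroupNormalizer R, y.1 = cj P (diagonal d) := by
  have h0 : ∀ i, d i ≠ 0 := fun i e => by simpa [e] using hd i
  obtain ⟨y, hy⟩ := exists_cj P (A := diagonal d) (by simp [Finset.prod_eq_zero_iff, h0])
  obtain ⟨u, h1, h2⟩ := h.diag_mem (s := d 1 * d 0 ^ 2) (t := d 0 * d 1 * d 2)
    (by rw [mul_pow, ← pow_mul, mul_comm 2, pow_mul, hd, hd]; simp) (by simp [mul_pow, hd])
  refine ⟨y, h.mem_norm h.ha (mul_mem h.hb h1) ?_ ?_, hy⟩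
  · rw [hy, h.ea, ← map_mul (cj P), ← map_mul (cj P)]
    congr 1
    ext i j
    fin_cases i <;> fin_cases j <;> simp [mul_comm]
  · rw [Units.val_mul, hy, h.eb, h2, ← map_mul (cj P), ← map_mul (cj P), ← map_mul (cj P)]
    congr 1
    have := hd 0
    have := hd 1
    have := hd 2
    clear hy h2 hd h0
    ext i j
    fin_cases i <;> fin_cases j <;> simp [vecMul_diagonal] <;> grind

theorem invol : ∃ y ∈ subgroupNormalizer R, y.1 = cj P !![1, 0, 0; 0, 0, 1; 0, 1, 0] := by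
  obtain ⟨y, hy⟩ := exists_cj P (A := !![1, 0, 0; 0, 0, 1; 0, 1, 0]) (by simp [det_fin_three])
  refine ⟨y, h.mem_norm (mul_mem h.ha h.ha) (mul_mem h.hb h.hb) ?_ ?_, hy⟩
  · rw [Units.val_mul, hy, h.ea, ← map_mul (cj P), ← map_mul (cj P), ← map_mul (cj P)]
    congr 1
    have := h.w0
    ext i j
    fin_cases i <;> fin_cases j <;> simp <;> grind
  · rw [Units.val_mul, hy, h.eb, ← map_mul (cj P), ← map_mul (cj P), ← map_mul (cj P)]
    congr 1
    ext i j
    fin_cases i <;> fin_cases j <;> simp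

theorem le_SL : R ≤ specialLinear (Fin 3) F := by
  have := h.w0
  refine h.le_of (Units.ext ?_) (Units.ext ?_)
  · change a.1.det = 1
    rw [h.ea, cj_apply, det_units_conj]; simp [det_fin_three]; grind
  · change b.1.det = 1
    rw [h.eb, cj_apply, det_units_conj]; simp [det_fin_three]

theorem scalar {M : Matrix (Fin 3) (Fin 3) F} (h1 : M * a.1 = a.1 * M) (h2 : M * b.1 = b.1 * M) :
    ∃ c : F, M = c • 1 := by
  obtain ⟨M, rfl⟩ := (cj P).surjective M
  rw [h.ea, ← map_mul (cj P), ← map_mul (cj P), (cj P).injective.eq_iff] at h1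
  rw [h.eb, ← map_mul (cj P), ← map_mul (cj P), (cj P).injective.eq_iff] at h2
  refine ⟨M 0 0, ?_⟩
  rw [← map_one (cj P), ← map_smul (cj P)]
  congr 1
  have e1 := congrFun (congrFun h1 0) 1
  have e2 := congrFun (congrFun h1 1) 0
  have e3 := congrFun (congrFun h2 0)
  have e4 := congrFun (congrFun h2 1)
  have e5 := congrFun (congrFun h2 2)
  simp only [Fin.forall_fin_succ, mul_apply, Fin.sum_univ_three] at e1 e2 e3 e4 e5
  simp at e1 e2 e3 e4 e5
  have := h.w1
  ext i j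
  fin_cases i <;> fin_cases j <;> simp <;> grind

theorem not_norm {y : GL (Fin 3) F} {r : ℕ} (hr : r.Prime) (h5 : 5 ≤ r)
    (hy : y ∈ subgroupNormalizer R) (h1 : y ^ r = 1) : ∃ c : F, y.1 = c • 1 := by
  have := h.fin
  have h2 := card_modEq_fix (H := R) hr (fun u hu => (hy u).1 hu) (by simp [h1])
  have h3 := Subgroup.card_dvd_of_le (inf_le_left : R ⊓ Subgroup.centralizer {y} ≤ R)
  rw [h.card] at h2 h3
  obtain ⟨k, h4, h6⟩ := (Nat.dvd_prime_pow (p := 3) (m := 3) (by norm_num)).1 h3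
  have h7 : k ≠ 0 := by
    rintro rfl
    obtain ⟨z, h8, h9⟩ := h.om_mem
    have h10 : z ∈ R ⊓ Subgroup.centralizer {y} :=
      ⟨h8, Subgroup.mem_centralizer_singleton_iff.2 (Units.ext (by simp [h9]))⟩
    rw [Subgroup.card_eq_one.1 h6, Subgroup.mem_bot] at h10
    exact h.w1 (by simpa [h10] using (congrFun (congrFun h9 0) 0).symm)
  have h8 : k = 3 := by
    by_contra h8
    have h9 : r ∣ 72 := by
      obtain rfl | rfl : k = 1 ∨ k = 2 := by omega
      all_goals
        rw [h6] at h2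
        exact ((Nat.modEq_iff_dvd' (by norm_num)).1 h2.symm).trans (by norm_num)
    rw [show 72 = 2 ^ 3 * 3 ^ 2 by rfl, hr.dvd_mul] at h9
    rcases h9 with e | e <;> have := Nat.le_of_dvd (by norm_num) (hr.dvd_of_dvd_pow e) <;> omega
  have h9 := (Subgroup.eq_of_le_of_card_ge (inf_le_left : R ⊓ Subgroup.centralizer {y} ≤ R)
    (by rw [h6, h8, h.card]; rfl)).ge.trans inf_le_right
  exact h.scalar (congrArg Units.val (Subgroup.mem_centralizer_singleton_iff.1 (h9 h.ha)).symm)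
    (congrArg Units.val (Subgroup.mem_centralizer_singleton_iff.1 (h9 h.hb)).symm)

end N3

end Three

end H16.NX
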