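import Cfsg.Agent.H16.NX2

/-! Elements of prime order and the normalizer of `3^(1+2)` in dimension three. -/

set_option autoImplicit false

namespace H16.NX

open Module Polynomial H23 H23.Form H14.Wall Matrix Cfsg.Geo
open H23.As (cj cj_val cj_eq_iff cj_apply sc sc_val tr TrF trace_cj)

universe u

section Gen

variable {ι : Type} [Fintype ι] [DecidableEq ι] {F : Type u} [Field F] {A : Matrix ι ι F}
  {σ : F →+* F} {Φ : Form σ (ι → F)} {R G : Subgroup (GL ι F)} {g : End F (ι → F)} {r : ℕ}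

theorem edM_invol (p : ℕ) [hp : Fact p.Prime] [CharP F p] (h2 : (2 : F) ≠ 0)
    (hn : Fintype.card ι ≤ 4) (h : A * A = 1) (h1 : A ≠ 1) (h3 : A ≠ -1) {a b : ℕ} (ha : a ≠ 0)
    (hb : b ≠ 0) (hab : a + b = Fintype.card ι) (ht : A.trace = a - b) :
    edM A = Multiset.replicate a (X - C 1) + Multiset.replicate b (X - C (-1)) := by
  obtain ⟨a', b', h4, h5, h6, h7⟩ := ed_invol h2 h
  have h8 : b' ≠ 0 := fun e => h1 (by
    simpa using (eq_smul_iff_edM A 1).2 fun q hq => by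
      rw [h5, e] at hq
      exact Multiset.eq_of_mem_replicate (by simpa [-map_neg, -map_one] using hq))
  have h9 : (a' : F) + b' = a + b := by exact_mod_cast congrArg Nat.cast (h4.trans hab.symm)
  have h10 := (CharP.natCast_eq_natCast F p).1 (show (a' : F) = a from
    mul_left_cancel₀ h2 (by linear_combination h9 + ht - h6))
  have h11 : p ≠ 2 := by rintro rfl; exact h2 (CharP.cast_eq_zero F 2)
  have h12 := hp.out.two_le
  have h13 := mt h7 h3
  obtain rfl : a' = a := h10.eq_of_abs_lt (by rw [abs_lt]; omega)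
  rw [h5, show b' = b by omega]

theorem EP.of_smul_norm [Nonempty ι] (hΦ : Φ.Nondeg) (hk : Φ.κ = 0) (hg : Pres Φ g) {c : F}
    (hc : c ≠ 0) (h1 : Pres Φ (c • g)) (h : EP Φ (subgroupNormalizer R) (c • g)) :
    EP Φ (subgroupNormalizer R) g := by
  obtain ⟨y, h2, h3, h4⟩ := h
  have h5 := ((smu_of_pres hg).smul c).uniq hΦ (smu_of_pres h1)
  refine ⟨_, smGL_mem_norm y h2 _ (inv_ne_zero hc), ?_, ?_⟩
  · rw [smGL_val, map_smul]
    refine SMu.pres (Or.inl hk) ?_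
    convert (smu_of_pres h3).smul c⁻¹
    rw [map_inv₀, ← mul_inv, ← mul_one (σ c * c), h5]; simp
  · rw [smGL_val, edM, map_smul, ← inv_smul_smul₀ hc g]
    exact ((sim_of_ed_eq h4).smul c⁻¹).ed_eq

theorem not_all_of_order [Finite F] [Nonempty ι] {H : Subgroup (GL ι F)} (hr : r.Prime)
    (hΩ : r ∣ H.relIndex G) {k : ℕ} (hk : r.Coprime k)
    (h1 : ∀ x ∈ G, ∀ z : F, x.1 = z • 1 → z ^ k = 1)
    (h2 : ∀ y ∈ H, y ^ r = 1 → ∃ c : F, y.1 = c • 1) :
    ¬ ∀ x ∈ G, (∃ z : F, (x ^ r).1 = z • (1 : Matrix ι ι F)) →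
      (∀ z : F, x.1 ≠ z • (1 : Matrix ι ι F)) → ∃ g ∈ G, g⁻¹ * x * g ∈ H := fun h => by
  obtain ⟨x, h3, h4, h5⟩ := exists_order_of_relIndex hr hΩ
  have h6 : ∀ z : F, x.1 ≠ z • (1 : Matrix ι ι F) := fun z e => h5 (Units.ext (by
    have h7 := congrArg Units.val h4
    rw [Units.val_pow_eq_pow_val, e, _root_.smul_pow, one_pow, Units.val_one] at h7
    rw [e, eq_one_of_coprime hk (smul_left_injective F one_ne_zero
      (h7.trans (one_smul F _).symm)) (h1 x h3 z e), one_smul, Units.val_one]))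
  obtain ⟨g, -, h7⟩ := h x h3 ⟨1, by simp [h4]⟩ h6
  obtain ⟨c, h8⟩ := h2 _ h7 (by
    have := conj_pow (a := g⁻¹) (b := x) (i := r)
    rw [inv_inv] at this
    rw [this, h4]; simp)
  refine h6 c ?_
  rw [show x = g * (g⁻¹ * x * g) * g⁻¹ by group, Units.val_mul, Units.val_mul, h8]
  simp

theorem det_scalar {x : GL ι F} (hx : x ∈ specialLinear ι F) {z : F} (e : x.1 = z • 1) :
    z ^ Fintype.card ι = 1 := by
  have : x.1.det = 1 := congrArg Units.val hx
  simpa [e] using this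

end Gen

section Herm

variable {F : Type u} [Field F] [Fintype F] {q : ℕ} {hF : Fintype.card F = q ^ 2} {r n : ℕ}
  {R : Subgroup (GL (Fin n) F)}

theorem su_two [NeZero n] (h2 : (2 : F) ≠ 0)
    (hn : ∀ (c : F) a, c ^ (q + 1) = -1 → a + a = n → c ^ a * (-c) ^ a ≠ 1)
    (h : ∀ a b, a ≠ 0 → b ≠ 0 → a + b = n → ∃ y ∈ subgroupNormalizer R, y ∈ Cfsg.GU n F q ∧
      edM y.1 = Multiset.replicate a (X - C 1) + Multiset.replicate b (X - C (-1)))
    (g : End F (Fin n → F)) (hg : Pres (huForm hF n) g) (hd : LinearMap.det g = 1)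
    (hz : ∃ z : F, g ^ 2 = z • (1 : End F _)) (hs : ∀ z : F, g ≠ z • (1 : End F _)) :
    CD (huForm hF n) g ∧ EP (huForm hF n) (subgroupNormalizer R) g := by
  have hΦ := huForm_nondeg hF n
  obtain ⟨z, hz⟩ := hz
  obtain ⟨c, a, b, h3, h4, h5 | ⟨h5, rfl⟩⟩ := herm_sq_cases h2 hΦ hg hz
  swap
  · exact absurd ((det_of_lin h4).symm.trans hd) (hn c a h5 (by simpa using h3))
  have hc : c ≠ 0 := fun e => by simp [e] at h5
  have ha : a ≠ 0 := fun e => hs (-c) ((eq_smul_iff_ed g _).2 fun q hq => by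
    rw [h4, e] at hq
    exact Multiset.eq_of_mem_replicate (by simpa [-map_neg] using hq))
  have hb : b ≠ 0 := fun e => hs c ((eq_smul_iff_ed g _).2 fun q hq => by
    rw [h4, e] at hq
    exact Multiset.eq_of_mem_replicate (by simpa [-map_neg] using hq))
  obtain ⟨y, h6, h7, h8⟩ := h a b ha hb (by simpa using h3)
  refine ⟨cd_of_lin hΦ rfl hg h5 (by simp [h4, Multiset.mem_replicate, ha]),
    EP.of_smul_norm hΦ rfl hg (inv_ne_zero hc) (pres_smul_herm hg (by rw [inv_pow, h5, inv_one]))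
      ⟨y, h6, (mem_GU_pres hF y).1 h7, ?_⟩⟩
  rw [ed_smul_linM (h4.trans (linM_rep a b _ _).symm) (inv_ne_zero hc), Multiset.map_add,
    Multiset.map_replicate, Multiset.map_replicate, mul_neg, inv_mul_cancel₀ hc, linM_rep, h8]

theorem su_odd [NeZero n] [Fact r.Prime] (h2 : r ≠ 2)
    (hn : padicValNat r n ≤ padicValNat r (q + 1))
    (h : ∀ g, Pres (huForm hF n) g → g ^ r = 1 → g ≠ 1 →
      CD (huForm hF n) g ∧ EP (huForm hF n) (subgroupNormalizer R) g)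
    (g : End F (Fin n → F)) (hg : Pres (huForm hF n) g) (hd : LinearMap.det g = 1)
    (hz : ∃ z : F, g ^ r = z • (1 : End F _)) (hs : ∀ z : F, g ≠ z • (1 : End F _)) :
    CD (huForm hF n) g ∧ EP (huForm hF n) (subgroupNormalizer R) g := by
  have hΦ := huForm_nondeg hF n
  obtain ⟨z, hz⟩ := hz
  obtain ⟨c, h3, h4, h5⟩ | ⟨k, -, -, -, h3⟩ := herm_odd_cases hΦ h2 hg hd hz
  · obtain ⟨h6, h7⟩ := h _ h4 h5 fun e => hs c⁻¹ (by rw [← e, inv_smul_smul₀ h3])
    exact ⟨h6.of_smul h3, EP.of_smul_norm hΦ rfl hg h3 h4 h7⟩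
  · simp at h3; omega

end Herm

section Three

variable {F : Type u} [Field F] {ω : F} {R : Subgroup (GL (Fin 3) F)} {P a b : GL (Fin 3) F}

theorem exists_omega [Fintype F] (h : 3 ∣ Fintype.card F - 1) :
    ∃ ω : F, ω ^ 2 + ω + 1 = 0 := by
  obtain ⟨ω, -, h1⟩ := exists_orderOf_eq h
  have h2 := pow_orderOf_eq_one ω
  rw [h1] at h2
  exact ⟨ω, mul_left_cancel₀ (a := ω - 1) (fun e => by simp [sub_eq_zero.1 e] at h1)
    (by linear_combination h2)⟩

theorem N3.inv_ed (h : N3 R ω P a b) (p : ℕ) [Fact p.Prime] [CharP F p] (h2 : (2 : F) ≠ 0)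
    {k l : ℕ} (hk : k ≠ 0) (hl : l ≠ 0) (e : k + l = 3) : ∃ y ∈ subgroupNormalizer R, ∃ c : F,
      c * c = 1 ∧ y.1 = cj P (c • !![1, 0, 0; 0, 0, 1; 0, 1, 0]) ∧
      edM y.1 = Multiset.replicate k (X - C 1) + Multiset.replicate l (X - C (-1)) := by
  obtain ⟨y, h1, h3⟩ := h.invol
  obtain ⟨c, h4, h5⟩ : ∃ c : F, c * c = 1 ∧ c = k - l := by
    obtain ⟨rfl, rfl⟩ | ⟨rfl, rfl⟩ : (k = 1 ∧ l = 2) ∨ (k = 2 ∧ l = 1) := by omega
    exacts [⟨-1, by simp, by norm_num⟩, ⟨1, by simp, by norm_num⟩]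
  have hc : c ≠ 0 := left_ne_zero_of_mul_eq_one h4
  have h6 : (smGL c hc y).1 = cj P (c • !![1, 0, 0; 0, 0, 1; 0, 1, 0]) := by
    rw [smGL_val, h3, map_smul]
  refine ⟨_, smGL_mem_norm y h1 c hc, c, h4, h6, ?_⟩
  rw [h6, edM_cj]
  refine edM_invol p h2 (by simp) ?_ (fun e => ?_) (fun e => ?_) hk hl (by simpa using e)
    (by simp [trace_fin_three, h5])
  · ext i j
    fin_cases i <;> fin_cases j <;> simp [h4]
  · simpa using congrFun (congrFun e 1) 1
  · simpa using congrFun (congrFun e 1) 1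

theorem N3.lin_ed (h : N3 R ω P a b) {t : Multiset F} (h1 : ∀ a ∈ t, a ^ 3 = 1) (h2 : t.card = 3) :
    ∃ y ∈ subgroupNormalizer R, ∃ d : Fin 3 → F, (∀ i, d i ^ 3 = 1) ∧ y.1 = cj P (diagonal d) ∧
      edM y.1 = linM t := by
  obtain ⟨x, y, z, rfl⟩ := Multiset.card_eq_three.1 h2
  have h3 : ∀ i, ![x, y, z] i ^ 3 = 1 := fun i => by
    fin_cases i <;> exact h1 _ (by simp)
  obtain ⟨u, h4, h5⟩ := h.diag h3
  exact ⟨u, h4, _, h3, h5, by rw [h5, edM_cj, edM_diagonal]; rfl⟩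

theorem nd_sl3 : ∀ s : ZMod 81, s.val % 9 = 4 ∨ s.val % 9 = 7 →
    s ^ 3 * ((s ^ 2 - 1) * (s ^ 3 - 1)) ≠ 0 := by decide +kernel

theorem nd_su3 : ∀ s : ZMod 81, s.val % 9 = 2 ∨ s.val % 9 = 5 →
    s ^ 3 * ((s ^ 2 - 1) * (s ^ 3 + 1)) ≠ 0 := by decide +kernel

theorem prime_cases {r : ℕ} (hr : r.Prime) : r = 2 ∨ r = 3 ∨ 5 ≤ r := by
  have := hr.two_le
  have : r ≠ 4 := by rintro rfl; norm_num at hr
  omega

theorem sl_three [Fintype F] {p : ℕ} [hp : Fact p.Prime] [CharP F p] (hF : Fintype.card F = p)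
    (hp3 : p % 3 = 1) (hR : Nat.card R = 27) (hRe : Monoid.exponent R = 3)
    (hRna : ¬ IsMulCommutative R) (r : ℕ) [hr : Fact r.Prime]
    (hΩ : r ∣ (subgroupNormalizer R).relIndex (specialLinear (Fin 3) F)) :
    (∀ x ∈ specialLinear (Fin 3) F, (∃ z : F, (x ^ r).1 = z • (1 : Matrix (Fin 3) (Fin 3) F)) →
      (∀ z : F, x.1 ≠ z • (1 : Matrix (Fin 3) (Fin 3) F)) →
      ∃ g ∈ specialLinear (Fin 3) F, g⁻¹ * x * g ∈ subgroupNormalizer R) ↔
    (r = 2 ∨ (r = 3 ∧ p % 9 = 1)) := by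
  have hp2 := hp.out.two_le
  have h2 : (2 : F) ≠ 0 := fun e => by
    have := Nat.le_of_dvd two_pos ((CharP.cast_eq_zero_iff F p 2).1 e); omega
  have h3 : (3 : F) ≠ 0 := fun e => by
    have := Nat.le_of_dvd three_pos ((CharP.cast_eq_zero_iff F p 3).1 e); omega
  have h4 : 3 ∣ Fintype.card F - 1 := by omega
  obtain ⟨ω, hω⟩ := exists_omega h4
  obtain ⟨a, ha, b, hb, h5, h6, h7⟩ := es_pair' hR hRe hRna hω h3
  obtain ⟨P, h8, h9⟩ := es_basis hω h3 h5 h6 h7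
  have h : N3 R ω P a b := ⟨hR, hω, h3, ha, hb, h8, h9⟩
  obtain rfl | rfl | h10 := prime_cases hr.out
  · refine iff_of_true ((allH_iff hr.out (Or.inr rfl)).2 (allR_two h2 (EH.of_smul smGL_mem_norm)
      (fun g c k l hk hl e _ hg => ?_) fun g z _ hz hg => ?_)) (Or.inl rfl)
    · obtain ⟨y, h10, -, -, -, h11⟩ := h.inv_ed p h2 hk hl (by simpa using e)
      exact ⟨y, h10, h11.trans hg.symm⟩
    · obtain ⟨k, -, h10⟩ := ed_nonsplit hr.out hz hg
      simp at h10; omega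
  · refine iff_of_true ((allH_iff hr.out (Or.inl (by exact_mod_cast h3))).2 ?_) (Or.inr ⟨rfl, ?_⟩)
    · rintro g hd ⟨z, hz⟩ -
      by_cases h10 : ∀ b, b ^ 3 ≠ z
      · obtain ⟨k, h11, h12⟩ := ed_nonsplit hr.out h10 hz
        obtain rfl : k = 1 := by simp at h12; omega
        exact (h10 1 (by simpa using hd.symm.trans (det_of_nonsplit (by decide) h11))).elim
      push Not at h10
      obtain ⟨c, rfl⟩ := h10
      obtain ⟨h10, h11⟩ := exists_smul_pow hd hz three_ne_zero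
      obtain ⟨t, h12, h13⟩ := ed_eq_linM hr.out h4 h11
      obtain ⟨y, h14, -, -, -, h15⟩ := h.lin_ed h12 (by
        simpa [h13, linM_deg] using sum_natDegree_ed (c⁻¹ • g))
      exact EH.of_smul smGL_mem_norm _ _ (inv_ne_zero h10) ⟨y, h14, h15.trans h13.symm⟩
    · by_contra h10
      refine not_dvd_relIndex Subgroup.le_normalizer h.le_SL (fun e => ?_) hΩ
      rw [hR, card_specialLinear, card_SL_eq, hF, ← ZMod.natCast_eq_zero_iff] at e
      refine nd_sl3 p (by rw [ZMod.val_natCast]; omega) ?_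
      simpa [Finset.prod_range_succ, Nat.one_le_pow, show 0 < p by omega] using e
  · refine iff_of_false (not_all_of_order hr.out hΩ (k := 3) ((Nat.coprime_primes hr.out
      Nat.prime_three).2 (by omega)) (fun x hx z e => by simpa using det_scalar hx e)
      fun y hy e => h.not_norm hr.out h10 hy e) (by omega)

theorem su_three [Fintype F] {p : ℕ} [hp : Fact p.Prime] [CharP F p] (hF : Fintype.card F = p ^ 2)
    (hp5 : 5 ≤ p) (hp3 : p % 3 = 2) (hRU : R ≤ Cfsg.GU 3 F p) (hR : Nat.card R = 27)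
    (hRe : Monoid.exponent R = 3) (hRna : ¬ IsMulCommutative R) (r : ℕ) [hr : Fact r.Prime]
    (hΩ : r ∣ (subgroupNormalizer R).relIndex (Cfsg.GU 3 F p ⊓ specialLinear (Fin 3) F)) :
    (∀ x ∈ Cfsg.GU 3 F p ⊓ specialLinear (Fin 3) F,
      (∃ z : F, (x ^ r).1 = z • (1 : Matrix (Fin 3) (Fin 3) F)) →
      (∀ z : F, x.1 ≠ z • (1 : Matrix (Fin 3) (Fin 3) F)) →
      ∃ g ∈ Cfsg.GU 3 F p ⊓ specialLinear (Fin 3) F, g⁻¹ * x * g ∈ subgroupNormalizer R) ↔
    (r = 2 ∨ (r = 3 ∧ p % 9 = 8)) := by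
  have h2 : (2 : F) ≠ 0 := fun e => by
    have := Nat.le_of_dvd two_pos ((CharP.cast_eq_zero_iff F p 2).1 e); omega
  have h3 : (3 : F) ≠ 0 := fun e => by
    have := Nat.le_of_dvd three_pos ((CharP.cast_eq_zero_iff F p 3).1 e); omega
  have h1 : 3 ∣ p + 1 := by omega
  have h4 : 3 ∣ Fintype.card F - 1 := card_sub_one hF ▸ h1.mul_right _
  have hn : ∀ a : F, a ^ 3 = 1 → a ^ (p + 1) = 1 := fun a ha => by
    obtain ⟨k, hk⟩ := h1
    rw [hk, pow_mul, ha, one_pow]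
  obtain ⟨ω, hω⟩ := exists_omega h4
  obtain ⟨a, ha, b, hb, h5, h6, h7⟩ := es_pair' hR hRe hRna hω h3
  obtain ⟨P, hT, h8, h9⟩ := H23.Ex.es_normal (conj_ne_id hF) (conj_conj hF) hω h3
    (As.mem_Iso_fog.1 (As.GU_eq_Iso hF 3 ▸ hRU ha)) (As.mem_Iso_fog.1 (As.GU_eq_Iso hF 3 ▸ hRU hb))
    h5 h6 h7
  have h : N3 R ω P a b := ⟨hR, hω, h3, ha, hb, h8, h9⟩
  have hU : ∀ (y : GL (Fin 3) F) (Y : Matrix (Fin 3) (Fin 3) F), y.1 = cj P Y →
      Yᵀ * 1 * Y.map (conj hF) = 1 → y ∈ Cfsg.GU 3 F p := fun y Y e1 e2 =>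
    As.GU_eq_Iso hF 3 ▸ (hT.mem_Iso e1).2 e2
  obtain rfl | rfl | h10 := prime_cases hr.out
  · refine iff_of_true (of_all_su (hF := hF) (su_two h2 (fun _ _ _ e => by omega)
      fun k l hk hl e => ?_)) (Or.inl rfl)
    obtain ⟨y, h10, c, h11, h12, h13⟩ := h.inv_ed p h2 hk hl e
    refine ⟨y, h10, hU y _ h12 ?_, h13⟩
    have h14 : c * conj hF c = 1 := by
      rcases mul_self_eq_one_iff.1 h11 with rfl | rfl <;> simp [-conj_apply]
    ext i j
    fin_cases i <;> fin_cases j <;> simp [-conj_apply, mul_apply, Fin.sum_univ_three, h14]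
  · refine iff_of_true (of_all_su (hF := hF) (su_odd (by decide) (by
      simpa using one_le_padicValNat_of_dvd (by omega) h1) fun g hg h10 _ => ?_)) (Or.inr ⟨rfl, ?_⟩)
    · obtain ⟨t, h12, h13⟩ := ed_eq_linM hr.out h4 h10
      have h11 : t.card = 3 := by simpa [h13, linM_deg] using sum_natDegree_ed g
      obtain ⟨y, h14, d, h15, h16, h17⟩ := h.lin_ed h12 h11
      obtain ⟨c, hc⟩ := Multiset.card_pos_iff_exists_mem.1 (show 0 < t.card by omega)
      refine ⟨cd_of_lin (huForm_nondeg hF 3) rfl hg (hn c (h12 c hc))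
        (h13 ▸ Multiset.mem_map_of_mem _ hc), y, h14, (mem_GU_pres hF y).1 (hU y _ h16 ?_),
        h17.trans h13.symm⟩
      rw [diagonal_transpose, mul_one, diagonal_map (map_zero _), diagonal_mul_diagonal,
        ← diagonal_one]
      exact congrArg _ (funext fun i => by rw [conj_apply, ← pow_succ', hn _ (h15 i)])
    · by_contra h10
      refine not_dvd_relIndex Subgroup.le_normalizer (le_inf hRU h.le_SL) (fun e => ?_) hΩ
      have h11 := card_SU_mul hF (n := 3) (by decide)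
      rw [show p ^ (3 * (3 - 1) / 2) * uf p 3 = (p + 1) * (p ^ 3 * ((p ^ 2 - 1) * (p ^ 3 + 1))) by
        simp [uf, Finset.prod_range_succ, show ¬ Even 1 by decide]; ring] at h11
      rw [hR, Nat.eq_of_mul_eq_mul_left (by omega) h11, ← ZMod.natCast_eq_zero_iff] at e
      refine nd_su3 p (by rw [ZMod.val_natCast]; omega) ?_
      simpa [Nat.one_le_pow, show 0 < p by omega] using e
  · refine iff_of_false (not_all_of_order hr.out hΩ (k := 3) ((Nat.coprime_primes hr.out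
      Nat.prime_three).2 (by omega)) (fun x hx z e => by simpa using det_scalar hx.2 e)
      fun y hy e => h.not_norm hr.out h10 hy e) (by omega)

end Three

end H16.NX
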