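import Cfsg.Agent.H16.NX3
import Cfsg.Agent.Lead.PH

/-! Normalizers of 2-groups of symplectic type in dimension four: constraints. -/

set_option autoImplicit false

namespace H16.NX

open Module Polynomial H23 H23.Form H14.Wall Matrix Cfsg.Geo
open H23.As (cj cj_val cj_eq_iff cj_apply sc sc_val trace_cj AI Ext exists_sc cen_scalars
  mem_scalars_of_val)
open scoped commutatorElement

universe u

theorem hall_two {G : Type*} [Group G] [Finite G] (hG : IsPGroup 2 G)
    (hs : ∀ A : Subgroup G, A.Characteristic → IsMulCommutative A → IsCyclic A)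
    (he : Monoid.exponent G = 4) (x y : G) : ⁅x, y⁆ ∈ Subgroup.center G ∧ ⁅x, y⁆ ^ 2 = 1 := by
  obtain ⟨S, E, h1, h2, h3, h4⟩ := Lead.PH.main hG hs
  have h5 : ∀ s : S, orderOf s ≤ 4 := fun s => Nat.le_of_dvd four_pos (by
    rw [← Subgroup.orderOf_coe, ← he]; exact Monoid.order_dvd_exponent _)
  have h6 : IsCyclic S := h4.resolve_right (by
    rintro ⟨-, h6, ⟨m, ⟨e⟩⟩ | ⟨m, ⟨e⟩⟩ | ⟨n, h7, -, a, -, h8, -⟩⟩
    · have := h5 (e.symm (.r 1))
      rw [MulEquiv.orderOf_eq, DihedralGroup.orderOf_r_one] at this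
      rw [Nat.card_congr e.toEquiv, DihedralGroup.nat_card] at h6
      omega
    · have := h5 (e.symm (.a 1))
      have h7 := orderOf_pos (e.symm (.a 1))
      rw [MulEquiv.orderOf_eq, QuaternionGroup.orderOf_a_one] at this h7
      rw [Nat.card_congr e.toEquiv] at h6
      cases m
      · omega
      · rw [Nat.card_eq_fintype_card, QuaternionGroup.card] at h6; omega
    · have := h5 a
      have := Nat.pow_le_pow_right two_pos h7
      omega)
  have h7 : ∀ g, (∀ e ∈ E, e * g = g * e) → (∀ s ∈ S, s * g = g * s) → g ∈ Subgroup.center G :=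
    fun g a b => Subgroup.mem_center_iff.2 fun w => Subgroup.mem_centralizer_singleton_iff.1
      ((h2.ge.trans (sup_le (fun e he => Subgroup.mem_centralizer_singleton_iff.2 (a e he))
        fun s hs => Subgroup.mem_centralizer_singleton_iff.2 (b s hs))) (Subgroup.mem_top w))
  have h8 : S ≤ Subgroup.center G := fun s hs => h7 s (fun e he => h1 e he s hs)
    fun t ht => congrArg Subtype.val (mul_comm' (⟨t, ht⟩ : S) ⟨s, hs⟩)
  have : S.Normal := ⟨fun s hs g => by
    rwa [Subgroup.mem_center_iff.1 (h8 hs) g, mul_inv_cancel_right]⟩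
  obtain ⟨e, he, s, hs, rfl⟩ := Subgroup.mem_sup_of_normal_right.1 (h2.ge (Subgroup.mem_top x))
  obtain ⟨f, hf, t, ht, rfl⟩ := Subgroup.mem_sup_of_normal_right.1 (h2.ge (Subgroup.mem_top y))
  have h9 : ⁅e * s, f * t⁆ = ⁅e, f⁆ := by
    have a := Subgroup.mem_center_iff.1 (h8 hs)
    have b := Subgroup.mem_center_iff.1 (h8 ht)
    have c : ∀ x y : G, ⁅x, y⁆ = x * y * (y * x)⁻¹ := fun x y => by
      rw [commutatorElement_def]; group
    rw [c, c, show e * s * (f * t) = e * f * (s * t) by rw [mul_assoc e, ← mul_assoc s, ← a]; group,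
      show f * t * (e * s) = f * e * (s * t) by rw [mul_assoc f, ← b, mul_assoc e]; group]
    group
  rw [h9]
  rcases h3 with rfl | h3
  · simp [Subgroup.mem_bot.1 he]
  obtain ⟨z, h10, -⟩ := H3.isES_of_isExtraspecial_subgroup h3 fun g hg => h7 g
    (fun e he => hg.2 e he) fun s hs => (h1 g hg.1 s hs).symm
  obtain ⟨k, h11⟩ := h10.comm e he f hf
  refine ⟨h11 ▸ zpow_mem h10.central k, ?_⟩
  rw [← h11, ← zpow_natCast, ← _root_.zpow_mul, mul_comm, _root_.zpow_mul, zpow_natCast,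
    h10.pow_eq_one, _root_.one_zpow]

variable {ι : Type} [Fintype ι] [DecidableEq ι] [Nonempty ι] {F : Type u} [Field F]
  {R : Subgroup (GL ι F)} {u v w y : GL ι F} {r : ℕ}

/-- an absolutely irreducible group of exponent 4 whose elements commute up to sign -/
structure PM (R : Subgroup (GL ι F)) : Prop where
  ai : AI R
  two : (2 : F) ≠ 0
  pm : ∀ u ∈ R, ∀ v ∈ R, u * v = v * u ∨ u * v = -(v * u)
  pow4 : ∀ u ∈ R, u ^ 4 = 1

theorem eq_of_scalar_sq (hu : u ∈ scalars ι F) (h : u * u = 1) : u = 1 ∨ u = -1 := by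
  obtain ⟨c, hc⟩ := (mem_scalars_iff u).1 hu
  have h1 := congrArg Units.val h
  rw [Units.val_mul, hc, smul_mul_smul, one_mul, Units.val_one] at h1
  rcases mul_self_eq_one_iff.1 (smul_left_injective F one_ne_zero (h1.trans (one_smul F _).symm))
    with e | e
  exacts [Or.inl (Units.ext (by simp [hc, e])), Or.inr (Units.ext (by simp [hc, e]))]

theorem neg_one_mem_scalars : -1 ∈ scalars ι F := mem_scalars_of_val (c := -1) (by simp)

theorem PM.of [Finite F] (h2 : (2 : F) ≠ 0) (h : IsSymplecticTypeGroup 2 R)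
    (hi : ActsAbsolutelyIrreducibly (matrixSet R)) : PM R := by
  have ha := AI.of_abs hi
  refine ⟨ha, h2, fun u hu v hv => ?_, fun u hu => congrArg Subtype.val
    (show (⟨u, hu⟩ : R) ^ (2 * Nat.gcd 2 2) = 1 from
      h.exponent_eq ▸ Monoid.pow_exponent_eq_one _)⟩
  obtain ⟨h3, h4⟩ := hall_two h.pGroup h.cyclic_of_characteristic h.exponent_eq ⟨u, hu⟩ ⟨v, hv⟩
  rw [ha.center_eq] at h3
  refine (eq_of_scalar_sq (u := ⁅u, v⁆) h3 (congrArg Subtype.val
    ((_root_.sq _).symm.trans h4))).imp commutatorElement_eq_one_iff_mul_comm.1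
    fun e => ?_
  rw [← neg_one_mul, ← e, commutatorElement_def]; group

/-- the invariant `tr y * tr y⁻¹` -/
def tt (y : GL ι F) : F := y.1.trace * y⁻¹.1.trace

omit [Nonempty ι] in
theorem tt_conj (g y : GL ι F) : tt (g⁻¹ * y * g) = tt y := by
  have : ∀ x : GL ι F, (g⁻¹ * x * g).1.trace = x.1.trace := fun x => by
    simpa [cj_apply] using trace_cj g⁻¹ x.1
  rw [tt, tt, this, show (g⁻¹ * y * g)⁻¹ = g⁻¹ * y⁻¹ * g by group, this]

namespace PM

variable (h : PM R)
include h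

theorem ne_neg (u : GL ι F) : u ≠ -u := fun e => by
  have h1 : (1 : GL ι F) = -1 := mul_left_cancel (a := u) (by rw [mul_neg, mul_one]; exact e)
  have h2 := congrArg (fun x : GL ι F => x.1 (Classical.arbitrary ι) (Classical.arbitrary ι)) h1
  exact h.two (by simp at h2; linear_combination h2)

theorem ext : Ext R := ⟨h.ai, fun u hu v hv => by
  rcases h.pm u hu v hv with e | e
  · rw [commutatorElement_eq_one_iff_mul_comm.2 e]; exact one_mem _
  · rw [commutatorElement_def, e, show -(v * u) * u⁻¹ * v⁻¹ = -1 by simp]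
    exact neg_one_mem_scalars⟩

theorem anti (hu : u ∈ R) (h1 : u ∉ scalars ι F) : ∃ v ∈ R, u * v = -(v * u) := by
  by_contra! e
  exact h1 (h.ai.mem_scalars fun v hv => (h.pm u hu v hv).resolve_right (e v hv))

theorem sq (hu : u ∈ R) : u * u = 1 ∨ u * u = -1 :=
  eq_of_scalar_sq (h.ai.mem_scalars fun v hv => by
    rcases h.pm u hu v hv with e | e <;> rw [mul_assoc, e] <;> simp [← mul_assoc, e])
    (by rw [← h.pow4 u hu]; simp [pow_succ, mul_assoc])

theorem not_scalar (e : u * v = -(v * u)) : u ∉ scalars ι F := fun h1 =>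
  h.ne_neg _ ((cen_scalars u h1 v).symm.trans e)

omit [Nonempty ι] in
theorem comm_of (hr : Odd r) (hy : y ∈ subgroupNormalizer R) (h1 : y ^ r ∈ scalars ι F) (hu : u ∈ R)
    (h2 : y * u * y⁻¹ * u⁻¹ ∈ scalars ι F) : u * y = y * u := by
  have h3 : ⁅u, y⁆ ∈ scalars ι F := by
    rw [← commutatorElement_inv]; exact inv_mem h2
  refine commutatorElement_eq_one_iff_mul_comm.1 (eq_one_of_coprime (a := r) (b := 4)
    ((Nat.coprime_two_right.2 hr).pow_right 2) (cen_scalars.commutator_pow h3 h1)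
    (h.pow4 _ ?_))
  rw [← commutatorElement_inv]
  exact inv_mem (mul_mem ((hy u).1 hu) (inv_mem hu))

theorem card_half {H : Subgroup (GL ι F)} (h1 : H ≤ R) (hu : u ∈ R) (hv : v ∈ H)
    (e : u * v = -(v * u)) :
    Nat.card H = 2 * Nat.card (H ⊓ Subgroup.centralizer {u} : Subgroup _) :=
  card_eq_two_mul hv (fun e' => h.ne_neg _ (e'.trans e)) fun w hw =>
    (h.pm w (h1 hw) u hu).imp_right fun e' => by
      rw [mul_assoc, ← neg_eq_iff_eq_neg.2 e, mul_neg, ← mul_assoc, e']; simp [mul_assoc]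

variable [Finite F]

theorem card_eq : Nat.card R = Fintype.card ι ^ 2 * Nat.card (scalars ι F ⊓ R : Subgroup _) := by
  rw [← relIndex_mul_card R (scalars ι F), ← h.ext.index]; rfl

omit [Nonempty ι] in
theorem card_two : ∃ m, Nat.card R = 2 ^ m :=
  IsPGroup.iff_card.1 fun g => ⟨2, Subtype.ext (h.pow4 _ g.2)⟩

theorem exists_k {K : Subgroup (GL ι F)} (h1 : scalars ι F ⊓ R ≤ K) (h2 : K ≤ R) :
    ∃ k, Nat.card K = k * Nat.card (scalars ι F ⊓ R : Subgroup _) ∧ k ∣ Fintype.card ι ^ 2 ∧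
      (k = 1 ↔ K ≤ scalars ι F) ∧ (k = Fintype.card ι ^ 2 → R ≤ K) := by
  obtain ⟨k, hk⟩ := Subgroup.card_dvd_of_le h1
  have h3 := Subgroup.card_dvd_of_le h2
  have h4 : 0 < Nat.card (scalars ι F ⊓ R : Subgroup _) := Nat.card_pos
  rw [mul_comm] at hk
  refine ⟨k, hk, Nat.dvd_of_mul_dvd_mul_right h4 (by rwa [← hk, ← h.card_eq]),
    ⟨fun e => (Subgroup.eq_of_le_of_card_ge h1 (by simp [hk, e])).ge.trans inf_le_left, fun e => ?_⟩,
    fun e => (Subgroup.eq_of_le_of_card_ge h2 (by rw [hk, e, h.card_eq])).ge⟩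
  rw [le_antisymm (le_inf e h2) h1] at hk
  exact (Nat.mul_eq_right h4.ne').1 hk.symm

theorem trace_formula (hr : Odd r) (hy : y ∈ subgroupNormalizer R) (h1 : y ^ r ∈ scalars ι F)
    {k : ℕ} (hk : Nat.card (R ⊓ Subgroup.centralizer {y} : Subgroup _) =
      k * Nat.card (scalars ι F ⊓ R : Subgroup _)) : tt y = k := by
  classical
  let := Fintype.ofFinite R
  obtain ⟨c, hc⟩ := h.ai.scalar (M := ∑ u : R, cj u.1 y⁻¹.1) fun w hw => by
    rw [Finset.sum_mul, Finset.mul_sum, ← Equiv.sum_comp (Equiv.mulLeft (⟨w, hw⟩ : R))]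
    exact Finset.sum_congr rfl fun u _ => by simp [cj_apply, mul_assoc]
  have h2 := congrArg trace hc
  have h3 := congrArg (fun M => trace (y.1 * M)) hc
  simp only [trace_sum, trace_cj, Finset.sum_const, Finset.card_univ, trace_smul, trace_one,
    smul_eq_mul, nsmul_eq_mul, Finset.mul_sum, mul_smul_comm, mul_one] at h2 h3
  have h4 : ∀ u : R, trace (y.1 * cj u.1 y⁻¹.1) =
      if u.1 ∈ R ⊓ Subgroup.centralizer {y} then (Fintype.card ι : F) else 0 := fun u => by
    rw [cj_val, ← Units.val_mul]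
    split_ifs with e
    · rw [show y * (u.1 * y⁻¹ * u.1⁻¹) = 1 by
        rw [← mul_assoc, ← mul_assoc, ← Subgroup.mem_centralizer_singleton_iff.1 e.2]; group]
      simp
    · refine h.ext.trace_eq_zero (by
        simpa only [mul_assoc] using mul_mem ((hy u).1 u.2) (inv_mem u.2)) fun e' => e ⟨u.2, ?_⟩
      exact Subgroup.mem_centralizer_singleton_iff.2 (h.comm_of hr hy h1 u.2
        (by simpa only [mul_assoc] using e'))
  have h5 : (Finset.univ.filter fun u : R => u.1 ∈ R ⊓ Subgroup.centralizer {y}).card =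
      Nat.card (R ⊓ Subgroup.centralizer {y} : Subgroup _) := by
    rw [← Nat.card_congr (Subgroup.subgroupOfEquivOfLe (inf_le_left : R ⊓ _ ≤ R)).toEquiv,
      Nat.card_eq_fintype_card, Fintype.card_subtype]
    rfl
  simp only [h4, Finset.sum_ite, Finset.sum_const_zero, add_zero, Finset.sum_const, nsmul_eq_mul,
    h5, hk] at h3
  rw [← Nat.card_eq_fintype_card] at h2
  obtain ⟨m, hm⟩ := h.card_two
  have h6 : (Nat.card R : F) ≠ 0 := by rw [hm]; exact_mod_cast pow_ne_zero m h.two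
  have h7 := congrArg (Nat.cast : ℕ → F) h.card_eq
  push_cast at h3 h7
  refine mul_left_cancel₀ h6 ?_
  rw [tt]
  linear_combination y.1.trace * h2 - (Fintype.card ι : F) * h3 - (k : F) * h7

theorem con (hn : Fintype.card ι = 4) (hr : r.Prime) (hr2 : r ≠ 2) (hy : y ∈ subgroupNormalizer R)
    (h1 : y ^ r ∈ scalars ι F) (h2 : y ∉ scalars ι F) : (r = 3 ∧ tt y = 4) ∨
      ((r = 3 ∨ r = 5) ∧ tt y = 1 ∧ ∀ u ∈ R, u * y = y * u → u ∈ scalars ι F) := by
  have hZ : ∀ w, scalars ι F ⊓ R ≤ Subgroup.centralizer {w} := fun w z hz =>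
    Subgroup.mem_centralizer_singleton_iff.2 (cen_scalars z hz.1 w)
  obtain ⟨k, h3, h4, h5, h6⟩ := h.exists_k (le_inf inf_le_right (hZ y)) inf_le_left
  have h7 := h.trace_formula (hr.odd_of_ne_two hr2) hy h1 h3
  obtain ⟨m, hm⟩ := h.card_two
  have h8 : r.Coprime (Nat.card (scalars ι F ⊓ R : Subgroup _)) :=
    Nat.Coprime.of_dvd_right (hm ▸ Subgroup.card_dvd_of_le inf_le_right)
      (((Nat.coprime_primes hr Nat.prime_two).2 hr2).pow_right m)
  have h9 := card_modEq_fix (H := R) hr (fun u hu => (hy u).1 hu) fun u _ => cen_scalars _ h1 u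
  rw [h.card_eq, h3, hn] at h9
  replace h9 := Nat.ModEq.cancel_right_of_coprime h8 h9
  rw [hn] at h4 h6
  have h10 : k ≠ 16 := fun e => h2 (h.ai.mem_scalars fun u hu =>
    (Subgroup.mem_centralizer_singleton_iff.1 (h6 e hu).2).symm)
  have h11 := Nat.le_of_dvd (by norm_num) h4
  have h12 := (Nat.modEq_iff_dvd' h11).1 h9.symm
  have h13 : ∀ {a b : ℕ}, a.Prime → b.Prime → r ∣ a * b → r = a ∨ r = b := fun ha hb e =>
    (hr.dvd_mul.1 e).imp (Nat.prime_dvd_prime_iff_eq hr ha).1 (Nat.prime_dvd_prime_iff_eq hr hb).1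
  have h14 : ¬ r ∣ 4 := fun e => by simpa [hr2] using h13 Nat.prime_two Nat.prime_two e
  obtain rfl | rfl | rfl | rfl : k = 1 ∨ k = 2 ∨ k = 4 ∨ k = 8 := by
    interval_cases k <;> simp_all
  · exact Or.inr ⟨h13 Nat.prime_three Nat.prime_five h12, by simpa using h7, fun u hu e =>
      h5.1 rfl ⟨hu, Subgroup.mem_centralizer_singleton_iff.2 e⟩⟩
  · exfalso
    obtain ⟨u, h15, h16⟩ := SetLike.not_le_iff_exists.1 (mt h5.2 (by omega))
    obtain ⟨v, h17, h18⟩ := h.anti h15.1 h16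
    have h19 := h.card_half le_rfl h15.1 h17 h18
    have h20 : y ∈ Subgroup.centralizer {u} := Subgroup.mem_centralizer_singleton_iff.2
      (Subgroup.mem_centralizer_singleton_iff.1 h15.2).symm
    have h21 := card_modEq_fix (H := R ⊓ Subgroup.centralizer {u}) (y := y) hr
      (fun w hw => ⟨(hy w).1 hw.1, Subgroup.mul_mem _ (Subgroup.mul_mem _ h20 hw.2)
        (Subgroup.inv_mem _ h20)⟩)
      fun u _ => cen_scalars _ h1 u
    obtain ⟨l, h22, -, h23, -⟩ := h.exists_k (le_inf (le_inf inf_le_right (hZ u)) (hZ y))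
      (inf_le_left.trans inf_le_left)
    have h24 := Subgroup.card_dvd_of_le (inf_le_inf_right (Subgroup.centralizer {y})
      (inf_le_left : R ⊓ Subgroup.centralizer {u} ≤ R))
    rw [h22, h3] at h24
    have h25 : l = 2 := ((Nat.dvd_prime Nat.prime_two).1 (Nat.dvd_of_mul_dvd_mul_right
      Nat.card_pos h24)).resolve_left fun e => h16 (h23.1 e ⟨⟨h15.1,
        Subgroup.mem_centralizer_singleton_iff.2 rfl⟩, h15.2⟩)
    rw [h.card_eq, hn] at h19
    rw [h22, h25, show Nat.card (R ⊓ Subgroup.centralizer {u} : Subgroup _) =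
      8 * Nat.card (scalars ι F ⊓ R : Subgroup _) by omega] at h21
    have h26 := (Nat.modEq_iff_dvd' (by norm_num)).1 (Nat.ModEq.cancel_right_of_coprime h8 h21).symm
    have h27 := h13 Nat.prime_two Nat.prime_three h26
    have h28 := h13 Nat.prime_two (by norm_num : Nat.Prime 7) h12
    omega
  · refine Or.inl ⟨?_, by simpa using h7⟩
    exact (Nat.prime_dvd_prime_iff_eq hr Nat.prime_three).1
      ((hr.dvd_mul.1 (show r ∣ 4 * 3 from h12)).resolve_left h14)
  · exact absurd ((hr.dvd_mul.1 (show r ∣ 4 * 2 from h12)).elim id fun e => e.mul_right 2) h14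

omit [Finite F] in
theorem not_fpf (hZ : ∀ u ∈ R, u ∈ scalars ι F → u * u = 1)
    (hE : ∀ u ∈ R, ∀ w ∈ R, u * u = 1 → w * w = 1 → u * w = w * u → u ∉ scalars ι F →
      w ∉ scalars ι F → u * w ∈ scalars ι F) (hu : u ∈ R) (h0 : u * u = 1) (h3 : u ∉ scalars ι F)
    (hy : y ∈ subgroupNormalizer R) (h1 : y ^ 3 ∈ scalars ι F) :
    ¬ ∀ u ∈ R, u * y = y * u → u ∈ scalars ι F := fun h2 => by
  have hc : ∀ w, w ∉ scalars ι F → y * w * y⁻¹ ∉ scalars ι F := fun w hw e => hw (by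
    have := cen_scalars _ e y
    rw [inv_mul_cancel_right, mul_right_inj] at this
    rwa [this])
  obtain ⟨v, hv⟩ : ∃ v, v = y * u * y⁻¹ := ⟨_, rfl⟩
  obtain ⟨w, hw⟩ : ∃ w, w = y * v * y⁻¹ := ⟨_, rfl⟩
  have a1 : v ∈ R := hv ▸ (hy u).1 hu
  have a2 : w ∈ R := hw ▸ (hy v).1 a1
  have a3 : y * w * y⁻¹ = u := by
    rw [hw, hv, show y * (y * (y * u * y⁻¹) * y⁻¹) * y⁻¹ = y ^ 3 * u * (y ^ 3)⁻¹ by
      simp [pow_succ, mul_assoc], cen_scalars _ h1, mul_inv_cancel_right]
  have a4 : v * v = 1 := by rw [hv]; simp [mul_assoc, ← mul_assoc u u, h0]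
  have a5 : w * w = 1 := by rw [hw]; simp [mul_assoc, ← mul_assoc v v, a4]
  have a6 : u * (v * w) ∈ R := mul_mem hu (mul_mem a1 a2)
  have a7 := h2 _ a6 (h.comm_of (by decide) hy h1 a6 (by
    rw [show y * (u * (v * w)) * y⁻¹ = (y * u * y⁻¹) * (y * v * y⁻¹) * (y * w * y⁻¹) by group,
      ← hv, ← hw, a3]
    rcases h.pm _ (mul_mem a1 a2) u hu with e | e <;> rw [e]
    · rw [mul_inv_cancel]; exact one_mem _
    · rw [neg_mul, mul_inv_cancel]; exact neg_one_mem_scalars))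
  have a8 : u * v = u * (v * w) * w := by simp [mul_assoc, a5]
  have a9 : u * v * (u * v) = 1 := by
    rw [a8, mul_assoc, ← mul_assoc w, ← cen_scalars _ a7 w, mul_assoc _ w, a5, mul_one, hZ _ a6 a7]
  have a10 : u * v = v * u := by
    rw [eq_inv_of_mul_eq_one_left a9, _root_.mul_inv_rev, ← eq_inv_of_mul_eq_one_left a4,
      ← eq_inv_of_mul_eq_one_left h0]
  refine hw ▸ hc v (hv ▸ hc u h3) <| ?_
  have := mul_mem (inv_mem (hE u hu v a1 h0 a4 a10 h3 (hv ▸ hc u h3))) a7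
  rwa [← mul_assoc u, inv_mul_cancel_left] at this

omit [Finite F] in
theorem not_transv (hn : Fintype.card ι = 4) (hy : y ∈ subgroupNormalizer R) {a b : ι → F}
    (h0 : b ⬝ᵥ a = 0) (h1 : y.1 = 1 + vecMulVec a b) : y ∈ scalars ι F := by
  refine h.ai.mem_scalars fun u hu => ?_
  obtain ⟨N, hN⟩ : ∃ N, N = vecMulVec a b := ⟨_, rfl⟩
  have a1 : N * N = 0 := by rw [hN, vecMulVec_mul_vecMulVec, h0]; simp
  obtain ⟨N', hN'⟩ : ∃ N', N' = cj u N := ⟨_, rfl⟩
  have a2 : N' * N' = 0 := by rw [hN', ← map_mul, a1, map_zero]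
  have a3 : N.trace = 0 := by rw [hN, trace_vecMulVec, dotProduct_comm, h0]
  have a4 : N'.trace = 0 := by rw [hN', trace_cj, a3]
  rw [← hN] at h1
  have a5 : y⁻¹.1 = 1 - N := Units.inv_eq_of_mul_eq_one_right (by
    rw [h1]; simp [mul_sub, add_mul, a1])
  have a6 : (y * u * y⁻¹ * u⁻¹).1 = (1 + N) * (1 - N') := by
    rw [← h1, hN', ← map_one (cj u), ← map_sub, ← a5, cj_val]; simp only [mul_assoc, Units.val_mul]
  have a7 := mul_mem ((hy u).1 hu) (inv_mem hu)
  obtain ⟨x, x0, hx⟩ : ∃ x : ι → F, x ≠ 0 ∧ N *ᵥ x = 0 ∧ N' *ᵥ x = 0 := by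
    obtain ⟨x, h2, h3⟩ := Submodule.exists_mem_ne_zero_of_ne_bot (LinearMap.ker_ne_bot_of_finrank_lt
      (f := toLin' (Matrix.of ![b, b ᵥ* u⁻¹.1])) (by simp [hn]))
    have e1 : b ⬝ᵥ x = 0 := congrFun h2 0
    have e2 : (b ᵥ* u⁻¹.1) ⬝ᵥ x = 0 := congrFun h2 1
    refine ⟨x, h3, by rw [hN, vecMulVec_mulVec, e1]; simp, ?_⟩
    rw [hN', cj_apply, ← mulVec_mulVec, ← mulVec_mulVec, hN, vecMulVec_mulVec, dotProduct_mulVec, e2]
    simp
  have a8 : (y * u * y⁻¹ * u⁻¹).1 *ᵥ x = x := by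
    rw [a6, ← mulVec_mulVec]; simp [sub_mulVec, add_mulVec, hx.1, hx.2]
  have a9 : ∀ z : GL ι F, z ∈ scalars ι F → z.1 *ᵥ x = x → z = 1 := fun z hz e => by
    obtain ⟨c, hc⟩ := (mem_scalars_iff z).1 hz
    rw [hc, smul_mulVec, one_mulVec] at e
    exact Units.ext (by rw [hc, smul_left_injective F x0 (e.trans (one_smul F x).symm)]; simp)
  by_cases a10 : y * u * y⁻¹ * u⁻¹ ∈ scalars ι F
  · exact commutatorElement_eq_one_iff_mul_comm.1 (a9 _ a10 a8)
  exfalso
  have a11 := h.ext.trace_eq_zero a7 a10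
  have a12 := congrArg Units.val (a9 (y * u * y⁻¹ * u⁻¹ * (y * u * y⁻¹ * u⁻¹)) (by
    rcases h.sq a7 with e | e <;> rw [e]
    exacts [one_mem _, neg_one_mem_scalars]) (by rw [Units.val_mul, ← mulVec_mulVec, a8, a8]))
  rw [Units.val_mul, a6, Units.val_one] at a12
  have a13 : N * N' + N * N' = N * (N' * N) := by
    have e2 : (1 + N') * (1 - N) * ((1 + N) * (1 - N')) = 1 := by
      simp [mul_sub, sub_mul, add_mul, mul_add, a1, a2, mul_assoc, ← mul_assoc N N]
    have e1 := congrArg (fun M => N * ((1 + N') * (1 - N) * M)) a12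
    rw [← mul_assoc ((1 + N') * (1 - N)), e2] at e1
    simp only [mul_sub, add_mul, mul_add, a1, ← mul_assoc N N, one_mul, mul_one,
      zero_mul] at e1
    linear_combination (norm := abel1) -e1
  replace a13 := congrArg trace a13
  rw [trace_mul_comm N (N' * N), mul_assoc, a1, mul_zero, trace_add, trace_zero] at a13
  simp only [a6, mul_sub, add_mul, one_mul, mul_one, trace_sub, trace_add, a3, a4, trace_one, hn] at a11
  exact pow_ne_zero 3 h.two (by push_cast at a11; linear_combination 2 * a11 + a13)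

end PM

end H16.NX
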