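import Cfsg.Agent.H16.NX4

/-! Normalizers of 2-groups of symplectic type in dimension four: explicit elements. -/

set_option autoImplicit false

namespace H16.NX

open Module Polynomial H23 H23.Form H14.Wall Matrix Cfsg.Geo
open H23.As (cj cj_val cj_eq_iff cj_apply sc sc_val trace_cj AI Ext exists_sc cen_scalars
  mem_scalars_of_val)

universe u

variable {ι : Type} [Fintype ι] [DecidableEq ι] {F : Type u} [Field F]
  {R : Subgroup (GL ι F)} {a b c d u v w x y z : GL ι F} {r : ℕ} {μ ν : F}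

/-- a symplectic basis -/
structure SB (R : Subgroup (GL ι F)) (a b c d : GL ι F) : Prop where
  ha : a ∈ R
  hb : b ∈ R
  hc : c ∈ R
  hd : d ∈ R
  ab : a * b = -(b * a)
  cd : c * d = -(d * c)
  ac : a * c = c * a
  ad : a * d = d * a
  bc : b * c = c * b
  bd : b * d = d * b
  gen : ∀ K : Subgroup (GL ι F), scalars ι F ≤ K → a ∈ K → b ∈ K → c ∈ K → d ∈ K → R ≤ K

theorem SB.swap (h : SB R a b c d) : SB R b a c d :=
  ⟨h.hb, h.ha, h.hc, h.hd, by rw [h.ab, neg_neg], h.cd, h.bc, h.bd, h.ac, h.ad,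
    fun K h0 h1 h2 => h.gen K h0 h2 h1⟩

theorem SB.flip (h : SB R a b c d) : SB R c d a b :=
  ⟨h.hc, h.hd, h.ha, h.hb, h.cd, h.ab, h.ac.symm, h.bc.symm, h.ad.symm, h.bd.symm,
    fun K h0 h1 h2 h3 h4 => h.gen K h0 h3 h4 h1 h2⟩

theorem SB.mul (h : SB R a b c d) (hz : z ∈ R) (h1 : z * a = a * z) (h2 : z * c = c * z)
    (h3 : z * d = d * z) (h4 : z ∈ scalars ι F ∨ z = a) : SB R a (z * b) c d :=
  ⟨h.ha, mul_mem hz h.hb, h.hc, h.hd, by rw [← mul_assoc, ← h1, mul_assoc, h.ab]; simp [mul_assoc],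
    h.cd, h.ac, h.ad, by rw [mul_assoc, h.bc, ← mul_assoc, h2, mul_assoc],
    by rw [mul_assoc, h.bd, ← mul_assoc, h3, mul_assoc], fun K h0 h5 h6 => h.gen K h0 h5
      ((K.mul_mem_cancel_left (h4.elim (fun e => h0 e) fun e => e ▸ h5)).1 h6)⟩

theorem sq_mul_anti (h : a * b = -(b * a)) : a * b * (a * b) = -(a * a * (b * b)) := by
  rw [mul_assoc, ← mul_assoc b, ← neg_eq_iff_eq_neg.2 h]; simp [mul_assoc]

/-- `y` is a similitude with multiplier `μ` of every `R`-invariant form -/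
def UP (R : Subgroup (GL ι F)) (μ : F) (y : GL ι F) : Prop :=
  ∀ (σ : F →+* F) (Φ : Form σ (ι → F)), (∀ u ∈ R, Pres Φ (toLin' u.1)) → SMu Φ μ (toLin' y.1)

theorem UP.of_mem (hu : u ∈ R) : UP R 1 u := fun _ _ h => smu_of_pres (h u hu)

theorem UP.mul (h : UP R μ x) (h' : UP R ν y) : UP R (μ * ν) (x * y) := fun σ Φ H s t => by
  rw [Units.val_mul, toLin'_mul, LinearMap.comp_apply, LinearMap.comp_apply, h σ Φ H, h' σ Φ H,
    mul_assoc]

theorem UP.smul (h : UP R μ x) {c : F} (hc : c ≠ 0) (h1 : ∀ σ : F →+* F, σ c = c)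
    (h2 : c * c * μ = ν) : UP R ν (smGL c hc x) := fun σ Φ H => by
  rw [smGL_val, map_smul, ← h2]
  simpa only [h1] using (h σ Φ H).smul c

theorem UP.pres {σ : F →+* F} {Φ : Form σ (ι → F)} (h : UP R 1 x) (hk : Φ.κ = 0)
    (H : ∀ u ∈ R, Pres Φ (toLin' u.1)) : Pres Φ (toLin' x.1) := (h σ Φ H).pres (Or.inl hk)

theorem trace_anti (h2 : (2 : F) ≠ 0) {M : Matrix ι ι F} (e : v.1 * M = -(M * v.1)) :
    M.trace = 0 := by
  have := trace_cj v M
  rw [cj_eq_iff.2 (e.trans (neg_mul _ _).symm), trace_neg] at this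
  exact mul_left_cancel₀ h2 (by linear_combination -this)

theorem mem_norm_of [Finite F] (h : ∀ u ∈ R, x * u * x⁻¹ ∈ R) : x ∈ subgroupNormalizer R :=
  have : Finite (R : Set (GL ι F)) := inferInstanceAs (Finite R)
  Subgroup.mem_normalizer_fintype h

variable [Nonempty ι]

namespace PM

variable (h : PM R)
include h

omit [Nonempty ι] in
theorem step {H K : Subgroup (GL ι F)} (h1 : H ≤ R) (hv : v ∈ R) (hw : w ∈ H)
    (e : v * w = -(w * v)) (h2 : w ∈ K) (h3 : H ⊓ Subgroup.centralizer {v} ≤ K) : H ≤ K :=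
  fun u hu => (h.pm u (h1 hu) v hv).elim
    (fun e => h3 ⟨hu, Subgroup.mem_centralizer_singleton_iff.2 e⟩) fun e' =>
    (K.mul_mem_cancel_right h2).1 (h3 ⟨mul_mem hu hw, Subgroup.mem_centralizer_singleton_iff.2 (by
      rw [mul_assoc, ← neg_eq_iff_eq_neg.2 e, mul_neg, ← mul_assoc, e']; simp [mul_assoc])⟩)

theorem exists_sb [Finite F] (hn : Fintype.card ι = 4) : ∃ a b c d, SB R a b c d := by
  have hZ : ∀ w, scalars ι F ⊓ R ≤ Subgroup.centralizer {w} := fun w z hz =>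
    Subgroup.mem_centralizer_singleton_iff.2 (cen_scalars z hz.1 w)
  have h0 : 0 < Nat.card (scalars ι F ⊓ R : Subgroup _) := Nat.card_pos
  have h1 := h.card_eq
  rw [hn] at h1
  have key : ∀ K ≤ R, Nat.card (scalars ι F ⊓ R : Subgroup _) < Nat.card K →
      ∃ u ∈ K, u ∉ scalars ι F := fun K h2 h3 => SetLike.not_le_iff_exists.1 fun e =>
    h3.not_ge (Subgroup.card_le_of_le (le_inf e h2))
  have mc := @Subgroup.mem_centralizer_singleton_iff (GL ι F) _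
  obtain ⟨a, ha, h2⟩ := key R le_rfl (by omega)
  obtain ⟨b, hb, ab⟩ := h.anti ha h2
  have ba : b * a = -(a * b) := by rw [ab, neg_neg]
  have h3 := h.card_half le_rfl ha hb ab
  have h4 := h.card_half (H := R ⊓ Subgroup.centralizer {a}) inf_le_left hb ⟨ha, mc.2 rfl⟩ ba
  have l2 : R ⊓ Subgroup.centralizer {a} ⊓ Subgroup.centralizer {b} ≤ R :=
    inf_le_left.trans inf_le_left
  obtain ⟨c, hc, h5⟩ := key _ l2 (by omega)
  have ca := mc.1 hc.1.2
  have cb := mc.1 hc.2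
  obtain ⟨d, hd, cd⟩ : ∃ d ∈ R ⊓ Subgroup.centralizer {a} ⊓ Subgroup.centralizer {b},
      c * d = -(d * c) := by
    by_contra! e
    refine h5 (h.ai.mem_scalars fun u hu => (mc.1 (h.step le_rfl ha hb ab (mc.2 cb.symm)
      (h.step inf_le_left hb ⟨ha, mc.2 rfl⟩ ba (mc.2 ca.symm) fun d hd => mc.2 ?_) hu)).symm)
    exact ((h.pm c hc.1.1 d hd.1.1).resolve_right (e d hd)).symm
  have dc : d * c = -(c * d) := by rw [cd, neg_neg]
  have h6 := h.card_half l2 hc.1.1 hd cd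
  have h7 := h.card_half (inf_le_left.trans l2) hd.1.1 (Subgroup.mem_inf.2 ⟨hc, mc.2 rfl⟩) dc
  obtain ⟨k, h8, -, h9, -⟩ := h.exists_k (le_inf (le_inf (le_inf (le_inf inf_le_right (hZ a)) (hZ b))
    (hZ c)) (hZ d)) (inf_le_left.trans (inf_le_left.trans l2))
  refine ⟨a, b, c, d, ha, hb, hc.1.1, hd.1.1, ab, cd, ca.symm, (mc.1 hd.1.2).symm, cb.symm,
    (mc.1 hd.2).symm, fun K k0 k1 k2 k3 k4 => h.step le_rfl ha hb ab k2 (h.step inf_le_left hb
      ⟨ha, mc.2 rfl⟩ ba k1 (h.step l2 hc.1.1 hd cd k4 (h.step (inf_le_left.trans l2) hd.1.1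
      ⟨hc, mc.2 rfl⟩ dc k3 ((h9.1 ?_).trans k0))))⟩
  exact (Nat.mul_eq_right h0.ne').1 (by omega)

theorem sb_eq (hs : SB R a b c d) : ∃ a b, SB R a b c d ∧
    ((a * a = 1 ∧ b * b = 1) ∨ (a * a = -1 ∧ b * b = -1)) := by
  rcases h.sq hs.ha with e | e <;> rcases h.sq hs.hb with e' | e'
  · exact ⟨a, b, hs, Or.inl ⟨e, e'⟩⟩
  · exact ⟨_, _, hs.mul hs.ha rfl hs.ac hs.ad (Or.inr rfl), Or.inl ⟨e, by
      simp [sq_mul_anti hs.ab, e, e']⟩⟩
  · exact ⟨_, _, hs.swap.mul hs.hb rfl hs.bc hs.bd (Or.inr rfl), Or.inl ⟨e', by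
      simp [sq_mul_anti hs.swap.ab, e, e']⟩⟩
  · exact ⟨a, b, hs, Or.inr ⟨e, e'⟩⟩

theorem sb_scale (hz : z ∈ R) (h1 : z ∈ scalars ι F) (h2 : z * z = -1) (hs : SB R a b c d)
    {e : GL ι F} (he : e = 1 ∨ e = -1) : ∃ b, SB R a b c d ∧ b * b = e := by
  by_cases h3 : b * b = e
  · exact ⟨b, hs, h3⟩
  refine ⟨_, hs.mul hz (cen_scalars z h1 _) (cen_scalars z h1 _) (cen_scalars z h1 _) (Or.inl h1), ?_⟩
  rw [mul_assoc, ← mul_assoc b, ← cen_scalars z h1, mul_assoc, ← mul_assoc, h2]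
  rcases h.sq hs.hb with e' | e' <;> rcases he with rfl | rfl <;> simp_all

theorem exists_sb_i [Finite F] (hn : Fintype.card ι = 4) (hz : z ∈ R) (h1 : z ∈ scalars ι F)
    (h2 : z * z = -1) : ∃ a b c d, SB R a b c d ∧ a * a = -1 ∧ b * b = -1 ∧ c * c = 1 ∧ d * d = 1 := by
  obtain ⟨a, b, c, d, hs⟩ := h.exists_sb hn
  obtain ⟨b, hs, e1⟩ := h.sb_scale hz h1 h2 hs (Or.inr rfl)
  obtain ⟨a, hs, e2⟩ := h.sb_scale hz h1 h2 hs.swap (Or.inr rfl)
  obtain ⟨d, hs, e3⟩ := h.sb_scale hz h1 h2 hs.flip (Or.inl rfl)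
  obtain ⟨c, hs, e4⟩ := h.sb_scale hz h1 h2 hs.swap (Or.inl rfl)
  exact ⟨_, _, _, _, hs.flip, e1, e2, e3, e4⟩

theorem exists_sb_minus [Finite F] (hn : Fintype.card ι = 4)
    (hE : ∀ u ∈ R, ∀ w ∈ R, u * u = 1 → w * w = 1 → u * w = w * u → u ∉ scalars ι F →
      w ∉ scalars ι F → u * w ∈ scalars ι F) :
    ∃ a b c d, SB R a b c d ∧ a * a = -1 ∧ b * b = -1 ∧ c * c = 1 ∧ d * d = 1 := by
  obtain ⟨a, b, c, d, hs⟩ := h.exists_sb hn
  obtain ⟨a, b, hs, e1⟩ := h.sb_eq hs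
  obtain ⟨c, d, hs, e2⟩ := h.sb_eq hs.flip
  have k : ∀ {a b c d}, SB R a b c d → a * c ∉ scalars ι F := fun {a b c d} hs =>
    h.not_scalar (v := b) (by rw [mul_assoc, ← hs.bc, ← mul_assoc, hs.ab, neg_mul, mul_assoc])
  rcases e1 with ⟨e1, e3⟩ | ⟨e1, e3⟩ <;> rcases e2 with ⟨e2, e4⟩ | ⟨e2, e4⟩
  · exact absurd (hE _ hs.ha _ hs.hc e2 e1 hs.ac (h.not_scalar hs.ab) (h.not_scalar hs.cd)) (k hs)
  · exact ⟨_, _, _, _, hs, e2, e4, e1, e3⟩
  · exact ⟨_, _, _, _, hs.flip, e1, e3, e2, e4⟩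
  have k2 : ∀ {a b c d}, SB R a b c d → a * a = -1 → c * c = -1 → a * c * (a * c) = 1 :=
    fun {a b c d} hs e e' => by
      rw [mul_assoc, ← mul_assoc c, ← hs.ac, mul_assoc, e', ← mul_assoc, e]; simp
  have k3 : ∀ {a b c d}, SB R a b c d → a * c * (b * d) = a * b * (c * d) :=
    fun {a b c d} hs => by rw [mul_assoc, ← mul_assoc c, ← hs.bc]; simp [mul_assoc]
  refine absurd (hE _ (mul_mem hs.ha hs.hc) _ (mul_mem hs.hb hs.hd) (k2 hs e2 e1)
    (k2 hs.swap.flip.swap.flip e4 e3) ?_ (k hs) (k hs.swap.flip.swap.flip)) ?_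
  · rw [k3 hs, k3 hs.swap.flip.swap.flip, hs.ab, hs.cd]; simp
  · rw [k3 hs]
    exact k ((hs.mul hs.ha rfl hs.ac hs.ad (Or.inr rfl)).swap.flip |> fun hs =>
      (hs.mul hs.ha rfl hs.ac hs.ad (Or.inr rfl)).swap.flip)

variable [Finite F]

omit [Nonempty ι] in
theorem exists_t (hv : v ∈ R) (e : v * v = -1) : ∃ t ∈ subgroupNormalizer R, t.1 = 1 + v.1 ∧
    UP R 2 t ∧ (∀ u, v * u = u * v → t * u = u * t) ∧ ∀ u, v * u = -(u * v) → t * u = v * u * t := by
  have e' : v.1 * v.1 = -1 := congrArg Units.val e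
  have h2 := h.two
  let t : GL ι F := ⟨1 + v.1, (2 : F)⁻¹ • (1 - v.1), by
    simp only [mul_smul_comm, mul_sub, add_mul, one_mul, mul_one, e']; match_scalars <;> field_simp <;> ring, by
    simp only [smul_mul_assoc, sub_mul, mul_add, one_mul, mul_one, e']; match_scalars <;> field_simp <;> ring⟩
  have h3 : ∀ u, v * u = u * v → t * u = u * t := fun u e => Units.ext (by
    have : v.1 * u.1 = u.1 * v.1 := congrArg Units.val e
    simp [t, add_mul, mul_add, this])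
  have h4 : ∀ u, v * u = -(u * v) → t * u = v * u * t := fun u e => Units.ext (by
    have : v.1 * u.1 = -(u.1 * v.1) := congrArg Units.val e
    simp only [t, Units.val_mul, add_mul, mul_add, this, one_mul, mul_one, neg_mul, mul_assoc u.1, e']
    simp [add_comm])
  refine ⟨t, mem_norm_of fun u hu => ?_, rfl,
    fun σ Φ H x y => ?_, h3, h4⟩
  · rcases h.pm v hv u hu with e | e
    · rwa [h3 u e, mul_inv_cancel_right]
    · rw [h4 u e, mul_inv_cancel_right]; exact mul_mem hv hu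
  · have a1 := (H v hv).B x y
    have a2 := (H v hv).B (v.1 *ᵥ x) y
    simp only [toLin'_apply, mulVec_mulVec, e', neg_mulVec, one_mulVec, map_neg,
      LinearMap.neg_apply] at a1 a2
    simp only [t, toLin'_apply, one_mulVec, map_add, LinearMap.add_apply]
    linear_combination a1 - a2

omit [Nonempty ι] in
theorem exists_s (ha : a ∈ R) (hb : b ∈ R) (ab : a * b = -(b * a)) (e1 : a * a = -1)
    (e2 : b * b = -1) : ∃ s ∈ subgroupNormalizer R, UP R 1 s ∧ s.1 * s.1 + s.1 + 1 = 0 ∧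
      (∀ u, a * u = u * a → b * u = u * b → s * u = u * s) ∧
      ∀ M, a.1 * M = M * a.1 → b.1 * M = M * b.1 → (M * s.1).trace = -2⁻¹ * M.trace := by
  have h2 := h.two
  obtain ⟨t, h3, h4, h5, h6, -⟩ := h.exists_t ha e1
  obtain ⟨t', h7, h8, h9, h10, -⟩ := h.exists_t hb e2
  have hc : (-2⁻¹ : F) ≠ 0 := by simpa
  have a1 : a.1 * a.1 = -1 := congrArg Units.val e1
  have a2 : b.1 * b.1 = -1 := congrArg Units.val e2
  have a3 : b.1 * a.1 = -(a.1 * b.1) := congrArg Units.val (neg_eq_iff_eq_neg.2 ab).symm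
  have a4 : ∀ M, a.1 * (a.1 * M) = -M := fun M => by simp [← mul_assoc, a1]
  have a5 : ∀ M, b.1 * (a.1 * M) = -(a.1 * (b.1 * M)) := fun M => by simp [← mul_assoc, a3]
  refine ⟨_, smGL_mem_norm _ (mul_mem h3 h7) _ hc, (h5.mul h9).smul hc (fun σ => by simp [map_ofNat])
    (by field_simp), ?_, fun u e e' => Units.ext ?_, fun M e e' => ?_⟩
  · simp only [smGL_val, Units.val_mul, h4, h8, smul_mul_smul, mul_add, add_mul, one_mul, mul_one,
      mul_assoc, a1, a2, a3, a4, a5, mul_neg, neg_neg]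
    match_scalars <;> field_simp <;> ring
  · simp only [smGL_val, Units.val_mul, smul_mul_assoc, mul_smul_comm]
    exact congrArg (fun x : GL ι F => (-2⁻¹ : F) • x.1) (show t * t' * u = u * (t * t') by
      rw [mul_assoc, h10 u e', ← mul_assoc, h6 u e, mul_assoc])
  · have b1 : (M * a.1).trace = 0 := trace_anti h2 (v := b) (by
      rw [← mul_assoc, e', mul_assoc, a3, mul_neg, mul_assoc])
    have b2 : (M * b.1).trace = 0 := trace_anti h2 (v := a) (by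
      rw [← mul_assoc, e, mul_assoc, mul_assoc, a3, mul_neg, neg_neg])
    have b3 : (M * (a.1 * b.1)).trace = 0 := trace_anti h2 (v := a) (by
      rw [← mul_assoc, e, mul_assoc, mul_assoc, mul_assoc, a3, mul_neg, mul_neg, neg_neg])
    simp [h4, h8, mul_add, add_mul, b1, b2, b3]

omit [Nonempty ι] in
theorem exists_rot (hx : x ∈ R) (hy : y ∈ R) (xy : x * y = -(y * x)) (e1 : x * x = 1)
    (e2 : y * y = 1) : ∃ t ∈ subgroupNormalizer R, UP R 2 t ∧ (∀ g, t * (x * g) = -(y * (t * g))) ∧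
      (∀ g, t * (y * g) = x * (t * g)) ∧
      ∀ z, z * x = -(x * z) → z * y = -(y * z) → ∀ g, t * (z * g) = z * (t * g) := by
  obtain ⟨t, h3, -, h5, h6, h7⟩ := h.exists_t (mul_mem hx hy) (by simp [sq_mul_anti xy, e1, e2])
  have yx : y * x = -(x * y) := by rw [xy, neg_neg]
  refine ⟨t, h3, h5, fun g => ?_, fun g => ?_, fun z e e' g => ?_⟩
  · rw [← mul_assoc, h7 x (by rw [mul_assoc, yx, mul_neg]), mul_assoc x, yx]
    simp [← mul_assoc, e1]
  · rw [← mul_assoc, h7 y (by rw [← mul_assoc, yx]; simp), mul_assoc x, e2]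
    simp [mul_assoc]
  · rw [← mul_assoc, h6 z (by rw [← mul_assoc, e, neg_mul, mul_assoc x z, e']; simp [mul_assoc]),
      mul_assoc]

theorem exists_five (hs : SB R a b c d) (ea : a * a = -1) (eb : b * b = -1) (ec : c * c = 1)
    (ed : d * d = 1) : ∃ y ∈ subgroupNormalizer R, UP R 1 y ∧ y ^ 5 ∈ scalars ι F ∧
      y ∉ scalars ι F := by
  have dc := hs.flip.swap.ab
  have n1 : ∀ g, d * (c * g) = -(c * (d * g)) := fun g => by simp [← mul_assoc, dc]
  have n2 : ∀ g, b * (a * g) = -(a * (b * g)) := fun g => by simp [← mul_assoc, hs.swap.ab]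
  have n3 : ∀ {x y : GL ι F}, x * y = y * x → ∀ g, x * (y * g) = y * (x * g) := fun e g => by
    simp [← mul_assoc, e]
  have n4 : ∀ {x e : GL ι F}, x * x = e → ∀ g, x * (x * g) = e * g := fun e g => by
    simp [← mul_assoc, e]
  obtain ⟨u, hu⟩ : ∃ u, u = c * (d * a) := ⟨_, rfl⟩
  obtain ⟨v, hv⟩ : ∃ v, v = c * (d * b) := ⟨_, rfl⟩
  obtain ⟨w, hw⟩ : ∃ w, w = c * (d * (a * b)) := ⟨_, rfl⟩
  have m1 : u ∈ R := hu ▸ mul_mem hs.hc (mul_mem hs.hd hs.ha)
  have m2 : v ∈ R := hv ▸ mul_mem hs.hc (mul_mem hs.hd hs.hb)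
  have m3 : w ∈ R := hw ▸ mul_mem hs.hc (mul_mem hs.hd (mul_mem hs.ha hs.hb))
  obtain ⟨e1, e2, e3, cu, cv, cw, du, dv, dw, uv, uw, vw⟩ : u * u = 1 ∧ v * v = 1 ∧ w * w = 1 ∧
      c * u = -(u * c) ∧ c * v = -(v * c) ∧ c * w = -(w * c) ∧ d * u = -(u * d) ∧
      d * v = -(v * d) ∧ d * w = -(w * d) ∧ u * v = -(v * u) ∧ u * w = -(w * u) ∧
      v * w = -(w * v) := by
    simp [hu, hv, hw, mul_assoc, n1, n2, n3 hs.ac, n3 hs.ad, n3 hs.bc, n3 hs.bd, n4 ea,
      n4 ec, n4 ed, hs.ac, hs.ad, hs.bc, hs.bd, ea, eb, ec, ed, hs.swap.ab]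
  have fl : ∀ {x y : GL ι F}, x * y = -(y * x) → y * x = -(x * y) := fun e => by rw [e, neg_neg]
  obtain ⟨t1, a1, a2, a3, a4, a5⟩ := h.exists_rot hs.hc hs.hd hs.cd ec ed
  obtain ⟨t2, b1, b2, b3, b4, b5⟩ := h.exists_rot hs.hd m1 du ed e1
  obtain ⟨t3, c1, c2, c3, c4, c5⟩ := h.exists_rot m1 m2 uv e1 e2
  obtain ⟨t4, d1, d2, d3, d4, d5⟩ := h.exists_rot m2 m3 vw e2 e3
  obtain ⟨t, ht⟩ : ∃ t, t = t1 * (t2 * (t3 * t4)) := ⟨_, rfl⟩
  have f1 : ∀ g, t * (c * g) = -(d * (t * g)) := fun g => by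
    simp [ht, mul_assoc, d5 c cv cw, c5 c cu cv, b5 c hs.cd cu, a3]
  have f2 : ∀ g, t * (d * g) = -(u * (t * g)) := fun g => by
    simp [ht, mul_assoc, d5 d dv dw, c5 d du dv, b3, a5 u (fl cu) (fl du)]
  have f3 : ∀ g, t * (u * g) = -(v * (t * g)) := fun g => by
    simp [ht, mul_assoc, d5 u uv uw, c3, b5 v (fl dv) (fl uv), a5 v (fl cv) (fl dv)]
  have f4 : ∀ g, t * (v * g) = -(w * (t * g)) := fun g => by
    simp [ht, mul_assoc, d3, c5 w (fl uw) (fl vw), b5 w (fl dw) (fl uw), a5 w (fl cw) (fl dw)]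
  have f5 : ∀ g, t * (w * g) = c * (t * g) := fun g => by
    simp [ht, mul_assoc, d4, c4, b4, a4]
  have h2 := h.two
  have hc : (2⁻¹ * 2⁻¹ : F) ≠ 0 := by simpa
  have hk : ∀ x, (∀ g, t * (t * (t * (t * (t * (x * g))))) = x * (t * (t * (t * (t * (t * g)))))) →
      x ∈ Subgroup.centralizer {t ^ 5} := fun x e => Subgroup.mem_centralizer_singleton_iff.2 (by
    simpa [pow_succ, mul_assoc] using (e 1).symm)
  have k1 := hk c (by simp [f1, f2, f3, f4, f5])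
  have k2 := hk d (by simp [f1, f2, f3, f4, f5])
  have k3 := hk u (by simp [f1, f2, f3, f4, f5])
  have k4 := hk v (by simp [f1, f2, f3, f4, f5])
  have h5 : t ^ 5 ∈ scalars ι F := h.ai.mem_scalars fun x hx =>
    (Subgroup.mem_centralizer_singleton_iff.1 (hs.gen _ (fun z hz =>
      Subgroup.mem_centralizer_singleton_iff.2 (cen_scalars z hz _))
      ((Subgroup.mul_mem_cancel_left _ k2).1 ((Subgroup.mul_mem_cancel_left _ k1).1 (hu ▸ k3)))
      ((Subgroup.mul_mem_cancel_left _ k2).1 ((Subgroup.mul_mem_cancel_left _ k1).1 (hv ▸ k4)))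
      k1 k2 hx)).symm
  refine ⟨smGL _ hc t, smGL_mem_norm _ (ht ▸ mul_mem a1 (mul_mem b1 (mul_mem c1 d1))) _ hc,
    (ht ▸ a2.mul (b2.mul (c2.mul d2))).smul hc (fun σ => by simp [map_ofNat]) (by field_simp), ?_,
    fun e => ?_⟩
  · obtain ⟨z, hz⟩ := (mem_scalars_iff _).1 h5
    refine mem_scalars_of_val (c := (2⁻¹ * 2⁻¹) ^ 5 * z) ?_
    rw [Units.val_pow_eq_pow_val, smGL_val, _root_.smul_pow, ← Units.val_pow_eq_pow_val, hz, smul_smul]
  · obtain ⟨z, hz⟩ := (mem_scalars_iff _).1 e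
    have h6 := cen_scalars t (mem_scalars_of_val (c := (2⁻¹ * 2⁻¹)⁻¹ * z) (by
      rw [mul_smul, ← hz, smGL_val, inv_smul_smul₀ hc])) c
    have h7 := f1 1
    rw [mul_one, mul_one, h6, ← neg_mul, mul_left_inj] at h7
    exact h.ne_neg (d * d) (by simpa [h7] using hs.cd.symm)

theorem exists_cz (hn : Fintype.card ι = 4) (hu : u ∈ R) (hw : w ∈ R) (e1 : u * u = 1)
    (e2 : w * w = 1) (uw : u * w = w * u) (h1 : u ∉ scalars ι F) (h3 : w ∉ scalars ι F)
    (h4 : u * w ∉ scalars ι F) (h5 : -1 ∈ R) : ∃ y ∈ subgroupNormalizer R, UP R 1 y ∧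
      y.1 * y.1 = 1 ∧ y.1.trace = 2 ∧ y.1 ≠ -1 := by
  have h2 := h.two
  have a1 : u.1 * u.1 = 1 := congrArg Units.val e1
  have a2 : w.1 * w.1 = 1 := congrArg Units.val e2
  have a3 : w.1 * u.1 = u.1 * w.1 := congrArg Units.val uw.symm
  have a4 : ∀ M, u.1 * (u.1 * M) = M := fun M => by simp [← mul_assoc, a1]
  have a5 : ∀ M, w.1 * (u.1 * M) = u.1 * (w.1 * M) := fun M => by simp [← mul_assoc, a3]
  obtain ⟨Y, hY⟩ : ∃ Y, Y = (2 : F)⁻¹ • (1 + u.1 + w.1 - u.1 * w.1) := ⟨_, rfl⟩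
  have a6 : Y * Y = 1 := by
    simp only [hY, smul_mul_smul, mul_add, add_mul, mul_sub, sub_mul, one_mul, mul_one, mul_assoc,
      a1, a2, a3, a4, a5]
    match_scalars <;> field_simp <;> ring
  have t1 := h.ext.trace_eq_zero hu h1
  have t2 := h.ext.trace_eq_zero hw h3
  have t3 := h.ext.trace_eq_zero (mul_mem hu hw) h4
  rw [Units.val_mul] at t3
  let y : GL ι F := ⟨Y, Y, a6, a6⟩
  have key : ∀ v x : GL ι F, Y * v.1 = v.1 * (x.1 * Y) → y * v * y⁻¹ = v * x := fun v x e =>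
    mul_inv_eq_iff_eq_mul.2 (Units.ext (e.trans (mul_assoc _ _ _).symm))
  refine ⟨y, mem_norm_of fun v hv => ?_,
    fun σ Φ H s t => ?_, a6, ?_, fun e => ?_⟩
  · rcases h.pm u hu v hv with b1 | b1 <;> rcases h.pm w hw v hv with b2 | b2
    on_goal 1 => rw [key v 1 ?_]; exact mul_mem hv (one_mem _)
    on_goal 2 => rw [key v u ?_]; exact mul_mem hv hu
    on_goal 3 => rw [key v w ?_]; exact mul_mem hv hw
    on_goal 4 => rw [key v (-1 * (u * w)) ?_]; exact mul_mem hv (mul_mem h5 (mul_mem hu hw))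
    all_goals
      replace b1 := congrArg Units.val b1
      replace b2 := congrArg Units.val b2
      simp only [Units.val_mul, Units.val_neg] at b1 b2
      simp only [hY, smul_mul_assoc, mul_smul_comm, mul_add, add_mul, mul_sub, sub_mul, one_mul,
        mul_one, mul_assoc, a1, a2, a3, a4, a5, b1, b2, ← mul_assoc u.1 v.1, Units.val_mul,
        Units.val_neg, Units.val_one, neg_mul, mul_neg]
      try (match_scalars <;> ring)
  · have sa : ∀ x ∈ R, x.1 * x.1 = 1 → ∀ s t, Φ.B (x.1 *ᵥ s) t = Φ.B s (x.1 *ᵥ t) :=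
      fun x hx e s t => by simpa [e] using ((H x hx).B (x.1 *ᵥ s) t).symm
    have : ∀ s t, Φ.B (Y *ᵥ s) t = Φ.B s (Y *ᵥ t) := fun s t => by
      simp only [hY, smul_mulVec, add_mulVec, sub_mulVec, one_mulVec, B_smul_left, B_smul_right,
        map_add, map_sub, LinearMap.add_apply, LinearMap.sub_apply, map_inv₀, map_ofNat,
        sa u hu a1, sa w hw a2, ← mulVec_mulVec]
      simp only [mulVec_mulVec, a3]
    change Φ.B (Y *ᵥ s) (Y *ᵥ t) = _
    rw [this, mulVec_mulVec, a6, one_mulVec, one_mul]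
  · change Y.trace = 2
    simp only [hY, trace_smul, trace_add, trace_sub, t1, t2, t3, trace_one, hn, smul_eq_mul]
    field_simp; norm_num
  · have := congrArg (fun M => trace (u.1 * M)) (show Y = -1 from e)
    simp only [hY, mul_smul_comm, mul_add, mul_sub, a1, a4, mul_one, mul_neg, trace_neg, trace_smul,
      trace_add, trace_sub, t1, t2, t3, trace_one, hn, smul_eq_mul] at this
    refine h2 ?_
    field_simp at this
    exact mul_left_cancel₀ h2 (by push_cast at this; linear_combination this)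

end PM

end H16.NX
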