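import Cfsg.Agent.H16.NX5
import Mathlib.NumberTheory.LegendreSymbol.QuadraticReciprocity

/-! Normalizers of 2-groups of symplectic type in dimension four: classes and witnesses. -/

set_option autoImplicit false

namespace H16.NX

open Module Polynomial H23 H23.Form H14.Wall Matrix Cfsg.Geo
open H23.As (cj cj_val cj_eq_iff cj_apply sc sc_val trace_cj AI Ext exists_sc cen_scalars
  mem_scalars_of_val)

universe u

section Ed

variable {F : Type u} {V : Type*} [Field F] [Fintype F] [AddCommGroup V] [Module F V]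
  [FiniteDimensional F V] {g h : End F V} {r : ℕ}

theorem ed_Tr (hr : r.Prime) (hr0 : (r : F) ≠ 0) (h1 : g ^ r = 1) : ∃ s : Multiset F[X],
    (∀ a ∈ s, a ∈ Tr F r) ∧ ed g = s + Multiset.replicate (kd g (X - C 1)) (X - C 1) ∧
      s.card * orderOf (Fintype.card F : ZMod r) + kd g (X - C 1) = finrank F V ∧
      (g ≠ 1 → s.card ≠ 0) := by
  obtain ⟨s, k, h2, h3⟩ := Tr_decomp hr hr0 fun q hq => ⟨ed_isPP hq, (ed_dvd_one_iff g r).1 h1 q hq⟩
  obtain rfl := kd_Tr hr h2 h3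
  refine ⟨s, h2, h3, by rw [← sum_deg_add hr hr0 h2, ← h3, sum_natDegree_ed], fun h4 e => h4 ?_⟩
  rw [← one_smul F (1 : End F V), eq_smul_iff_ed]
  intro q hq
  rw [h3, Multiset.card_eq_zero.1 e, zero_add] at hq
  exact Multiset.eq_of_mem_replicate hq

theorem ed_eq_one (hr : r.Prime) (hr0 : (r : F) ≠ 0)
    (ho : orderOf (Fintype.card F : ZMod r) = r - 1) (h1 : g ^ r = 1) (h2 : h ^ r = 1)
    (e : kd h (X - C 1) = kd g (X - C 1)) : ed h = ed g := by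
  obtain ⟨s, a1, a2, a3, -⟩ := ed_Tr hr hr0 h1
  obtain ⟨t, b1, b2, b3, -⟩ := ed_Tr hr hr0 h2
  have h3 := orderOf_card_pos hr hr0
  obtain ⟨h4, -⟩ := Nat.card_eq_one_iff_unique.1 ((Tr_card hr hr0).trans
    (by rw [ho]; exact Nat.div_self (ho ▸ h3)))
  obtain ⟨f, hf⟩ := Tr_nonempty hr hr0
  have h5 : ∀ s : Multiset F[X], (∀ a ∈ s, a ∈ Tr F r) → s = Multiset.replicate s.card f :=
    fun s hs => Multiset.eq_replicate_card.2 fun a ha =>
      congrArg Subtype.val (h4.elim ⟨a, hs a ha⟩ ⟨f, hf⟩)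
  rw [a2, b2, e, h5 s a1, h5 t b1, show t.card = s.card from Nat.eq_of_mul_eq_mul_right h3 (by omega)]

variable {q : ℕ} {hF : Fintype.card F = q ^ 2} {Φ : Form (conj hF) V}

theorem ed_two (hΦ : Φ.Nondeg) (hr : r.Prime) (hr0 : (r : F) ≠ 0)
    (hd : ∀ a ∈ Tr F r, dual (conj hF) a ≠ a) (hg : Pres Φ g) (h1 : g ^ r = 1) :
    ∃ ν : Multiset F[X], (∀ a ∈ ν, a ∈ Tr F r) ∧
      ed g = ν + ν.map (dual (conj hF)) + Multiset.replicate (kd g (X - C 1)) (X - C 1) ∧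
      ν.card * (2 * orderOf (Fintype.card F : ZMod r)) + kd g (X - C 1) = finrank F V ∧
      (g ≠ 1 → ν.card ≠ 0) := by
  obtain ⟨s, a1, a2, a3, a4⟩ := ed_Tr hr hr0 h1
  obtain ⟨ν, ρ, rfl, -, a5⟩ := Tr_hyp (conj_conj hF) hr hr0 a1
    (map_dual_of_add (a2 ▸ ed_dual_of_B hΦ hg.B))
  obtain rfl : ρ = 0 := Multiset.eq_zero_of_forall_notMem fun a ha => hd a (a5 a ha).1 (a5 a ha).2
  simp only [add_zero, Multiset.card_add, Multiset.card_map] at a2 a3 a4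
  exact ⟨ν, fun a ha => a1 a (by simp [ha]), a2, by rw [← a3]; ring, fun e e' => a4 e (by omega)⟩

theorem ed_eq_two (hΦ : Φ.Nondeg) (hr : r.Prime) (hr0 : (r : F) ≠ 0)
    (ho : (r - 1) / orderOf (Fintype.card F : ZMod r) = 2)
    (hd : ∀ a ∈ Tr F r, dual (conj hF) a ≠ a) (hg : Pres Φ g) (hh : Pres Φ h) (h1 : g ^ r = 1)
    (h2 : h ^ r = 1) (e : kd h (X - C 1) = kd g (X - C 1)) : ed h = ed g := by
  obtain ⟨s, a1, a2, a3, -⟩ := ed_two hΦ hr hr0 hd hg h1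
  obtain ⟨t, b1, b2, b3, -⟩ := ed_two hΦ hr hr0 hd hh h2
  have h3 := orderOf_card_pos hr hr0
  obtain ⟨f, hf⟩ := Tr_nonempty hr hr0
  obtain ⟨f', -, h4⟩ := (Nat.card_eq_two_iff' (⟨f, hf⟩ : Tr F r)).1 ((Tr_card hr hr0).trans ho)
  have h5 : ∀ s : Multiset F[X], (∀ a ∈ s, a ∈ Tr F r) →
      s + s.map (dual (conj hF)) = s.card • {f, dual (conj hF) f} := fun s hs => by
    induction s using Multiset.induction_on with
    | empty => simp
    | cons a s ih =>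
      have h6 : ({a, dual (conj hF) a} : Multiset F[X]) = {f, dual (conj hF) f} := by
        by_cases e : a = f
        · rw [e]
        have := congrArg Subtype.val ((h4 ⟨a, hs a (by simp)⟩ fun e' => e (congrArg Subtype.val e')).trans
          (h4 ⟨_, dual_mem_Tr (conj_conj hF) hr hf⟩ fun e' => hd f hf (congrArg Subtype.val e')).symm)
        rw [show a = dual (conj hF) f from this, dual_dual (conj_conj hF) hf.1 (Tr_coeff hr hf),
          Multiset.pair_comm]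
      rw [Multiset.card_cons, succ_nsmul, ← ih fun b hb => hs b (by simp [hb]), ← h6]
      rw [Multiset.map_cons]
      simp only [Multiset.insert_eq_cons, ← Multiset.singleton_add]
      abel
  rw [a2, b2, e, h5 s a1, h5 t b1, show t.card = s.card from
    Nat.eq_of_mul_eq_mul_right (show 0 < 2 * _ from Nat.mul_pos two_pos h3) (by omega)]

theorem cd_two [Nontrivial V] (hΦ : Φ.Nondeg) (hε : Φ.ε = 1) (hr : r.Prime) (hr0 : (r : F) ≠ 0)
    (hd : ∀ a ∈ Tr F r, dual (conj hF) a ≠ a) (hg : Pres Φ g) (h1 : g ^ r = 1) : CD Φ g := by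
  obtain ⟨s, -, a2, -⟩ := ed_two hΦ hr hr0 hd hg h1
  by_cases e : kd g (X - C 1) = 0
  · exact cd_of_hyp hΦ hg (ss_of_pow hr0 one_ne_zero (by simp [h1])) (s := s) (by rw [a2, e]; simp)
  · exact cd_of_lin hΦ hε hg (one_pow _) (by rw [a2]; simp [Multiset.mem_replicate, e, -map_one])

end Ed

variable {ι : Type} [Fintype ι] [DecidableEq ι] {F : Type u} [Field F]
  {R G : Subgroup (GL ι F)} {a b c d u v w x y z : GL ι F} {r : ℕ} {τ : F}

theorem kd_eq_zero_iff {A : Matrix ι ι F} : kd (toLin' A) (X - C 1) = 0 ↔ ∀ v, A *ᵥ v = v → v = 0 := by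
  rw [kd, Submodule.finrank_eq_zero, Submodule.eq_bot_iff]
  simp only [mem_ker_lin, one_smul, toLin'_apply]

theorem tt_linM {t : Multiset F} (h : edM x.1 = linM t) (ht : ∀ a ∈ t, a ≠ 0) :
    tt x = t.sum * (t.map (·⁻¹)).sum := by
  rw [tt, trace_linM h, trace_linM (t := t.map (·⁻¹))]
  rw [edM, ed_inv (f := toLin' x.1) (by
    rw [End.mul_eq_comp, ← toLin'_mul, Units.mul_inv, toLin'_one]; rfl), ← map_dual_id, ← edM, h,
    linM_dual ht]
  rfl

theorem UP.pow (h : UP R 1 x) (k : ℕ) : UP R 1 (x ^ k) := by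
  induction k with
  | zero => exact UP.of_mem (by simp)
  | succ k ih => simpa [pow_succ] using ih.mul h

/-- the witness `W ⊕ 1 ⊕ 1` -/
structure WD (τ : F) (x : GL ι F) : Prop where
  cub : x.1 * (x.1 * x.1) = (1 + τ) • (x.1 * x.1) - (1 + τ) • x.1 + 1
  ns : ∀ z : F, x.1 ≠ z • 1
  t : tt x = (2 + τ) ^ 2
  tv : τ = 2 → ∃ a b, b ⬝ᵥ a = 0 ∧ x.1 = 1 + vecMulVec a b

theorem WD.three (h : WD (-1 : F) x) : x ^ 3 = 1 :=
  Units.ext (by simpa [pow_succ, mul_assoc] using h.cub)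

theorem WD.five (h : WD τ x) (e : τ ^ 2 + τ - 1 = 0) : x ^ 5 = 1 := Units.ext (by
  simp only [pow_succ, pow_zero, one_mul, mul_assoc, Units.val_mul, h.cub, mul_add, mul_sub,
    mul_smul_comm, mul_one, Units.val_one]
  match_scalars <;> grind)

/-- witness -/
def wA (τ : F) : Matrix (Fin 4) (Fin 4) F := !![0, -1, 0, 0; 1, τ, 0, 0; 0, 0, 1, 0; 0, 0, 0, 1]
/-- its inverse -/
def wB (τ : F) : Matrix (Fin 4) (Fin 4) F := !![τ, 1, 0, 0; -1, 0, 0, 0; 0, 0, 1, 0; 0, 0, 0, 1]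

theorem wA_1 (τ : F) : wA τ * wB τ = 1 := by
  ext i j
  fin_cases i <;> fin_cases j <;> simp [wA, wB, mul_apply, Fin.sum_univ_four]

theorem wA_2 (τ : F) : wA τ * wA τ = !![-1, -τ, 0, 0; τ, τ ^ 2 - 1, 0, 0; 0, 0, 1, 0; 0, 0, 0, 1] := by
  ext i j
  fin_cases i <;> fin_cases j <;> simp [wA, mul_apply, Fin.sum_univ_four]
  ring

theorem wA_3 (τ : F) : wA τ * (wA τ * wA τ) = (1 + τ) • (wA τ * wA τ) - (1 + τ) • wA τ + 1 := by
  rw [wA_2]
  ext i j
  fin_cases i <;> fin_cases j <;> simp [wA, mul_apply, Fin.sum_univ_four] <;> ring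

theorem wA_4 (τ : F) : (wA τ).det = 1 := by
  simp [wA, det_succ_row_zero, Fin.sum_univ_succ, Fin.succAbove]

theorem wA_5 : wA (2 : F) = 1 + vecMulVec ![-1, 1, 0, 0] ![1, 1, 0, 0] := by
  ext i j
  fin_cases i <;> fin_cases j <;> simp [wA]
  ring

theorem wA_6 (τ : F) : (wA τ).trace * (wB τ).trace = (2 + τ) ^ 2 := by
  simp [wA, wB, Matrix.trace, Fin.sum_univ_four]; ring

theorem exists_wd_sl (τ : F) : ∃ x ∈ specialLinear (Fin 4) F, WD τ x :=
  ⟨⟨wA τ, wB τ, wA_1 τ, mul_eq_one_comm.1 (wA_1 τ)⟩, Units.ext (wA_4 τ), wA_3 τ,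
    fun z e => by simpa [wA] using congrFun (congrFun e 1) 0, wA_6 τ,
    fun e => ⟨_, _, by simp, e ▸ wA_5⟩⟩

/-- witness -/
def wC (τ : F) : Matrix (Fin 2 ⊕ Fin 2) (Fin 2 ⊕ Fin 2) F :=
  fromBlocks !![0, 0; 0, 1] !![-1, 0; 0, 0] !![1, 0; 0, 0] !![τ, 0; 0, 1]
/-- its inverse -/
def wD (τ : F) : Matrix (Fin 2 ⊕ Fin 2) (Fin 2 ⊕ Fin 2) F :=
  fromBlocks !![τ, 0; 0, 1] !![1, 0; 0, 0] !![-1, 0; 0, 0] !![0, 0; 0, 1]

theorem wC_1 (τ : F) : wC τ * wD τ = 1 := by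
  ext (i | i) (j | j) <;> fin_cases i <;> fin_cases j <;> simp [wC, wD, mul_apply]

theorem wC_2 (τ : F) : wC τ * wC τ =
    fromBlocks !![-1, 0; 0, 1] !![-τ, 0; 0, 0] !![τ, 0; 0, 0] !![τ ^ 2 - 1, 0; 0, 1] := by
  ext (i | i) (j | j) <;> fin_cases i <;> fin_cases j <;> simp [wC, mul_apply]
  ring

theorem wC_3 (τ : F) : wC τ * (wC τ * wC τ) = (1 + τ) • (wC τ * wC τ) - (1 + τ) • wC τ + 1 := by
  rw [wC_2]
  ext (i | i) (j | j) <;> fin_cases i <;> fin_cases j <;> simp [wC, mul_apply] <;> ring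

theorem wC_4 (τ : F) (u v : Fin 2 ⊕ Fin 2 → F) :
    Cfsg.sympForm 2 F (wC τ *ᵥ u) (wC τ *ᵥ v) = Cfsg.sympForm 2 F u v := by
  simp [Cfsg.sympForm, J, wC, dotProduct, mulVec]; ring

theorem wC_5 : wC (2 : F) = 1 + vecMulVec (Sum.elim ![-1, 0] ![1, 0]) (Sum.elim ![1, 0] ![1, 0]) := by
  ext (i | i) (j | j) <;> fin_cases i <;> fin_cases j <;> simp [wC, vecMulVec_apply]
  ring

theorem wC_6 (τ : F) : (wC τ).trace * (wD τ).trace = (2 + τ) ^ 2 := by
  simp [wC, wD, Matrix.trace]; ring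

theorem exists_wd_sp (τ : F) : ∃ x ∈ Cfsg.spGL 2 F, WD τ x :=
  ⟨⟨wC τ, wD τ, wC_1 τ, mul_eq_one_comm.1 (wC_1 τ)⟩, wC_4 τ, wC_3 τ,
    fun z e => by simpa [wC] using congrFun (congrFun e (.inr 0)) (.inl 0), wC_6 τ,
    fun e => ⟨_, _, by simp, e ▸ wC_5⟩⟩

theorem five_cases (p : ℕ) : p % 5 = 0 ∨ ((p % 5 = 1 ∨ p % 5 = 4) ∧ orderOf (p : ZMod 5) ≠ 4) ∨
    ((p % 5 = 2 ∨ p % 5 = 3) ∧ orderOf (p : ZMod 5) = 4) := by
  have : Fact (Nat.Prime 2) := ⟨Nat.prime_two⟩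
  have h1 : ∀ a : ZMod 5, a ^ 2 = 1 → orderOf a ≠ 4 := fun a h e => by
    have := orderOf_dvd_of_pow_eq_one h
    rw [e] at this; omega
  have h2 : ∀ a : ZMod 5, a ^ 2 ^ 1 ≠ 1 → a ^ 2 ^ 2 = 1 → orderOf a = 4 := fun a h e =>
    orderOf_eq_prime_pow h e
  rw [← ZMod.natCast_mod p 5]
  obtain h | h | h | h | h : p % 5 = 0 ∨ p % 5 = 1 ∨ p % 5 = 2 ∨ p % 5 = 3 ∨ p % 5 = 4 := by omega
  all_goals rw [h]
  exacts [.inl rfl, .inr (.inl ⟨.inl rfl, h1 _ (by decide)⟩),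
    .inr (.inr ⟨.inl rfl, h2 _ (by decide) (by decide)⟩),
    .inr (.inr ⟨.inr rfl, h2 _ (by decide) (by decide)⟩), .inr (.inl ⟨.inr rfl, h1 _ (by decide)⟩)]

theorem exists_tau (p : ℕ) [hp : Fact p.Prime] [CharP F p] (h2 : p ≠ 2)
    (h : orderOf (p : ZMod 5) ≠ 4) : ∃ τ : F, τ ^ 2 + τ - 1 = 0 := by
  have : Fact (Nat.Prime 5) := ⟨Nat.prime_five⟩
  have h3 : (2 : F) ≠ 0 := fun e => h2 ((Nat.prime_dvd_prime_iff_eq hp.out Nat.prime_two).1
    ((CharP.cast_eq_zero_iff F p 2).1 e))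
  obtain ⟨s, hs⟩ := (ZMod.exists_sq_eq_prime_iff_of_mod_four_eq_one (p := 5) (q := p) rfl h2).1 (by
    rw [← ZMod.natCast_mod p 5]
    obtain e | ⟨e | e, -⟩ | ⟨-, e⟩ := five_cases p
    · rw [e]; exact ⟨0, rfl⟩
    · rw [e]; exact ⟨1, rfl⟩
    · rw [e]; exact ⟨2, rfl⟩
    · exact absurd e h)
  have h4 := congrArg (ZMod.castHom (dvd_refl p) F) hs
  rw [map_natCast, map_mul] at h4
  refine ⟨(ZMod.castHom (dvd_refl p) F s - 1) / 2, ?_⟩
  field_simp
  push_cast at h4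
  linear_combination -h4

theorem not_scalar_of (h : ∀ z : F, x.1 ≠ z • 1) : x ∉ scalars ι F := fun e =>
  ((mem_scalars_iff x).1 e).elim fun c => h c

theorem SB.neg_mem (hs : SB R a b c d) : -1 ∈ R := by
  have := mul_mem (mul_mem hs.ha hs.hb) (inv_mem (mul_mem hs.hb hs.ha))
  rwa [hs.ab, neg_mul, mul_inv_cancel] at this

variable [Nonempty ι]

namespace PM

variable (h : PM R)
include h

theorem exists_sep (hu : u ∈ R) (hw : w ∈ R) (h1 : u ∉ scalars ι F)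
    (h2 : u * w ∉ scalars ι F) : ∃ v ∈ R, w * v = v * w ∧ u * v = -(v * u) := by
  have mc := @Subgroup.mem_centralizer_singleton_iff (GL ι F) _
  by_contra! e
  have h3 : ∀ v ∈ R, w * v = v * w → u * v = v * u := fun v hv e' =>
    (h.pm u hu v hv).resolve_right (e v hv e')
  by_cases h4 : ∀ v ∈ R, w * v = v * w
  · exact h1 (h.ai.mem_scalars fun v hv => h3 v hv (h4 v hv))
  push Not at h4
  obtain ⟨v, hv, h4⟩ := h4
  replace h4 := (h.pm w hw v hv).resolve_left h4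
  rcases h.pm u hu v hv with h5 | h5
  · exact h1 (h.ai.mem_scalars fun x hx => (mc.1 (h.step le_rfl hw hv h4 (mc.2 h5.symm)
      (fun y hy => mc.2 (h3 y hy.1 (mc.1 hy.2).symm).symm) hx)).symm)
  · exact h2 (h.ai.mem_scalars fun x hx => (mc.1 (h.step le_rfl hw hv h4 (mc.2 (by
      rw [mul_assoc, h4, mul_neg, ← mul_assoc u, h5]; simp [mul_assoc]))
      (fun y hy => mc.2 (by rw [mul_assoc, ← mc.1 hy.2, ← mul_assoc, ← mul_assoc,
        h3 y hy.1 (mc.1 hy.2).symm])) hx)).symm)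

variable [Finite F]

theorem no_eight (hm : IsOfMinusType 2 R) (hu : u ∈ R) (hw : w ∈ R) (e1 : u * u = 1)
    (e2 : w * w = 1) (e3 : u * w = w * u) (h1 : u ∉ scalars ι F) (h2 : w ∉ scalars ι F) :
    u * w ∈ scalars ι F := by
  by_contra h3
  have mc := @Subgroup.mem_centralizer_singleton_iff (GL ι F) _
  obtain ⟨v, hv, a1, a2⟩ := h.exists_sep hu hw h1 h3
  obtain ⟨v', hv', a3, a4⟩ := h.exists_sep hw hu h2 (e3 ▸ h3)
  let T := R ⊓ Subgroup.centralizer {u} ⊓ Subgroup.centralizer {w}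
  let A : Subgroup (GL ι F) :=
    { carrier := {x | x ∈ T ∧ (∀ y ∈ T, x * y = y * x) ∧ x * x = 1}
      mul_mem' := fun {x y} hx hy => ⟨mul_mem hx.1 hy.1, fun s hs => by
        rw [mul_assoc, hy.2.1 s hs, ← mul_assoc, hx.2.1 s hs, mul_assoc], by
        rw [mul_assoc, ← mul_assoc y, ← hx.2.1 y hy.1, mul_assoc, hy.2.2, mul_one, hx.2.2]⟩
      one_mem' := ⟨one_mem _, by simp, by simp⟩
      inv_mem' := fun {x} hx => by rwa [← eq_inv_of_mul_eq_one_left hx.2.2] }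
  have b1 : A ≤ R := fun x hx => hx.1.1.1
  have b2 : u ∈ A := ⟨⟨⟨hu, mc.2 rfl⟩, mc.2 e3⟩, fun y hy => (mc.1 hy.1.2).symm, e1⟩
  have b3 : w ∈ A := ⟨⟨⟨hw, mc.2 e3.symm⟩, mc.2 rfl⟩, fun y hy => (mc.1 hy.2).symm, e2⟩
  have b4 : -1 ∈ R := by
    have := mul_mem (mul_mem hu hv) (inv_mem (mul_mem hv hu))
    rwa [a2, neg_mul, mul_inv_cancel] at this
  have b5 := h.card_half b1 hv b2 (by rw [a2, neg_neg])
  have b6 := h.card_half (inf_le_left.trans b1) hv' (Subgroup.mem_inf.2 ⟨b3, mc.2 a1⟩)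
    (by rw [a4, neg_neg])
  have b7 := (Subgroup.one_lt_card_iff_ne_bot _).2 (show A ⊓ Subgroup.centralizer {v} ⊓
    Subgroup.centralizer {v'} ≠ ⊥ from fun e => h.ne_neg 1 (Subgroup.mem_bot.1 (e.le
      ⟨⟨⟨⟨⟨b4, mc.2 (by simp)⟩, mc.2 (by simp)⟩, by simp, by simp⟩, mc.2 (by simp)⟩,
        mc.2 (by simp)⟩)).symm)
  have b8 := hm (A.subgroupOf R) ⟨⟨fun x y => Subtype.ext (Subtype.ext (x.2.2.1 _ y.2.1))⟩⟩
    fun x hx => Subtype.ext hx.2.2
  rw [Nat.card_congr (Subgroup.subgroupOfEquivOfLe b1).toEquiv] at b8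
  omega

theorem exists_i (hc : Nat.card (Subgroup.center R) = 4) :
    ∃ z ∈ R, z ∈ scalars ι F ∧ z * z = -1 := by
  have h1 : ∀ z : Subgroup.center R, z.1.1 ∈ scalars ι F := fun z => h.ai.center_eq.le z.2
  have := As.isCyclic_of_le_scalars (R.subtype.comp (Subgroup.center R).subtype)
    (fun _ _ e => Subtype.ext (Subtype.ext e)) h1
  obtain ⟨z, hz⟩ := IsCyclic.exists_ofOrder_eq_natCard (α := Subgroup.center R)
  refine ⟨z.1.1, z.1.2, h1 z, (h.sq z.1.2).resolve_left fun e => ?_⟩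
  have := orderOf_dvd_of_pow_eq_one (show z ^ 2 = 1 from
    Subtype.ext (Subtype.ext ((_root_.sq _).trans e)))
  rw [hz, hc] at this
  omega

omit [Finite F] in
theorem of_all (H : ∀ x ∈ G, (∃ z : F, (x ^ r).1 = z • (1 : Matrix ι ι F)) →
      (∀ z : F, x.1 ≠ z • (1 : Matrix ι ι F)) → ∃ g ∈ G, g⁻¹ * x * g ∈ subgroupNormalizer R)
    (hn : Fintype.card ι = 4) (hx : x ∈ G) (h1 : x ^ r = 1) (h2 : ∀ z : F, x.1 ≠ z • 1) :
    (∃ y ∈ subgroupNormalizer R, y ^ r ∈ scalars ι F ∧ y ∉ scalars ι F ∧ tt y = tt x) ∧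
      ∀ a b, b ⬝ᵥ a = 0 → x.1 ≠ 1 + vecMulVec a b := by
  obtain ⟨g, -, h3⟩ := H x hx ⟨1, by simp [h1]⟩ h2
  have h4 : g⁻¹ * x * g ∉ scalars ι F := fun e => not_scalar_of h2 (by
    have := cen_scalars _ e g⁻¹
    rw [mul_inv_cancel_right, mul_right_inj] at this
    rwa [this])
  refine ⟨⟨_, h3, ?_, h4, tt_conj g x⟩, fun a b e e' => h4 (h.not_transv hn h3
    (a := g⁻¹.1 *ᵥ a) (b := b ᵥ* g.1) ?_ ?_)⟩
  · have := conj_pow (a := g⁻¹) (b := x) (i := r)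
    rw [inv_inv] at this
    rw [this, h1]; simp
  · rw [← dotProduct_mulVec, mulVec_mulVec, Units.mul_inv, one_mulVec, e]
  · rw [Units.val_mul, Units.val_mul, e', mul_add, add_mul, mul_one, Units.inv_mul,
      mul_vecMulVec, vecMulVec_mul]

theorem not_five (H : ∀ x ∈ G, (∃ z : F, (x ^ 5).1 = z • (1 : Matrix ι ι F)) →
      (∀ z : F, x.1 ≠ z • (1 : Matrix ι ι F)) → ∃ g ∈ G, g⁻¹ * x * g ∈ subgroupNormalizer R)
    (hn : Fintype.card ι = 4) (hx : x ∈ G) (h1 : x ^ 5 = 1) (h2 : ∀ z : F, x.1 ≠ z • 1)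
    (e : τ ^ 2 + τ - 1 = 0) (h3 : tt x = (2 + τ) ^ 2)
    (h4 : τ = 2 → ∃ a b, b ⬝ᵥ a = 0 ∧ x.1 = 1 + vecMulVec a b) : False := by
  obtain ⟨⟨y, h5, h6, h7, h8⟩, h9⟩ := h.of_all H hn hx h1 h2
  obtain ⟨h10, -⟩ | ⟨-, h10, -⟩ := h.con hn Nat.prime_five (by decide) h5 h6 h7
  · omega
  rw [h8, h3] at h10
  obtain ⟨a, b, h11, h12⟩ := h4 (by have := h.two; grind)
  exact h9 a b h11 h12

theorem not_big (hn : Fintype.card ι = 4) (hr : r.Prime) (h7 : 7 ≤ r)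
    (hy : y ∈ subgroupNormalizer R) (h1 : y ^ r = 1) : ∃ c : F, y.1 = c • 1 := by
  by_contra! e
  have := h.con hn hr (by omega) hy (h1 ▸ one_mem _) (not_scalar_of e)
  omega

theorem exists_three (hn : Fintype.card ι = 4) (h3 : (3 : F) ≠ 0) (hz : z ∈ R)
    (h1 : z ∈ scalars ι F) (h2 : z * z = -1) (k : Prop) : ∃ y ∈ subgroupNormalizer R, UP R 1 y ∧
      toLin' y.1 ^ 3 = 1 ∧ toLin' y.1 ≠ 1 ∧ (kd (toLin' y.1) (X - C 1) = 0 ↔ k) := by
  obtain ⟨a, b, c, d, hs, ea, eb, -⟩ := h.exists_sb_i hn hz h1 h2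
  obtain ⟨d, hs, ed⟩ := h.sb_scale hz h1 h2 hs.flip (Or.inr rfl)
  obtain ⟨c, hs, ec⟩ := h.sb_scale hz h1 h2 hs.swap (Or.inr rfl)
  obtain ⟨s, a1, a2, a3, a4, a5⟩ := h.exists_s hs.ha hs.hb hs.ab ed ec
  obtain ⟨t, b1, b2, b3, b4, b5⟩ := h.exists_s hs.hc hs.hd hs.cd ea eb
  have h4 := h.two
  have c1 : ∀ {s : GL ι F}, s.1 * s.1 + s.1 + 1 = 0 → s ^ 3 = 1 := fun {s} e => Units.ext (by
    have := congrArg (fun M => (s.1 - 1) * M) e
    simp only [sub_mul, mul_add, one_mul, mul_one, mul_zero] at this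
    simp only [pow_succ, pow_zero, one_mul, Units.val_mul, Units.val_one, mul_assoc]
    linear_combination (norm := abel1) this)
  have c2 : ∀ {y : GL ι F}, y ^ 3 = 1 → toLin' y.1 ^ 3 = 1 := fun {y} e => by
    simpa using toLin'_pow_eq (A := y.1) (z := (1 : F)) (k := 3) (by rw [← Units.val_pow_eq_pow_val, e]; simp)
  have c3 : ∀ {y : GL ι F}, y.1.trace ≠ 4 → toLin' y.1 ≠ 1 := fun {y} e e' => e (by
    rw [show y.1 = 1 from toLin'.injective (e'.trans toLin'_one.symm)]; simp [hn])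
  have t1 : s.1.trace = -2 := by
    have := a5 1 (by simp) (by simp)
    simp only [one_mul, trace_one, hn] at this
    rw [this]; field_simp; norm_num
  by_cases hk : k
  · refine ⟨s, a1, a2, c2 (c1 a3), c3 fun e => h4 (mul_left_cancel₀ h3
      (by linear_combination t1 - e)), iff_of_true
      (kd_eq_zero_iff.2 fun v e => ?_) hk⟩
    have := congrArg (· *ᵥ v) a3
    simp only [add_mulVec, ← mulVec_mulVec, e, one_mulVec, zero_mulVec] at this
    exact (smul_eq_zero.1 (show (3 : F) • v = 0 by rw [← this]; module)).resolve_left h3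
  have d1 := a4 a hs.ac hs.bc
  have d2 := a4 b hs.ad hs.bd
  have d3 : t * s = s * t := b4 s d1.symm d2.symm
  have d4 : (s * t) ^ 3 = 1 := by rw [Commute.mul_pow d3.symm, c1 a3, c1 b3, mul_one]
  have t2 : (s.1 * t.1).trace = 1 := by
    rw [b5 _ (congrArg Units.val d1.symm) (congrArg Units.val d2.symm), t1]; field_simp
  have t3 : t.1.trace = -2 := by
    have := b5 1 (by simp) (by simp)
    simp only [one_mul, trace_one, hn] at this
    rw [this]; field_simp; norm_num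
  refine ⟨s * t, mul_mem a1 b1, by simpa using a2.mul b2, c2 d4, c3 fun e => h3 (by
    rw [Units.val_mul, t2] at e; linear_combination -e), iff_of_false (fun e => ?_) hk⟩
  have d5 : (s * t).1 * (s * t).1 + (s * t).1 + 1 = 0 := toLin'.injective (LinearMap.ext fun v =>
    kd_eq_zero_iff.1 e (((s * t).1 * (s * t).1 + (s * t).1 + 1) *ᵥ v) (by
      have := congrArg Units.val d4
      simp only [pow_succ, pow_zero, one_mul, Units.val_mul (s * t * (s * t)),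
        Units.val_mul (s * t) (s * t), Units.val_one, mul_assoc (s * t).1] at this
      rw [mulVec_mulVec, mul_add, mul_add, this, mul_one]
      congr 1; abel) |>.trans (by simp))
  have d6 : (s * t).1 * (s * t).1 = 1 + s.1 + t.1 + s.1 * t.1 := by
    rw [← Units.val_mul, mul_assoc, ← mul_assoc t, d3, mul_assoc, ← mul_assoc, Units.val_mul,
      Units.val_mul, Units.val_mul, eq_neg_of_add_eq_zero_left ((add_assoc _ _ _).symm.trans a3),
      eq_neg_of_add_eq_zero_left ((add_assoc _ _ _).symm.trans b3)]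
    simp only [neg_mul_neg, mul_add, add_mul, one_mul, mul_one]
    abel
  rw [d6] at d5
  replace d5 := congrArg trace d5
  simp only [trace_add, Units.val_mul, t1, t2, t3, trace_one, hn, trace_zero] at d5
  exact h4 (mul_left_cancel₀ h3 (by push_cast at d5; linear_combination d5))

omit [Finite F] in
theorem exists_five' [Fintype F] (hs : SB R a b c d) (ea : a * a = -1) (eb : b * b = -1)
    (ec : c * c = 1) (ed : d * d = 1) (h5 : ¬ 5 ∣ Fintype.card F - 1) :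
    ∃ y ∈ subgroupNormalizer R, UP R 1 y ∧ toLin' y.1 ^ 5 = 1 ∧ toLin' y.1 ≠ 1 := by
  have : Fact (Nat.Prime 5) := ⟨Nat.prime_five⟩
  obtain ⟨y, h1, h2, h3, h4⟩ := h.exists_five hs ea eb ec ed
  obtain ⟨z, hz⟩ := exists_sc h3
  refine ⟨y ^ (Fintype.card F - 1), pow_mem h1 _, h2.pow _, ?_, fun e => h4
    (Lead.PH.mem_of_coprime (p := 5) (k := (Fintype.card F - 1 : ℕ)) (by exact_mod_cast h5) ?_ h3)⟩
  · simpa using toLin'_pow_eq (A := (y ^ (Fintype.card F - 1)).1) (z := (1 : F)) (k := 5) (by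
      rw [← Units.val_pow_eq_pow_val, ← pow_mul, mul_comm, pow_mul, hz, ← As.sc_pow, sc_val,
        Units.val_pow_eq_pow_val, FiniteField.pow_card_sub_one_eq_one _ z.ne_zero])
  · rw [zpow_natCast]
    exact mem_scalars_of_val (c := 1) (by simpa using toLin'.injective (e.trans toLin'_one.symm))

theorem exists_two (p : ℕ) [Fact p.Prime] [CharP F p] (hn : Fintype.card ι = 4) (hz : z ∈ R)
    (h1 : z ∈ scalars ι F) (h2 : z * z = -1) {k l : ℕ} (hk : k ≠ 0) (hl : l ≠ 0) (e : k + l = 4) :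
    ∃ y ∈ subgroupNormalizer R, UP R 1 y ∧
      edM y.1 = Multiset.replicate k (X - C 1) + Multiset.replicate l (X - C (-1)) := by
  obtain ⟨a, b, c, d, hs, -, -, ec, -⟩ := h.exists_sb_i hn hz h1 h2
  obtain ⟨a, hs, ea⟩ := h.sb_scale hz h1 h2 hs.swap (Or.inl rfl)
  have h3 := h.not_scalar hs.cd
  obtain ⟨y, h4, h5, h6, h7, h8⟩ := h.exists_cz hn hs.hb hs.hc ea ec hs.bc (h.not_scalar hs.swap.ab)
    h3 (h.not_scalar (v := b) (by
      rw [mul_assoc, ← hs.ac, ← mul_assoc, hs.swap.ab, neg_mul, mul_assoc])) hs.neg_mem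
  have h9 : y.1 ≠ 1 := fun e => h.two (by simp [e, hn] at h7; linear_combination h7)
  obtain ⟨rfl, rfl⟩ | ⟨rfl, rfl⟩ | ⟨rfl, rfl⟩ :
    (k = 1 ∧ l = 3) ∨ (k = 2 ∧ l = 2) ∨ (k = 3 ∧ l = 1) := by omega
  · refine ⟨-1 * y, mul_mem (Subgroup.le_normalizer hs.neg_mem) h4,
      by simpa using (UP.of_mem hs.neg_mem).mul h5, edM_invol p h.two hn.le (by simpa using h6)
      (by simpa [neg_eq_iff_eq_neg] using h8) (by simpa using h9) hk hl (e.trans hn.symm) ?_⟩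
    simp [h7]; norm_num
  · exact ⟨c, Subgroup.le_normalizer hs.hc, UP.of_mem hs.hc, edM_invol p h.two hn.le
      (congrArg Units.val ec) (fun e => h3 (mem_scalars_of_val (c := 1) (by simp [e])))
      (fun e => h3 (mem_scalars_of_val (c := -1) (by simp [e]))) hk hl (e.trans hn.symm)
      (by simp [h.ext.trace_eq_zero hs.hc h3])⟩
  · exact ⟨y, h4, h5, edM_invol p h.two hn.le h6 h9 h8 hk hl (e.trans hn.symm)
      (by rw [h7]; norm_num)⟩

end PM

end H16.NX
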