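import Cfsg.Agent.H16.NX6

/-! Elements of prime order and normalizers of 2-groups of symplectic type in dimension four. -/

set_option autoImplicit false

namespace H16.NX

open Module Polynomial H23 H23.Form H14.Wall Matrix Cfsg.Geo
open H23.As (mem_scalars_of_val)

universe u

variable {F : Type u} [Field F] [Fintype F] {p : ℕ}

theorem prime_cases' {r : ℕ} (hr : r.Prime) : r = 2 ∨ r = 3 ∨ r = 5 ∨ 7 ≤ r := by
  have := prime_cases hr
  have : r ≠ 6 := by rintro rfl; norm_num at hr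
  omega

omit [Fintype F] in
theorem cast_ne [hp : Fact p.Prime] [CharP F p] {r : ℕ} (hr : r.Prime) (h : p ≠ r) : (r : F) ≠ 0 :=
  fun e => h ((Nat.prime_dvd_prime_iff_eq hp.out hr).1 ((CharP.cast_eq_zero_iff F p r).1 e))

theorem order_three : p % 3 = 2 → orderOf (p : ZMod 3) = 2 := fun h =>
  (orderOf_eq_two_iff_dvd Nat.prime_three (by decide)).2 (by omega)

theorem order_four (h : orderOf (p : ZMod 5) = 4) : p % 5 = 2 ∨ p % 5 = 3 := by
  obtain e | ⟨-, e⟩ | ⟨e, -⟩ := five_cases p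
  · rw [← ZMod.natCast_mod, e, Nat.cast_zero, orderOf_eq_zero_iff'.2 (by
      simp +contextual [Nat.ne_of_gt])] at h
    omega
  exacts [absurd h e, e]

omit [Fintype F] in
theorem pow_linM_GL {n r : ℕ} {x : GL (Fin n) F} {t : Multiset F} (h : edM x.1 = linM t)
    (ht : ∀ a ∈ t, a ^ r = 1) : x ^ r = 1 :=
  Units.ext (((pow_eq_smul_iff_edM _ _ _).2 ((pow_eq_smul_iff_ed _ _ _).1
    (pow_linM (g := toLin' x.1) h ht))).trans (one_smul _ _))

omit [Fintype F] in
theorem PM.not_three {R G : Subgroup (GL (Fin 4) F)} [Finite F] (h : PM R) (h3 : (3 : F) ≠ 0) {ω : F}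
    (hω : ω ^ 2 + ω + 1 = 0) (hG : ∃ x ∈ G, edM x.1 = linM {1, ω, ω, ω}) :
    ¬ ∀ x ∈ G, (∃ z : F, (x ^ 3).1 = z • (1 : Matrix (Fin 4) (Fin 4) F)) →
      (∀ z : F, x.1 ≠ z • (1 : Matrix (Fin 4) (Fin 4) F)) →
      ∃ g ∈ G, g⁻¹ * x * g ∈ subgroupNormalizer R := fun H => by
  obtain ⟨x, hx, h1⟩ := hG
  have w0 : ω ^ 3 = 1 := by linear_combination (ω - 1) * hω
  have w1 : 1 ≠ ω := by rintro rfl; exact h3 (by linear_combination hω)
  have w2 : ω ≠ 0 := fun e => by simp [e] at w0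
  obtain ⟨⟨y, h5, h6, h7, h8⟩, -⟩ := h.of_all H (by simp) hx (pow_linM_GL h1 (by simp [w0])) fun z e =>
    not_scalar_linM h1 w1 (by simp) (by simp) z ((toLin'_eq_smul_iff _ _).2 e)
  rw [tt_linM h1 (by simp [w2]), show (({1, ω, ω, ω} : Multiset F).sum *
      (({1, ω, ω, ω} : Multiset F).map (·⁻¹)).sum) = 7 by
    simp [show ω⁻¹ = ω ^ 2 from inv_eq_of_mul_eq_one_right (by linear_combination w0)]
    linear_combination 3 * hω + 9 * w0] at h8
  obtain ⟨-, h9⟩ | ⟨-, h9, -⟩ := h.con (by simp) Nat.prime_three (by decide) h5 h6 h7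
  · exact h3 (by linear_combination h9 - h8)
  · exact h.two (mul_left_cancel₀ h3 (by linear_combination h9 - h8))

theorem sl_four [hp : Fact p.Prime] [CharP F p] (hF : Fintype.card F = p) (hp4 : p % 4 = 1)
    {R : Subgroup (GL (Fin 4) F)} (hR : IsLinearSymplecticTypeData 2 R) (r : ℕ) [hr : Fact r.Prime]
    (hΩ : r ∣ (subgroupNormalizer R).relIndex (specialLinear (Fin 4) F)) :
    (∀ x ∈ specialLinear (Fin 4) F, (∃ z : F, (x ^ r).1 = z • (1 : Matrix (Fin 4) (Fin 4) F)) →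
      (∀ z : F, x.1 ≠ z • (1 : Matrix (Fin 4) (Fin 4) F)) →
      ∃ g ∈ specialLinear (Fin 4) F, g⁻¹ * x * g ∈ subgroupNormalizer R) ↔
    (r = 2 ∨ (r = 3 ∧ p % 3 = 2) ∨ (r = 5 ∧ orderOf (p : ZMod 5) = 4)) := by
  have hp2 := hp.out.two_le
  have h2 : (2 : F) ≠ 0 := cast_ne (p := p) (r := 2) Nat.prime_two (by omega)
  have h3 : (3 : F) ≠ 0 := cast_ne (p := p) (r := 3) Nat.prime_three (by omega)
  have h := PM.of h2 hR.symplecticType hR.absIrred
  have hn : Fintype.card (Fin 4) = 4 := by simp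
  obtain ⟨z, hz, h4, h5⟩ := h.exists_i (by
    obtain ⟨_, _, -, -, ⟨e, -⟩ | ⟨-, -, e, -⟩ | ⟨-, -, e, -⟩⟩ := hR.field
    exacts [absurd e (by decide), e, absurd e (by decide)])
  have key : ∀ {r}, r.Prime → p ≠ r → orderOf (p : ZMod r) = r - 1 → r ≠ 2 →
      (∀ g : End F (Fin 4 → F), g ^ r = 1 → g ≠ 1 → ∃ y ∈ subgroupNormalizer R,
        toLin' y.1 ^ r = 1 ∧ kd (toLin' y.1) (X - C 1) = kd g (X - C 1)) →
      AllR (EH (subgroupNormalizer R)) r := fun {r} hr a1 a2 a3 a4 g hd ⟨z, hz⟩ hs => by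
    obtain ⟨c, a5, a6⟩ := exists_root_of_pow hr (fun e => by
      rw [hF, ← orderOf_eq_one_iff_dvd hp.out.pos, a2] at e
      omega) (inj_of_det hd) hz
    obtain ⟨y, a7, a8, a9⟩ := a4 _ a6 fun e => hs c⁻¹ (by rw [← e, inv_smul_smul₀ a5])
    exact EH.of_smul smGL_mem_norm _ _ a5 ⟨y, a7, ed_eq_one hr (cast_ne hr a1) (hF ▸ a2) a6 a8 a9⟩
  obtain rfl | rfl | rfl | h10 := prime_cases' hr.out
  · refine iff_of_true ((allH_iff hr.out (Or.inr rfl)).2 (allR_two h2 (EH.of_smul smGL_mem_norm)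
      (fun g c k l hk hl e _ hg => ?_) fun g w hd hw hg => ?_)) (Or.inl rfl)
    · obtain ⟨y, h10, -, h11⟩ := h.exists_two p hn hz h4 h5 hk hl (by simpa using e)
      exact ⟨y, h10, h11.trans hg.symm⟩
    · obtain ⟨k, h10, h11⟩ := ed_nonsplit hr.out hw hg
      obtain rfl : k = 2 := by simp at h11; omega
      have h12 := charpoly_eq_prod_ed g
      have h13 := LinearMap.det_eq_sign_charpoly_coeff g
      rw [h12, h10, hd] at h13
      obtain ⟨i, hi⟩ := (mem_scalars_iff z).1 h4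
      have h15 : z.1 * z.1 = -1 := congrArg Units.val h5
      have h14 : (i : F) * i = -1 := by simpa [hi] using congrFun (congrFun h15 0) 0
      have h16 : w * w = 1 := by
        simpa [coeff_zero_eq_eval_zero, Even.neg_one_pow (n := 4) (by decide)] using h13.symm
      rcases mul_self_eq_one_iff.1 h16 with e | e
      exacts [(hw 1 (by simp [e])).elim, (hw i (by rw [e, _root_.sq, h14])).elim]
  · by_cases h6 : p % 3 = 2
    · refine iff_of_true ((allH_iff hr.out (Or.inl (by exact_mod_cast h3))).2 (key hr.out (by omega)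
        (order_three h6) (by decide) fun g hg h7 => ?_)) (by simp [h6])
      obtain ⟨y, h8, -, h9, h10, h11⟩ := h.exists_three hn h3 hz h4 h5 (kd g (X - C 1) = 0)
      obtain ⟨s, -, -, h12, h13⟩ := ed_Tr hr.out (by exact_mod_cast h3) hg
      obtain ⟨t, -, -, h14, h15⟩ := ed_Tr hr.out (by exact_mod_cast h3) h9
      rw [hF, order_three h6, finrank_fin_fun] at h12 h14
      exact ⟨y, h8, h9, by have := h13 h7; have := h15 h10; omega⟩
    · have h7 : p % 3 ≠ 0 := fun e => by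
        have := (Nat.prime_dvd_prime_iff_eq Nat.prime_three hp.out).1 (Nat.dvd_of_mod_eq_zero e)
        omega
      obtain ⟨ω, hω⟩ := exists_omega (F := F) (by omega)
      obtain ⟨g, hg⟩ := exists_linM (V := Fin 4 → F) (t := {1, ω, ω, ω}) (by simp)
      have h8 : LinearMap.det g = 1 := by
        rw [det_linM hg]; simp; linear_combination (ω - 1) * hω
      obtain ⟨x, rfl⟩ := exists_GL_of_inj (inj_of_det h8)
      exact iff_of_false (h.not_three h3 hω ⟨x, (mem_SL_iff x).2 h8, hg⟩) (by simp [h6])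
  · by_cases h6 : orderOf (p : ZMod 5) = 4
    · have h7 := order_four h6
      have h0 : ((5 : ℕ) : F) ≠ 0 := cast_ne (p := p) hr.out (by omega)
      refine iff_of_true ((allH_iff hr.out (Or.inl h0)).2 (key hr.out (by omega)
        h6 (by decide) fun g hg h8 => ?_)) (by simp [h6])
      obtain ⟨a, b, c, d, hs, ea, eb, ec, ed⟩ := h.exists_sb_i hn hz h4 h5
      obtain ⟨y, h9, -, h10, h11⟩ := h.exists_five' hs ea eb ec ed (by omega)
      obtain ⟨s, -, -, h12, h13⟩ := ed_Tr hr.out h0 hg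
      obtain ⟨t, -, -, h14, h15⟩ := ed_Tr hr.out h0 h10
      rw [hF, h6, finrank_fin_fun] at h12 h14
      exact ⟨y, h9, h10, by have := h13 h8; have := h15 h11; omega⟩
    · obtain ⟨τ, hτ⟩ := exists_tau (F := F) p (by omega) h6
      obtain ⟨x, hx, hw⟩ := exists_wd_sl τ
      exact iff_of_false (fun H => h.not_five H hn hx (hw.five hτ) hw.ns hτ hw.t hw.tv) (by simp [h6])
  · exact iff_of_false (not_all_of_order hr.out hΩ (k := 4) (((Nat.coprime_primes hr.out
      Nat.prime_two).2 (by omega)).pow_right 2) (fun x hx z e => by simpa using det_scalar hx e)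
      fun y hy e => h.not_big hn hr.out h10 hy e) (by omega)

theorem sp_four [hp : Fact p.Prime] [CharP F p] (hF : Fintype.card F = p) (hodd : Odd p)
    {R : Subgroup (GL (Fin 2 ⊕ Fin 2) F)} (hRs : IsSymplecticTypeGroup 2 R)
    (hRi : ActsAbsolutelyIrreducibly (matrixSet R)) (hRf : R ≤ Cfsg.spGL 2 F)
    (hRZ : Nat.card (Subgroup.center R) = 2) (hRm : IsOfMinusType 2 R) (r : ℕ) [hr : Fact r.Prime]
    (hΩ : r ∣ (subgroupNormalizer R).relIndex (Cfsg.spGL 2 F)) :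
    (∀ x ∈ Cfsg.spGL 2 F, (∃ z : F, (x ^ r).1 = z • (1 : Matrix (Fin 2 ⊕ Fin 2) (Fin 2 ⊕ Fin 2) F)) →
      (∀ z : F, x.1 ≠ z • (1 : Matrix (Fin 2 ⊕ Fin 2) (Fin 2 ⊕ Fin 2) F)) →
      ∃ g ∈ Cfsg.spGL 2 F, g⁻¹ * x * g ∈ subgroupNormalizer R) ↔
    (r = 2 ∨ (r = 5 ∧ orderOf (p : ZMod 5) = 4)) := by
  have hp2 : p ≠ 2 := by rintro rfl; exact absurd hodd (by decide)
  have h2 : (2 : F) ≠ 0 := cast_ne (p := p) (r := 2) Nat.prime_two hp2
  have h := PM.of h2 hRs hRi
  have hn : Fintype.card (Fin 2 ⊕ Fin 2) = 4 := by simp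
  have hΦ := spForm_nondeg (F := F) 2
  have hP : ∀ u ∈ R, Pres (spForm 2 F) (toLin' u.1) := fun u hu => (mem_spGL_pres u).1 (hRf hu)
  have hE := fun u hu w hw => h.no_eight (u := u) (w := w) hRm hu hw
  obtain ⟨a, b, c, d, hs, ea, eb, ec, ed⟩ := h.exists_sb_minus hn hE
  have h3 := h.not_scalar hs.cd
  obtain rfl | rfl | rfl | h10 := prime_cases' hr.out
  · refine iff_of_true (of_allP hΦ rfl rfl (by exact_mod_cast h2) mem_spGL_pres (allP_two (d := 2) h2
      hΦ rfl (by simp) (fun g k l hk hl e hg => ?_) fun g hg e => ?_)) (Or.inl rfl)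
    · obtain ⟨rfl, rfl⟩ : k = 1 ∧ l = 1 := by omega
      exact ⟨c, Subgroup.le_normalizer hs.hc, hP c hs.hc, hg ▸ edM_invol p h2 hn.le
        (congrArg Units.val ec) (fun e => h3 (mem_scalars_of_val (c := 1) (by simp [e])))
        (fun e => h3 (mem_scalars_of_val (c := -1) (by simp [e]))) (by decide) (by decide) hn.symm
        (by simp [h.ext.trace_eq_zero hs.hc h3])⟩
    · refine ⟨a, Subgroup.le_normalizer hs.ha, hP a hs.ha, ed_eq_of_sq_neg h2 hΦ rfl hg (hP a hs.ha)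
        e ?_⟩
      exact (toLin'_pow_eq (A := a.1) (k := 2) (z := (-1 : F)) (by
        simpa [_root_.sq] using congrArg Units.val ea)).trans (by ext; simp)
  · obtain ⟨x, hx, hw⟩ := exists_wd_sp (-1 : F)
    refine iff_of_false (fun H => ?_) (by simp)
    obtain ⟨⟨y, h5, h6, h7, h8⟩, h9⟩ := h.of_all H hn hx hw.three hw.ns
    obtain ⟨-, h10⟩ | ⟨-, -, h10⟩ := h.con hn hr.out (by decide) h5 h6 h7
    · rw [h8, hw.t] at h10
      obtain ⟨a, b, h11, h12⟩ := hw.tv (by linear_combination h10)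
      exact h9 a b h11 h12
    · refine h.not_fpf (fun u hu e => ?_) hE hs.hc ec h3 h5 h6 h10
      have := pow_card_eq_one' (x := (⟨⟨u, hu⟩, h.ai.center_eq.ge e⟩ : Subgroup.center R))
      rw [hRZ, _root_.sq] at this
      exact congrArg (fun x : Subgroup.center R => x.1.1) this
  · by_cases h6 : orderOf (p : ZMod 5) = 4
    · have h7 := order_four h6
      have h0 : ((5 : ℕ) : F) ≠ 0 := cast_ne (p := p) hr.out (by omega)
      refine iff_of_true (of_allP hΦ rfl rfl h0 mem_spGL_pres fun g hg ⟨z, hz⟩ h8 => ?_) (by simp [h6])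
      have a1 : z * z = 1 := scalar_norm hΦ (hz ▸ pres_pow hg 5)
      have a2 : z ≠ 0 := left_ne_zero_of_mul_eq_one a1
      have a3 : Pres (spForm 2 F) (z • g) :=
        SMu.pres (Or.inl rfl) (by simpa [a1] using (smu_of_pres hg).smul z)
      have a4 : (z • g) ^ 5 = 1 := by
        rw [_root_.smul_pow, hz, smul_smul, show z ^ 5 * z = (z * z) ^ 3 by ring, a1]; simp
      obtain ⟨y, h9, h10, h11, h12⟩ := h.exists_five' hs ea eb ec ed (by omega)
      obtain ⟨s, -, -, h13, h14⟩ := ed_Tr hr.out h0 a4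
      obtain ⟨t, -, -, h15, h16⟩ := ed_Tr hr.out h0 h11
      rw [hF, h6, finrank_fintype_fun_eq_card, hn] at h13 h15
      exact EP.of_smul_norm hΦ rfl hg a2 a3 ⟨y, h9, h10.pres rfl hP, ed_eq_one hr.out h0 (hF ▸ h6) a4
        h11 (by
          have := h14 fun e => h8 z⁻¹ (by rw [← e, inv_smul_smul₀ a2])
          have := h16 h12
          omega)⟩
    · obtain ⟨τ, hτ⟩ := exists_tau (F := F) p hp2 h6
      obtain ⟨x, hx, hw⟩ := exists_wd_sp τ
      exact iff_of_false (fun H => h.not_five H hn hx (hw.five hτ) hw.ns hτ hw.t hw.tv) (by simp [h6])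
  · refine iff_of_false (not_all_of_order hr.out hΩ (k := 2) ((Nat.coprime_primes hr.out
      Nat.prime_two).2 (by omega)) (fun x hx z e => ?_)
      fun y hy e => h.not_big hn hr.out h10 hy e) (by omega)
    simpa [_root_.sq] using scalar_norm hΦ ((toLin'_eq_smul_iff _ _).2 e ▸ (mem_spGL_pres x).1 hx)

theorem su_four [hp : Fact p.Prime] [CharP F p] (hF : Fintype.card F = p ^ 2) (hp4 : p % 4 = 3)
    {R : Subgroup (GL (Fin 4) F)} (hRs : IsSymplecticTypeGroup 2 R)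
    (hRi : ActsAbsolutelyIrreducibly (matrixSet R)) (hRU : R ≤ Cfsg.GU 4 F p)
    (hRZ : Nat.card (Subgroup.center R) = 4) (r : ℕ) [hr : Fact r.Prime]
    (hΩ : r ∣ (subgroupNormalizer R).relIndex (Cfsg.GU 4 F p ⊓ specialLinear (Fin 4) F)) :
    (∀ x ∈ Cfsg.GU 4 F p ⊓ specialLinear (Fin 4) F,
      (∃ z : F, (x ^ r).1 = z • (1 : Matrix (Fin 4) (Fin 4) F)) →
      (∀ z : F, x.1 ≠ z • (1 : Matrix (Fin 4) (Fin 4) F)) →
      ∃ g ∈ Cfsg.GU 4 F p ⊓ specialLinear (Fin 4) F, g⁻¹ * x * g ∈ subgroupNormalizer R) ↔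
    (r = 2 ∨ (r = 3 ∧ p % 3 = 1) ∨ (r = 5 ∧ orderOf (p : ZMod 5) = 4)) := by
  have hp2 := hp.out.two_le
  have h2 : (2 : F) ≠ 0 := cast_ne (p := p) (r := 2) Nat.prime_two (by omega)
  have h := PM.of h2 hRs hRi
  have hn : Fintype.card (Fin 4) = 4 := by simp
  have hΦ := huForm_nondeg hF 4
  have hP : ∀ u ∈ R, Pres (huForm hF 4) (toLin' u.1) := fun u hu => (mem_GU_pres hF u).1 (hRU hu)
  obtain ⟨z, hz, h4, h5⟩ := h.exists_i hRZ
  have key : ∀ {r} [Fact r.Prime], p ≠ r → r ≠ 2 → orderOf (p : ZMod r) % 4 ≠ 2 →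
      2 * orderOf (Fintype.card F : ZMod r) = r - 1 → (∀ k, (∃ N, N ≠ 0 ∧ N * (r - 1) + k = 4) →
        ∃ y ∈ subgroupNormalizer R, UP R 1 y ∧ toLin' y.1 ^ r = 1 ∧ ((∃ N, N ≠ 0 ∧ N * (r - 1) +
          kd (toLin' y.1) (X - C 1) = 4) → kd (toLin' y.1) (X - C 1) = k) ∧ toLin' y.1 ≠ 1) →
      ∀ x ∈ Cfsg.GU 4 F p ⊓ specialLinear (Fin 4) F,
      (∃ z : F, (x ^ r).1 = z • (1 : Matrix (Fin 4) (Fin 4) F)) →
      (∀ z : F, x.1 ≠ z • (1 : Matrix (Fin 4) (Fin 4) F)) →
      ∃ g ∈ Cfsg.GU 4 F p ⊓ specialLinear (Fin 4) F, g⁻¹ * x * g ∈ subgroupNormalizer R := by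
    intro r hr a1 a2 a3 a4 a5
    have h0 : (r : F) ≠ 0 := cast_ne hr.out a1
    have hd : ∀ a ∈ Tr F r, dual (conj hF) a ≠ a := fun a ha e =>
      a3 ((conj_dual_iff hr.out a2 h0 ha).1 e)
    refine of_all_su (hF := hF) (su_odd a2 (by
      rw [padicValNat.eq_zero_of_not_dvd (n := 4) fun e => a2 ((Nat.prime_dvd_prime_iff_eq hr.out
        Nat.prime_two).1 (hr.out.dvd_of_dvd_pow (m := 2) (n := 2) e))]; omega) fun g hg b1 b2 => ?_)
    obtain ⟨s, -, -, b3, b4⟩ := ed_two hΦ hr.out h0 hd hg b1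
    obtain ⟨y, b5, b6, b7, b8, b9⟩ := a5 _ ⟨_, b4 b2, by simpa [a4] using b3⟩
    obtain ⟨t, -, -, b10, b11⟩ := ed_two hΦ hr.out h0 hd (b6.pres rfl hP) b7
    exact ⟨cd_two hΦ rfl hr.out h0 hd hg b1, y, b5, b6.pres rfl hP, ed_eq_two hΦ hr.out h0 (by
      rw [← a4, Nat.mul_div_cancel _ (orderOf_card_pos hr.out h0)]) hd hg (b6.pres rfl hP) b1 b7
      (b8 ⟨_, b11 b9, by simpa [a4] using b10⟩)⟩
  have wit : ∀ t : Multiset F, t.card = 4 → t.prod = 1 → (∀ a ∈ t, a ≠ 0) →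
      t.map (fun a => (conj hF a)⁻¹) = t →
      ∃ x ∈ Cfsg.GU 4 F p ⊓ specialLinear (Fin 4) F, edM x.1 = linM t := fun t a1 a2 a3 a4 => by
    obtain ⟨g, hg, a5⟩ := exists_herm (s := linM t) hΦ rfl (linM_isPP t) (fun q hq => by
      obtain ⟨a, ha, rfl⟩ := Multiset.mem_map.1 hq
      simpa using a3 a ha) (by rw [linM_dual a3, a4]) (by simp [linM_deg, a1])
    obtain ⟨x, rfl⟩ := exists_GL_of_inj (hg.inj hΦ)
    exact ⟨x, (mem_SU_pres hF x).2 ⟨hg, (det_linM a5).trans a2⟩, a5⟩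
  obtain rfl | rfl | rfl | h10 := prime_cases' hr.out
  · refine iff_of_true (of_all_su (hF := hF) (su_two h2 (fun c k e1 e2 e3 => ?_)
      fun k l hk hl e => ?_)) (Or.inl rfl)
    · obtain rfl : k = 2 := by omega
      obtain ⟨m, hm⟩ : 4 ∣ p + 1 := by omega
      rw [hm, pow_mul, show c ^ 4 = 1 by linear_combination e3, one_pow] at e1
      exact h2 (by linear_combination e1)
    · obtain ⟨y, h10, h11, h12⟩ := h.exists_two p hn hz h4 h5 hk hl e
      exact ⟨y, h10, (mem_GU_pres hF y).2 (h11.pres rfl hP), h12⟩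
  · obtain h6 | h6 | h6 : p % 3 = 0 ∨ p % 3 = 1 ∨ p % 3 = 2 := by omega
    · obtain rfl := (Nat.prime_dvd_prime_iff_eq Nat.prime_three hp.out).1 (Nat.dvd_of_mod_eq_zero h6)
      have h3 : (3 : F) = 0 := CharP.cast_eq_zero F 3
      obtain ⟨c, c0, hc⟩ := As.exists_skew (conj_ne_id hF) (conj_conj hF)
      obtain ⟨N, hN⟩ : ∃ N : Matrix (Fin 4) (Fin 4) F,
        N = vecMulVec ![1, 1, 1, 0] ![1, 1, 1, 0] := ⟨_, rfl⟩
      have a0 : ![1, 1, 1, 0] ⬝ᵥ ![(1 : F), 1, 1, 0] = 0 := by simp; linear_combination h3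
      have a1 : N * N = 0 := by rw [hN, vecMulVec_mul_vecMulVec, a0]; simp
      have a2 : (1 + c • N) * (1 - c • N) = 1 := by simp [add_mul, mul_sub, a1]
      let x : GL (Fin 4) F := ⟨1 + c • N, 1 - c • N, a2, mul_eq_one_comm.1 a2⟩
      have a3 : x ^ 3 = 1 := Units.ext (by
        simp only [x, pow_succ, pow_zero, one_mul, Units.val_mul, add_mul, mul_add, mul_one,
          smul_mul_smul, a1, smul_zero, Units.val_one, zero_mul]
        match_scalars <;> grind)
      refine iff_of_false (fun H => (h.of_all H hn (x := x) ⟨As.GU_eq_Iso hF 4 ▸ As.mem_Iso_fog.2 ?_,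
        Units.ext (frobenius_inj F 3 ?_)⟩ a3 fun z e => c0 ?_).2 (c • ![1, 1, 1, 0]) _
        (by rw [dotProduct_smul, a0, smul_zero]) (by rw [smul_vecMulVec, ← hN])) (by simp)
      · rw [mul_one]
        refine Eq.trans ?_ a2
        congr 1
        · ext i j
          fin_cases i <;> fin_cases j <;> simp [x, hN]
        · ext i j
          fin_cases i <;> fin_cases j <;> simp [x, hN, hc, -conj_apply, sub_eq_add_neg]
      · rw [frobenius_def, ← Units.val_pow_eq_pow_val, ← map_pow, a3]; simp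
      · simpa [x, hN] using congrFun (congrFun e 0) 1
    · have h3 : (3 : F) ≠ 0 := cast_ne (p := p) (r := 3) Nat.prime_three (by omega)
      have h7 : orderOf (p : ZMod 3) = 1 := (orderOf_eq_one_iff_dvd hp.out.pos).2 (by omega)
      refine iff_of_true (key (by omega) (by decide) (by omega) (by
        rw [hF, Nat.cast_pow, orderOf_eq_one_iff.1 h7]; simp) fun k ⟨N, a1, a2⟩ => ?_) (by simp [h6])
      obtain ⟨y, h8, h9, h10, h11, h12⟩ := h.exists_three hn h3 hz h4 h5 (k = 0)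
      exact ⟨y, h8, h9, h10, fun ⟨M, a3, a4⟩ => by omega, h11⟩
    · have h3 : (3 : F) ≠ 0 := cast_ne (p := p) (r := 3) Nat.prime_three (by omega)
      obtain ⟨m, hm⟩ : 3 ∣ p + 1 := by omega
      obtain ⟨ω, hω⟩ := exists_omega (F := F) (card_sub_one hF ▸ hm ▸ ⟨_, mul_assoc _ _ _⟩)
      have w0 : ω ^ 3 = 1 := by linear_combination (ω - 1) * hω
      have w1 : (ω ^ p)⁻¹ = ω := inv_eq_of_mul_eq_one_right (by
        rw [← pow_succ, hm, pow_mul, w0, one_pow])
      refine iff_of_false (h.not_three h3 hω (wit _ (by simp) (by simp; linear_combination w0)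
        (by simp; rintro rfl; simp at w0) (by simp [w1]))) (by simp [h6])
  · obtain h6 | ⟨h6, h7⟩ | ⟨h6, h7⟩ := five_cases p
    · have := (Nat.prime_dvd_prime_iff_eq Nat.prime_five hp.out).1 (Nat.dvd_of_mod_eq_zero h6)
      omega
    · obtain ⟨l, l0, hl⟩ := exists_orderOf_eq (F := F) (d := 5) (card_sub_one hF ▸
        h6.elim (fun e => Dvd.dvd.mul_left (by omega) _) fun e => Dvd.dvd.mul_right (by omega) _)
      have w0 : l ^ 5 = 1 := hl ▸ pow_orderOf_eq_one l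
      have w1 : l ≠ 1 := fun e => by simp [e] at hl
      have w2 : l ^ p = l ∨ l ^ p = l⁻¹ := by
        rw [← Nat.div_add_mod p 5, pow_add, pow_mul, w0, one_pow, one_mul]
        exact h6.imp (fun e => by simp [e]) fun e => eq_inv_of_mul_eq_one_left (by
          rw [← pow_succ, e, w0])
      obtain ⟨x, hx, a1⟩ := wit {l, l⁻¹, 1, 1} (by simp) (by simp [l0]) (by simp [l0]) (by
        rcases w2 with e | e <;> simp [e, Multiset.cons_swap])
      have a2 : (l + l⁻¹) ^ 2 + (l + l⁻¹) - 1 = 0 := mul_left_cancel₀ (sub_ne_zero.2 w1) (by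
        have := mul_inv_cancel₀ l0
        grind)
      refine iff_of_false (fun H => h.not_five H hn hx (pow_linM_GL a1 (by simp [w0])) (fun z e =>
        not_scalar_linM a1 w1 (by simp) (by simp) z ((toLin'_eq_smul_iff _ _).2 e)) a2
        (by rw [tt_linM a1 (by simp [l0])]; simp; ring) fun e => absurd ?_ w1) (by simp [h7])
      field_simp at e
      exact sub_eq_zero.1 (pow_eq_zero_iff two_ne_zero |>.1 (by linear_combination e))
    · refine iff_of_true (key (by omega) (by decide) (by omega) (by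
        rw [hF, Nat.cast_pow, orderOf_pow' _ two_ne_zero, h7]; rfl) fun k ⟨N, a1, a2⟩ => ?_)
        (by simp [h7])
      obtain ⟨a, b, c, d, hs, ea, eb, ec, ed⟩ := h.exists_sb_i hn hz h4 h5
      obtain ⟨y, h9, h10, h11, h12⟩ := h.exists_five' hs ea eb ec ed (by
        rw [card_sub_one hF, Nat.prime_five.dvd_mul]; omega)
      exact ⟨y, h9, h10, h11, fun ⟨M, a3, a4⟩ => by omega, h12⟩
  · exact iff_of_false (not_all_of_order hr.out hΩ (k := 4) (((Nat.coprime_primes hr.out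
      Nat.prime_two).2 (by omega)).pow_right 2) (fun x hx z e => by simpa using det_scalar hx.2 e)
      fun y hy e => h.not_big hn hr.out h10 hy e) (by omega)

end H16.NX
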