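import Cfsg.Agent.H16.LA37
import Cfsg.Agent.H16.LA19
import Cfsg.Agent.H14.El7

/-! Quadratic forms over a quadratic extension and their traces. -/

set_option autoImplicit false
set_option linter.unusedSectionVars false

namespace H16.OX

open Module Polynomial H23 H23.Form H14.Wall

variable {F E V W : Type*} [Field F] [Field E] [Algebra F E] [AddCommGroup V] [Module F V]
  [Module E V] [IsScalarTower F E V] [AddCommGroup W] [Module F W] [Module E W] [IsScalarTower F E W]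
  [Fintype F] [Fintype E] [FiniteDimensional F V] [FiniteDimensional E V] [FiniteDimensional F W]
  [FiniteDimensional E W] {Φ : Form (RingHom.id F) V} {Ψ : Form (RingHom.id E) V} 
  {Φ' : Form (RingHom.id F) W} {Ψ' : Form (RingHom.id E) W} {α : E →+* E} {y : End F V}

/-- `Φ` is the trace of `Ψ` -/
structure LQ (Φ : Form (RingHom.id F) V) (Ψ : Form (RingHom.id E) V) : Prop where
  f : QS Φ
  e : QS Ψ
  B : ∀ u v, Φ.B u v = Algebra.trace F E (Ψ.B u v)
  Q : ∀ v, Φ.Q v = Algebra.trace F E (Ψ.Q v)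

theorem pres_of_B (hΦ : QS Φ) (h2 : (2 : F) ≠ 0) (h : ∀ u v, Φ.B (y u) (y v) = Φ.B u v) :
    Pres Φ y :=
  ⟨h, fun v => mul_left_cancel₀ h2 (by rw [← H22.B_self_quad hΦ.k, h, H22.B_self_quad hΦ.k])⟩

theorem LQ.of (h2 : (2 : F) ≠ 0) (h : QS Φ) (h' : QS Ψ)
    (hB : ∀ u v, Φ.B u v = Algebra.trace F E (Ψ.B u v)) : LQ Φ Ψ :=
  ⟨h, h', hB, fun v => mul_left_cancel₀ h2 (by
    rw [← H22.B_self_quad h.k, hB, H22.B_self_quad h'.k, two_mul, two_mul, map_add])⟩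

theorem LQ.prod (h : LQ Φ Ψ) (h' : LQ Φ' Ψ') :
    LQ (fprod Φ Φ' (h.f.ee h'.f) (h.f.kk h'.f)) (fprod Ψ Ψ' (h.e.ee h'.e) (h.e.kk h'.e)) :=
  ⟨h.f.prod h'.f, h.e.prod h'.e, fun u v => by simp [h.B, h'.B], fun v => by simp [h.Q, h'.Q]⟩

theorem LQ.iso (h : LQ Φ Ψ) (h' : LQ Φ' Ψ') {g : End E V} {k : End E W} (H : Iso Ψ g Ψ' k) :
    Iso Φ (g.restrictScalars F) Φ' (k.restrictScalars F) :=
  let ⟨e, h1, h2, h3⟩ := H
  ⟨e.restrictScalars F, fun u v => by simp [h.B, h'.B, h1], fun v => by simp [h.Q, h'.Q, h2], h3⟩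

theorem LQ.pres (h : LQ Φ Ψ) {g : End E V} (H : Pres Ψ g) : Pres Φ (g.restrictScalars F) :=
  ⟨fun u v => by simp [h.B, H.B], fun v => by simp [h.Q, H.Q]⟩

theorem exists_LQ (h : QS Ψ) : ∃ Φ : Form (RingHom.id F) V, LQ Φ Ψ := by
  have s : ∀ x y, Ψ.B y x = Ψ.B x y := fun x y => by rw [Ψ.symm, h.e, one_mul]; rfl
  refine ⟨⟨1, 1, resB Ψ (fun _ => rfl) (Algebra.trace F E), fun v => Algebra.trace F E (Ψ.Q v),
    fun _ => rfl, by simp, fun x y => by simp [resB_apply, s x y], by simp, by simp, fun x y => ?_,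
    fun c x => ?_, fun v => ⟨Algebra.trace F E (Ψ.Q v), ?_, by simp⟩⟩,
    ⟨fun x hx => h.nd x fun y => tr_ext (F := F) fun k => ?_, rfl⟩, h, fun _ _ => rfl, fun _ => rfl⟩
  · simp [Ψ.Q_add, h.k, resB_apply]
  · rw [← algebraMap_smul E c, Ψ.Q_smul, ← map_pow, ← Algebra.smul_def, map_smul, smul_eq_mul]
  · simp [resB_apply, H22.B_self_quad h.k, two_mul]
  · simpa [resB_apply, mul_comm k] using hx (k • y)

theorem LQ.pres_of (h : LQ Φ Ψ) (h2 : (2 : E) ≠ 0) {g : End E V}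
    (H : Pres Φ (g.restrictScalars F)) : Pres Ψ g :=
  pres_of_B h.e h2 fun u v => tr_ext (F := F) fun k => by
    simpa [h.B, mul_comm k] using H.B u (k • v)

theorem LQ.pres_semi (h : LQ Φ Ψ) (h2 : (2 : F) ≠ 0)
    (hα : ∀ c, α (algebraMap F E c) = algebraMap F E c)
    (hy : ∀ u v, Ψ.B (y u) (y v) = α (Ψ.B u v)) : Pres Φ y :=
  pres_of_B h.f h2 fun u v => by
    rw [h.B, h.B, hy, tr_map (σ := RingHom.id F) (fun _ => rfl) hα]; rfl

theorem LQ.exists_Q (h : LQ Φ Ψ) (h2 : (2 : E) ≠ 0) {w : V} (hw : Ψ.Q w ≠ 0) :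
    ∃ k : E, Φ.Q (k • w) ≠ 0 := by
  by_contra! H
  refine mul_ne_zero h2 hw (tr_ext (F := F) fun k => ?_)
  have : 2 * Ψ.Q w * k = Ψ.Q ((k + 1) • w) - Ψ.Q (k • w) - Ψ.Q ((1 : E) • w) := by
    simp only [Ψ.Q_smul]; ring
  simp only [this, map_sub, ← h.Q, H, zero_mul, map_zero, sub_zero]

variable (E) in
/-- semilinear isometries -/
def SN (Φ : Form (RingHom.id F) V) : Subgroup Φ.O where
  carrier := {g | ∃ α : E →+* E, Semi (g.1.toLinearMap : End F V) α}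
  mul_mem' := fun ⟨α, a⟩ ⟨β, b⟩ => ⟨α.comp β, fun k v => (congrArg _ (b k v)).trans (a _ _)⟩
  one_mem' := ⟨RingHom.id E, fun _ _ => rfl⟩
  inv_mem' := fun {g} ⟨α, a⟩ => ⟨(RingEquiv.ofBijective α (Finite.injective_iff_bijective.1
    α.injective)).symm, fun k v => g.1.injective (by
      refine Eq.trans ?_ (a _ _).symm
      simp [show ∀ k, α ((RingEquiv.ofBijective α (Finite.injective_iff_bijective.1
        α.injective)).symm k) = k from (RingEquiv.ofBijective α _).apply_symm_apply])⟩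

theorem exists_sd' {ι : Type*} [Fintype ι] (b : Basis ι E V)
    (hα : ∀ c, α (algebraMap F E c) = algebraMap F E c) (h2 : ∀ a, α (α a) = a) (μ : ι → E) {c : E}
    (hc : ∀ i, μ i * α (μ i) = c) :
    ∃ y : End F V, Semi y α ∧ (∀ i, y (b i) = μ i • b i) ∧ ∀ v, y (y v) = c • v := by
  classical
  refine ⟨⟨⟨fun v => b.equivFun.symm fun i => μ i * α (b.equivFun v i), fun u v => ?_⟩,
    fun c v => ?_⟩, fun k v => ?_, fun i => ?_, fun v => ?_⟩
  all_goals apply b.equivFun.injective; ext j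
  · simp [-Basis.equivFun_symm_apply, -Basis.equivFun_apply, mul_add]
  · simp only [RingHom.id_apply, ← algebraMap_smul E c, map_smul, LinearEquiv.apply_symm_apply,
      Pi.smul_apply, smul_eq_mul, map_mul, hα, mul_left_comm]
  · simp [-Basis.equivFun_symm_apply, mul_left_comm]
  · by_cases e : i = j <;> simp [-Basis.equivFun_symm_apply, e, Finsupp.single_apply]
  · simp [-Basis.equivFun_symm_apply, -Basis.equivFun_apply, h2, ← mul_assoc, hc]

variable (hF : Fintype.card E = Fintype.card F ^ 2) (h2 : (2 : F) ≠ 0)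
include hF

theorem rank_two : finrank F E = 2 :=
  Nat.pow_right_injective Fintype.one_lt_card (Module.card_eq_pow_finrank.symm.trans hF)

theorem conj_alg (c : F) : conj hF (algebraMap F E c) = algebraMap F E c := by
  rw [conj_apply, ← map_pow, FiniteField.pow_card]

theorem tr_zero_iff {z : E} : Algebra.trace F E z = 0 ↔ conj hF z = -z := by
  rw [← (algebraMap F E).injective.eq_iff, FiniteField.algebraMap_trace_eq_sum_pow, rank_two hF]
  simp [Finset.sum_range_succ, eq_neg_iff_add_eq_zero, add_comm]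

include h2

theorem sq_iff {a : E} (ha : a ≠ 0) : ∃ m, Fintype.card F = 2 * m + 1 ∧
    (IsSquare a ↔ (conj hF a / a) ^ (m + 1) = 1) := by
  have h3 := H22.ringChar_ne_two h2
  obtain ⟨m, hm⟩ := Nat.odd_iff.2 (FiniteField.odd_card_of_char_ne_two h3)
  refine ⟨m, hm, ?_⟩
  rw [FiniteField.isSquare_iff (H22.ringChar_ne_two (cast_ext_ne (r := 2) h2)) ha, conj_apply, hF, hm,
    pow_succ a, mul_div_cancel_right₀ _ ha, ← pow_mul,
    show (2 * m + 1) ^ 2 = 2 * (2 * m * (m + 1)) + 1 by ring]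
  rw [Nat.mul_add_div two_pos]; simp

theorem sq_of_fix {a : E} (ha : a ≠ 0) (h : conj hF a = a) : IsSquare a := by
  obtain ⟨m, -, h1⟩ := sq_iff hF h2 ha
  simp [h1, h, ha, -conj_apply]

theorem sq_skew {a : E} (ha : a ≠ 0) (h : conj hF a = -a) : IsSquare a ↔ ¬ IsSquare (-1 : F) := by
  obtain ⟨m, h0, h1⟩ := sq_iff hF h2 ha
  rw [h1, h, neg_div, div_self ha, neg_one_pow_eq_one_iff_even (fun e => cast_ext_ne (r := 2) h2 (by
    push_cast; linear_combination -e)), FiniteField.isSquare_neg_one_iff, Nat.even_iff]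
  omega

theorem exists_mu {a : E} (ha : ¬ IsSquare a) :
    ∃ μ : E, μ * conj hF μ = -1 ∧ μ * μ * a = conj hF a := by
  have h0 : a ≠ 0 := fun e => ha (e ▸ IsSquare.zero)
  obtain ⟨m, h1, h3⟩ := sq_iff hF h2 h0
  have h4 : conj hF a / a = a ^ m * a ^ m := by rw [div_eq_iff h0, conj_apply, h1]; ring
  have h5 : a ^ m * conj hF (a ^ m) = (conj hF a / a) ^ (m + 1) := by rw [h4, conj_apply, h1]; ring
  refine ⟨a ^ m, (mul_self_eq_one_iff.1 ?_).resolve_left fun e => ha (h3.2 (h5 ▸ e)), by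
    rw [← h4, div_mul_cancel₀ _ h0]⟩
  have := FiniteField.pow_card_sub_one_eq_one a h0
  rw [hF, h1, show (2 * m + 1) ^ 2 = 2 * (2 * m * (m + 1)) + 1 by ring, Nat.add_sub_cancel] at this
  rw [← this, conj_apply, h1]; ring

theorem LQ.line (h : LQ Φ Ψ) (h1 : finrank E V = 1) {w : V} (hw : Ψ.Q w ≠ 0) :
    Pl Φ ↔ (IsSquare (Ψ.Q w) ↔ ¬ IsSquare (-1 : F)) := by
  have h0 : w ≠ 0 := fun e => hw (by simp [e])
  have h3 : finrank F V = 2 := by rw [← finrank_mul_finrank F E V, rank_two hF, h1]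
  rw [h.f.pl_iff, h3]
  constructor
  · rintro ⟨X, a1, a2⟩
    obtain ⟨x, a3, a4⟩ := X.exists_mem_ne_zero_of_ne_bot (by rintro rfl; simp at a2)
    obtain ⟨k, rfl⟩ := (finrank_eq_one_iff_of_nonzero' w h0).1 h1 x
    have a5 := left_ne_zero_of_smul a4
    have a6 := a1 _ a3
    rw [h.Q, Ψ.Q_smul, tr_zero_iff hF] at a6
    rw [← sq_skew hF h2 (mul_ne_zero (pow_ne_zero 2 a5) hw) a6, isSquare_sq_mul_iff a5]
  · intro H
    obtain ⟨j, a1, a2⟩ := As.exists_skew (conj_ne_id hF) (conj_conj hF)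
    obtain ⟨m, hm⟩ := (H22.isSquare_iff_of_mul hw a1).2 (H.trans (sq_skew hF h2 a1 a2).symm)
    have a3 : m ≠ 0 := fun e => mul_ne_zero hw a1 (by simp [hm, e])
    refine ⟨F ∙ ((j / m) • w), fun x hx => ?_, by
      rw [finrank_span_singleton (smul_ne_zero (div_ne_zero a1 a3) h0)]⟩
    obtain ⟨c, rfl⟩ := Submodule.mem_span_singleton.1 hx
    rw [Φ.Q_smul, h.Q, Ψ.Q_smul, show (j / m) ^ 2 * Ψ.Q w = j by field_simp; linear_combination hm,
      (tr_zero_iff hF).2 a2, mul_zero]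

theorem LQ.exists_j (h : LQ Φ Ψ) {ι : Type*} [Fintype ι] (b : Basis ι E V)
    (h1 : ∀ i j, i ≠ j → Ψ.B (b i) (b j) = 0) (h3 : ∀ i, ¬ IsSquare (Ψ.Q (b i))) :
    ∃ y : End F V, Pres Φ y ∧ Semi y (conj hF) ∧ y ^ 2 = -1 ∧ ∀ i, ∃ μ : E, y (b i) = μ • b i := by
  choose μ h4 h5 using fun i => exists_mu hF h2 (h3 i)
  obtain ⟨y, a1, a2, a3⟩ := exists_sd' b (conj_alg hF) (conj_conj hF) μ h4
  refine ⟨y, h.pres_semi h2 (conj_alg hF) (a1.B_eq b (fun _ => rfl) fun i j => ?_), a1,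
    LinearMap.ext fun v => by simpa [sq] using a3 v, fun i => ⟨_, a2 i⟩⟩
  rw [a2, a2, B_smul_left, B_smul_right]
  by_cases e : i = j
  · subst e
    rw [H22.B_self_quad h.e.k, map_mul, ← h5, map_ofNat, RingHom.id_apply]; ring
  · simp [h1 i j e, -conj_apply]

theorem exists_line (P : Prop) : ∃ (L : Form (RingHom.id F) (Unit → E))
    (L' : Form (RingHom.id E) (Unit → E)), LQ L L' ∧ (Pl L ↔ P) := by
  classical
  have h3 : (2 : E) ≠ 0 := cast_ext_ne (r := 2) h2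
  obtain ⟨ν, hν⟩ := FiniteField.exists_nonsquare (H22.ringChar_ne_two h3)
  obtain ⟨c, h4, h5⟩ : ∃ c : E, c ≠ 0 ∧ (IsSquare c ↔ (P ↔ ¬ IsSquare (-1 : F))) := by
    by_cases e : P ↔ ¬ IsSquare (-1 : F)
    exacts [⟨1, one_ne_zero, by simp [e]⟩, ⟨ν, fun e => hν (e ▸ IsSquare.zero), iff_of_false hν e⟩]
  obtain ⟨L, h⟩ := exists_LQ (F := F) (Ψ := ofQuad (dq fun _ : Unit => c))
    ⟨dq_nondeg h3 fun _ => h4, rfl⟩
  have h6 : (ofQuad (dq fun _ : Unit => c)).Q (Pi.single () 1) = c := dq_single _ _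
  refine ⟨L, _, h, ?_⟩
  rw [h.line hF h2 (by simp) (h6 ▸ h4), h6, h5]
  tauto

theorem exists_type (n : ℕ) (P : Prop) :
    ∃ (L : Form (RingHom.id F) ((Fin n → E) × (Unit → E))) (L' : Form (RingHom.id E) _),
      LQ L L' ∧ (Pl L ↔ P) := by
  obtain ⟨Θ', h3⟩ := exists_qs (F := E) (cast_ext_ne (r := 2) h2) n
  obtain ⟨Θ, h4⟩ := exists_LQ (F := F) h3
  obtain ⟨L, L', h5, h6⟩ := exists_line hF h2 (Pl Θ ↔ P)
  refine ⟨_, _, h4.prod h5, ?_⟩
  rw [h4.f.pl_prod h5.f (by simp [finrank_pi_ext hF]) (by simp [finrank_pi_ext hF]), h6]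
  tauto

end H16.OX
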