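import Cfsg.Agent.H16.OX1

/-! Involutions of `PΩ` and quadratic field extension subgroups of orthogonal type. -/

set_option autoImplicit false
set_option linter.unusedSectionVars false

namespace H16.OX

open Module Polynomial H23 H23.Form H14.Wall

variable {F E V W : Type*} [Field F] [Field E] [Algebra F E] [AddCommGroup V] [Module F V]
  [Module E V] [IsScalarTower F E V] [AddCommGroup W] [Module F W] [Module E W] [IsScalarTower F E W]
  [Fintype F] [Fintype E] [FiniteDimensional F V] [FiniteDimensional E V] [FiniteDimensional F W]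
  [FiniteDimensional E W] {Φ : Form (RingHom.id F) V} {Ψ : Form (RingHom.id E) V}
  {α : E →+* E} {g y : End F V} {n r : ℕ}

variable (E) in
/-- `g` is conjugate under `Ω` to a semilinear map -/
def EO (Φ : Form (RingHom.id F) V) (g : End F V) : Prop :=
  ∃ h : Φ.O, h ∈ commutator Φ.O ∧ ∃ (y : End F V) (α : E →+* E), Semi y α ∧ ∀ v, h.1 (y v) = g (h.1 v)

theorem EO.neg (h : EO E Φ g) : EO E Φ (-g) :=
  let ⟨h, h1, y, α, h2, h3⟩ := h
  ⟨h, h1, -y, α, fun k v => by simp [h2 k v], fun v => by simp [h3]⟩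

theorem eo_one : EO E Φ 1 := ⟨1, one_mem _, 1, RingHom.id E, fun _ _ => rfl, fun _ => rfl⟩

instance fdSub (A : Submodule E V) : FiniteDimensional F A := Module.Finite.trans E A

theorem iso_sq_neg (h2 : (2 : F) ≠ 0) (hΦ : QS Φ) (hg : Pres Φ g) (hy : Pres Φ y) (h1 : g ^ 2 = -1)
    (h3 : y ^ 2 = -1) : Iso Φ y Φ g := by
  obtain ⟨A, hA, H⟩ := hΦ.exists_rot h2 hg h1
  obtain ⟨B, hB, H'⟩ := hΦ.exists_rot h2 hy h3
  have e : B ≃ₗ[F] A := LinearEquiv.ofFinrankEq _ _ (by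
    have := H.finrank_prod; have := H'.finrank_prod; omega)
  have h4 : ∀ v, y (y v) = -v := fun v => LinearMap.congr_fun h3 v
  have h5 : ∀ v : V, v = -v → v = 0 := fun v e => (smul_eq_zero.1 (show (2 : F) • v = 0 by
    rw [two_smul, ← eq_neg_iff_add_eq_zero]; exact e)).resolve_left h2
  exact iso_free hΦ.nd hΦ.nd rfl rfl hy hg (H'.sim.symm.trans (Sim.trans ⟨e.prodCongr e,
    fun v => by simp [rot_apply]⟩ H.sim)) (fun v e => h5 v (by rw [← h4, e, e]))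
    fun v e => h5 v (by rw [← h4, e, map_neg, e, neg_neg])

variable (hF : Fintype.card E = Fintype.card F ^ 2) (h2 : (2 : F) ≠ 0) (h : LQ Φ Ψ)
include hF h2 h

omit h2 in
theorem LQ.rank : finrank F V = 2 * finrank E V := by
  rw [← finrank_mul_finrank F E V, rank_two hF]

omit h2 in
theorem LQ.pl_of (H : Pl Ψ) : Pl Φ := by
  obtain ⟨X, h1, h3⟩ := h.e.pl_iff.1 H
  refine h.f.pl_iff.2 ⟨X.restrictScalars F, fun x hx => by simp [h.Q, h1 x hx], ?_⟩
  rw [h.rank hF, ← h3, ← rank_two hF, finrank_mul_finrank F E X]; rfl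

theorem LQ.pl_even (he : finrank E V = 2 * (n + 1)) : Pl Φ ↔ Pl Ψ := by
  refine ⟨fun H => by_contra fun H' => ?_, h.pl_of hF⟩
  obtain ⟨L, L', h3, h4⟩ := exists_type hF h2 (2 * n + 1) False
  exact h4.1 ((h.iso h3 (h.e.iso h3.e (by simp [he]) (by simp [he]; ring) (iff_of_false H'
    fun e => h4.1 (h3.pl_of hF e)))).pl_iff.1 H)

theorem LQ.exists_inv (hn : n + 1 < finrank E V) (P : Prop) :
    ∃ (Θ : Form (RingHom.id F) ((Fin n → E) × (Unit → E))) (A : Submodule E V)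
      (Θ' : Form (RingHom.id F) A) (hΘ : QS Θ) (hΘ' : QS Θ') (y : Φ.O), y ∈ SN E Φ ∧
      Iso (fprod Θ Θ' (hΘ.ee hΘ') (hΘ.kk hΘ')) ((-1 : End F _).prodMap 1) Φ y.1.toLinearMap ∧
      (Pl Θ ↔ P) ∧ finrank F ((Fin n → E) × (Unit → E)) = 2 * (n + 1) := by
  obtain ⟨L, L', h3, h4⟩ := exists_type hF h2 n P
  obtain ⟨A, hA, H⟩ := h.e.compl h3.e (by simpa using hn)
  obtain ⟨Θ', h5⟩ := exists_LQ (F := F) hA
  obtain ⟨y, h6, h7⟩ := exists_pres_of_iso H (g := (-1 : End E _).prodMap 1)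
    ⟨fun x y => by simp, fun x => by simp [Q_neg]⟩
  exact ⟨L, A, Θ', h3.f, h5.f, (h.pres h6).toO h.f.nd, ⟨_, semi_res y⟩, (h3.prod h5).iso h h7, h4,
    by simp [h3.rank hF]⟩

theorem LQ.eo_of (hd : 2 ≤ finrank E V) {g y : Φ.O} (hy : IsConj y g) (h1 : y ∈ SN E Φ) {w : V}
    (hw : Φ.Q w ≠ 0) (h3 : H22.refl h.f.k w * y * H22.refl h.f.k w ∈ SN E Φ) :
    EO E Φ g.1.toLinearMap := by
  classical
  obtain ⟨δ, θ, a1, -, a2⟩ := exists_chars h2 h.f
  obtain ⟨Θ, A, Θ', hΘ, hΘ', s, a3, a4, a5, a6⟩ := h.exists_inv hF h2 (n := 0) hd (¬ IsSquare (-1 : F))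
  obtain ⟨b, b1, b2⟩ := exists_orth_basis h2 hΘ.nd hΘ.k
  have a7 : (δ s : ℤ) = 1 := by simp [neg_block h2 h.f hΘ.k a4 b b2 b1 (by simp) a1, a6]
  have a8 : θ s = -1 := (Int.units_eq_one_or _).resolve_left fun e => by
    obtain ⟨a, a9, a10⟩ := (inv_mem_iff h2 h.f hΘ a4).1 ((a2 s).2 ⟨a7, by simp [e]⟩)
    obtain rfl : a = 1 := by omega
    simp [a5] at a10
  have k1 : ∀ c y : Φ.O, y ∈ SN E Φ → c * y * c⁻¹ = g → δ c = 1 → θ c = 1 →
      EO E Φ g.1.toLinearMap := fun c y ⟨α, b3⟩ b4 b5 b6 =>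
    ⟨c, (a2 c).2 ⟨by simp [b5], by simp [b6]⟩, _, α, b3, fun v => by simp [← b4]⟩
  have k2 : ∀ c y : Φ.O, y ∈ SN E Φ → c * y * c⁻¹ = g → δ c = 1 → EO E Φ g.1.toLinearMap :=
    fun c y b3 b4 b5 => (Int.units_eq_one_or (θ c)).elim (k1 c y b3 b4 b5) fun e =>
      k1 (c * s) (s⁻¹ * y * s) (mul_mem (mul_mem (inv_mem a3) b3) a3) (by rw [← b4]; group)
        (by simp [b5, show δ s = 1 from Units.ext a7]) (by simp [e, a8])
  obtain ⟨c, hc⟩ := isConj_iff.1 hy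
  refine (Int.units_eq_one_or (δ c)).elim (k2 c y h1 hc) fun e => k2 (c * H22.refl h.f.k w) _ h3 ?_ ?_
  · rw [← hc, mul_inv_rev, H22.refl_inv]
    simp only [mul_assoc, ← mul_assoc (H22.refl h.f.k w) (H22.refl h.f.k w), H22.refl_mul_self, one_mul]
  · exact Units.ext (by simp [e, a1 w hw])

theorem LQ.eo_inv (hd : 2 ≤ finrank E V) {g : Φ.O} (hg : g ∈ commutator Φ.O)
    (h1 : (g.1.toLinearMap : End F V) ^ 2 = 1) (h3 : (g.1.toLinearMap : End F V) ≠ 1)
    (h4 : (g.1.toLinearMap : End F V) ≠ -1) : EO E Φ g.1.toLinearMap := by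
  obtain ⟨A, B, hA, hB, H, a1, a2⟩ := h.f.inv_dec h2 (pres_O g) h1
  obtain ⟨a, a3, -⟩ := (inv_mem_iff h2 h.f hA H).1 hg
  have a4 := H.finrank_prod
  have a5 := h.rank hF
  have a6 := a1 h3
  have a7 := a2 h4
  obtain ⟨n, rfl⟩ : ∃ n, a = n + 1 := ⟨a - 1, by omega⟩
  obtain ⟨Θ, C, Θ', hΘ, hΘ', y, b1, b2, b3, b4⟩ := h.exists_inv hF h2 (n := n) (by omega)
    (Pl (Φ.restrict A))
  have b5 := b2.finrank_prod
  have b6 : Even (finrank F C) := Nat.even_iff.2 (by omega)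
  have b0 : Even (finrank F ((Fin n → E) × (Unit → E))) := Nat.even_iff.2 (by omega)
  have b7 := b2.pl_prod hΘ hΘ' b0 b6
  have b8 := H.pl_prod hA hB (Nat.even_iff.2 (by omega)) (Nat.even_iff.2 (by omega))
  have : Nontrivial ((Fin n → E) × (Unit → E)) := inferInstance
  obtain ⟨t, ht⟩ := H22.exists_Q_ne_zero hΘ.k hΘ.nd
  have b9 := isConj_iff_iso.2 (b2.symm.trans ((Iso.prodMap _ _ _ _ ((hΘ.iso hA b0 (by omega)
    b3).of_scalar (c := -1) (by simp) (by simp)) (hΘ'.iso hB b6 (by omega) (by tauto))).trans H))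
  obtain ⟨e, -, e2, e3⟩ := b2
  refine h.eo_of hF h2 hd b9 b1 (w := e (t, 0)) (by simpa [e2] using ht) ?_
  have c1 := H22.conj_refl h.f.k y (e (t, 0))
  rw [show y.1 (e (t, 0)) = (-1 : F) • e (t, 0) from (e3 _).symm.trans (by simp [← map_neg]),
    H22.refl_smul _ (by simp), mul_inv_eq_iff_eq_mul] at c1
  rwa [← c1, mul_assoc, H22.refl_mul_self, mul_one]

theorem LQ.semi_refl {y : Φ.O} (h1 : Semi (y.1.toLinearMap : End F V) α) (h3 : ∀ v, y.1 (y.1 v) = -v)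
    {w : V} {μ : E} (hw : Φ.Q w ≠ 0) (h4 : y.1 w = μ • w) :
    H22.refl h.f.k w * y * H22.refl h.f.k w ∈ SN E Φ := by
  have s : ∀ x y, Φ.B x y = Φ.B y x := fun x y => by rw [Φ.symm, h.f.e, one_mul]; rfl
  have a0 : Ψ.Q w ≠ 0 := fun e => hw (by simp [h.Q, e])
  have a1 : Φ.B w (y.1 w) = 0 := (mul_eq_zero.1 (show (2 : F) * _ = 0 by
    have := y.2.1 w (y.1 w)
    rw [h3, map_neg, s] at this
    linear_combination -this)).resolve_left h2
  have a2 : Φ.B w w ≠ 0 := by rw [H22.B_self_quad h.f.k]; exact mul_ne_zero h2 hw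
  have a3 : LinearIndependent F ![(1 : E), μ] := LinearIndependent.pair_iff.2 fun a b e => by
    have a4 : a • w + b • y.1 w = 0 := by simpa [add_smul, h4] using congrArg (· • w) e
    obtain rfl : a = 0 := by simpa [a1, a2] using congrArg (Φ.B w) a4
    exact ⟨rfl, by simpa [show w ≠ 0 from fun e => hw (by simp [e])] using a4⟩
  refine ⟨α, fun k v => ?_⟩
  suffices H : ∀ v, (H22.refl h.f.k w * y * H22.refl h.f.k w).1 v = y.1 ((H22.refl h.e.k w).1 v) from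
    (H _).trans (by rw [map_smul]; exact (h1 k _).trans (congrArg _ (H v).symm))
  intro v
  obtain ⟨c, u, a4, rfl⟩ : ∃ (c : E) (u : V), Ψ.B w u = 0 ∧ v = u + c • w :=
    ⟨(Ψ.B w w)⁻¹ * Ψ.B w v, v - _, by
      have : Ψ.B w w ≠ 0 := by
        rw [H22.B_self_quad h.e.k]; exact mul_ne_zero (cast_ext_ne (r := 2) h2) a0
      simp [mul_right_comm, this], (sub_add_cancel _ _).symm⟩
  obtain ⟨a, b, rfl⟩ := Submodule.mem_span_pair.1 (show c ∈ Submodule.span F {1, μ} by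
    simpa [Set.pair_comm] using (a3.span_eq_top_of_card_eq_finrank (by simp [rank_two hF])).ge
      (Submodule.mem_top (x := c)))
  have a5 : Φ.B w u = 0 := by simp [h.B, a4]
  have a6 : Φ.B w (y.1 u) = 0 := by
    rw [← neg_eq_zero, ← LinearMap.neg_apply, ← map_neg, ← h3, y.2.1, h4, h.B, B_smul_left, a4]; simp
  have a7 : (a • (1 : E) + b • μ) • w = a • w + b • y.1 w := by simp [add_smul, h4]
  rw [map_add (H22.refl h.e.k w).1, map_smul, H22.refl_apply_of_perp _ a4, H22.refl_apply_self _ a0, smul_neg, a7]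
  simp [H22.refl_apply_of_perp _ a5, H22.refl_apply_self _ hw, H22.refl_apply_of_perp _ a1, h3,
    H22.refl_apply_of_perp _ a6, add_comm]

theorem LQ.eo_j (hd : 2 ≤ finrank E V) {g : Φ.O} (h1 : (g.1.toLinearMap : End F V) ^ 2 = -1) :
    EO E Φ g.1.toLinearMap := by
  classical
  have h3 : (2 : E) ≠ 0 := cast_ext_ne (r := 2) h2
  obtain ⟨ν, hν⟩ := FiniteField.exists_nonsquare (H22.ringChar_ne_two h3)
  obtain ⟨n, hn⟩ : ∃ n, finrank E V = n + 1 := ⟨finrank E V - 1, by omega⟩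
  obtain ⟨Θ, h4⟩ := exists_LQ (F := F) (Ψ := ofQuad (dq fun _ : Fin n => ν))
    ⟨dq_nondeg h3 fun _ e => hν (e ▸ IsSquare.zero), rfl⟩
  have a1 : ∀ i j : Fin n, i ≠ j → (ofQuad (dq fun _ : Fin n => ν)).B (Pi.single i 1) (Pi.single j 1) = 0 :=
    fun i j e => by rw [dq_B_single]; simp [e.symm]
  obtain ⟨x, a2, -, a3, -⟩ := h4.exists_j hF h2 (Pi.basisFun E _) (by simpa using a1)
    (by simpa [dq_single] using fun _ => hν)
  obtain ⟨_, a4, a5, -⟩ := h4.f.j_data h2 a2 a3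
  obtain ⟨_, a6, a7, -⟩ := h.f.j_data h2 (pres_O g) h1
  rw [h4.rank hF, finrank_fin_fun, mul_right_inj' two_ne_zero] at a4
  rw [h.rank hF, hn, mul_right_inj' two_ne_zero] at a6
  subst a4 a6
  obtain ⟨A, hA, H⟩ := h.e.compl h4.e (by simp [hn])
  have a8 : finrank E A = 1 := by simpa [hn] using H.finrank_prod.symm
  have := Module.nontrivial_of_finrank_eq_succ a8
  obtain ⟨t, ht⟩ := H22.exists_Q_ne_zero hA.k hA.nd
  obtain ⟨L, h5⟩ := exists_LQ (F := F) hA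
  have a9 := ((h4.prod h5).iso h H).pl_prod h4.f h5.f (by simp [h4.rank hF]) (by simp [h5.rank hF])
  rw [h5.line hF h2 a8 ht, a5, a7, Nat.even_add_one] at a9
  obtain ⟨e, e1, e2, -⟩ := H
  obtain ⟨y, b1, b2, b3, b4⟩ := h.exists_j hF h2 (((Pi.basisFun E _).prod
    (FiniteDimensional.basisSingleton Unit a8 t fun e => ht (by simp [e]))).map e) (by
      rintro (i | i) (j | j) hij
      · simpa [e1] using a1 i j (by simpa using hij)
      all_goals simp [e1] at hij ⊢) (by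
      rintro (i | i)
      · simpa [e2, dq_single] using hν
      · simpa [e2] using (by tauto : ¬ IsSquare ((Ψ.restrict A).Q t)))
  obtain ⟨μ, b5⟩ := b4 (.inr ())
  generalize hw : (((Pi.basisFun E _).prod (FiniteDimensional.basisSingleton Unit a8 t
    fun e => ht (by simp [e]))).map e) (.inr ()) = w at b5
  obtain ⟨k, b6⟩ := h.exists_Q h3 (w := w) (by simpa [← hw, e2] using ht)
  have b7 : k ≠ 0 := fun e => b6 (by simp [e])
  exact h.eo_of hF h2 hd (y := b1.toO h.f.nd) (isConj_iff_iso.2 (iso_sq_neg h2 h.f (pres_O g) b1 h1 b3))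
    ⟨_, b2⟩ b6 (h.semi_refl hF h2 b2 (LinearMap.congr_fun b3) (μ := conj hF k * μ / k) b6 (by
      refine (b2 k w).trans ?_
      rw [b5, smul_smul, smul_smul, div_mul_cancel₀ _ b7]))

theorem LQ.el_two (hd : 2 ≤ finrank E V) : El Φ 2 (EO E Φ) :=
  (H14.Wall.el_two h.f (by rw [h.rank hF]; omega) h2).2
    ⟨fun _ => h.eo_inv hF h2 hd, fun _ _ => h.eo_j hF h2 hd⟩

end H16.OX
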