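import Cfsg.Agent.H16.OX2

/-! Elements of prime order of `PΩ` and quadratic field extension subgroups of orthogonal type. -/

set_option autoImplicit false
set_option linter.unusedSectionVars false

namespace H16.OX

open Module Polynomial H23 H23.Form H14.Wall Matrix Cfsg.Geo

theorem relIndex_mul_dvd {G : Type*} [Group G] (H C : Subgroup G) [C.Normal] :
    H.relIndex C * Nat.card H ∣ Nat.card G := by
  obtain ⟨m, hm⟩ := Subgroup.relIndex_dvd_index_of_normal C H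
  exact ⟨m, by rw [← C.index_mul_card, hm, ← relIndex_mul_card C H, ← relIndex_mul_card H C, inf_comm]; ring⟩

theorem prod_eq_qf (q m : ℕ) : ∏ i ∈ Finset.range m, (q ^ (2 * (i + 1)) - 1) = qf (q ^ 2) m := by
  simp [qf, pow_mul]

variable {F E V : Type*} [Field F] [Field E] [Algebra F E] [AddCommGroup V] [Module F V]
  [Module E V] [IsScalarTower F E V] [Fintype F] [Fintype E] [FiniteDimensional F V]
  [FiniteDimensional E V] {Φ : Form (RingHom.id F) V} {Ψ : Form (RingHom.id E) V}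
  {g : End F V} {n r : ℕ}

theorem card_even (h : QS Φ) (hn : finrank F V = 2 * (n + 1)) : ∃ u, Nat.card Φ.O =
    2 * Fintype.card F ^ ((n + 1) * n) * u * qf (Fintype.card F ^ 2) n ∧
      (Pl Φ ∧ u = Fintype.card F ^ (n + 1) - 1 ∨ ¬ Pl Φ ∧ u = Fintype.card F ^ (n + 1) + 1) := by
  rw [H14.Wall.pl_iff hn, ← prod_eq_qf]
  by_cases e : IsPlus Φ (n + 1)
  exacts [⟨_, e.card_O, .inl ⟨e, rfl⟩⟩, ⟨_, card_O_minus h.nd h.k hn e, .inr ⟨e, rfl⟩⟩]

variable (hF : Fintype.card E = Fintype.card F ^ 2) (h2 : (2 : F) ≠ 0) (h : LQ Φ Ψ)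
include h

theorem LQ.card_dvd : Nat.card Ψ.O ∣ Nat.card (SN E Φ) :=
  Subgroup.card_dvd_of_injective ((resO Ψ Φ fun g => ⟨(h.pres (pres_O g)).B, (h.pres (pres_O g)).Q⟩).codRestrict
    (SN E Φ) fun g => ⟨_, semi_res g.1.toLinearMap⟩) fun _ _ e =>
      resO_injective _ _ _ (congrArg Subtype.val e)

include hF h2

theorem LQ.exists_odd (hd : 2 ≤ finrank E V) (hr : r.Prime) (hr2 : r ≠ 2) (hr0 : (r : F) ≠ 0)
    (H : r * Nat.card Ψ.O ∣ Nat.card Φ.O) : ∃ j, Odd j ∧ r ∣ Fintype.card E ^ j - 1 := by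
  have hq := Fintype.one_lt_card (α := F)
  have a0 : ∀ k X, r ∣ 2 * Fintype.card F ^ k * X → r ∣ X := fun k X e =>
    (((Nat.coprime_primes hr Nat.prime_two).2 hr2).mul_right
      ((coprime_card_of_cast hr hr0).pow_right k)).dvd_of_dvd_mul_left e
  have a1 : ∀ m, r ∣ ∏ j ∈ Finset.range m with ¬ 2 ∣ j + 1, ((Fintype.card F ^ 2) ^ (j + 1) - 1) →
      ∃ j, Odd j ∧ r ∣ Fintype.card E ^ j - 1 := fun m e => by
    obtain ⟨j, h4, h5⟩ := (Prime.dvd_finsetProd_iff hr.prime _).1 e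
    exact ⟨j + 1, Nat.odd_iff.2 (by have := (Finset.mem_filter.1 h4).2; omega), hF ▸ h5⟩
  have a2 : ∀ m, 0 < qf ((Fintype.card F ^ 2) ^ 2) m := fun m =>
    qf_pos (Nat.one_lt_pow two_ne_zero (Nat.one_lt_pow two_ne_zero hq)) _
  have a3 := h.rank hF
  obtain ⟨m, hm | hm⟩ := (finrank E V - 1).even_or_odd'
  · obtain ⟨u, a4, a5⟩ := card_even h.f (n := 2 * m) (by omega)
    obtain ⟨Q, rfl⟩ := H22.exists_eq_ofQuad Ψ h.e.k
    rw [(H22.nsing_card_O_quad_odd m Q h.e.nd (by omega)).2, prod_eq_qf, a4, qf_mul _ _ _ two_ne_zero,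
      hF] at H
    have a6 := (mul_dvd_mul_left r (dvd_mul_left _ _)).trans H
    rw [mul_comm (qf _ _), ← mul_assoc, Nat.mul_dvd_mul_iff_right (a2 m), mul_assoc] at a6
    refine ((Nat.Prime.dvd_mul hr).1 (a0 _ _ a6)).elim (fun e => ⟨2 * m + 1, by simp, ?_⟩) (a1 _)
    rw [hF, ← pow_mul, mul_comm, pow_mul]
    exact dvd_sq_sub_one (by rcases a5 with ⟨-, rfl⟩ | ⟨-, rfl⟩ <;> tauto)
  · obtain ⟨u, a4, a5⟩ := card_even h.f (n := 2 * m + 1) (by omega)
    obtain ⟨v, a6, a7⟩ := card_even h.e (n := m) (by omega)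
    have a8 := h.pl_even hF h2 (n := m) (by omega)
    obtain rfl : u = v := by
      rw [hF, ← pow_mul] at a7
      rcases a5 with ⟨b1, rfl⟩ | ⟨b1, rfl⟩ <;> rcases a7 with ⟨b2, rfl⟩ | ⟨b2, rfl⟩ <;> tauto
    have a9 : 0 < u := by
      have := Nat.one_lt_pow (n := 2 * m + 1 + 1) (by simp) hq
      omega
    rw [a4, a6, show qf _ (2 * m + 1) = qf _ (2 * m) * _ from Finset.prod_range_succ _ _, qf_mul _ _ _ two_ne_zero, hF, mul_assoc _ u] at H
    have b1 := (mul_dvd_mul_left r (dvd_mul_left _ _)).trans H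
    rw [mul_assoc (qf _ _), mul_assoc _ u, ← mul_assoc u, mul_comm (u * _), ← mul_assoc (2 * _),
      Nat.mul_dvd_mul_iff_right (Nat.mul_pos a9 (a2 m))] at b1
    exact ((Nat.Prime.dvd_mul hr).1 (a0 _ _ b1)).elim (a1 _) fun e => ⟨2 * m + 1, by simp, hF ▸ e⟩

theorem LQ.of_eo [Nontrivial V] (hr : Odd r) (hg : Pres Φ g) (h1 : g ^ r = 1) (H : EO E Φ g) :
    ∃ y : End E V, Pres Ψ y ∧ y ^ r = 1 ∧ ∀ p, kd g p = 2 * kd y (p.map (algebraMap F E)) := by
  obtain ⟨c, -, y, α, h3, h4⟩ := H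
  have h5 : ed y = ed g := Sim.ed_eq ⟨c.1, h4⟩
  have h6 := pow_of_ed_eq h5 (h1.trans (one_smul F _).symm)
  obtain rfl := h3.eq_id one_ne_zero hr.pos.ne' h6 (by simpa [rank_two hF] using hr)
  obtain ⟨y, rfl⟩ := h3.exists_res
  exact ⟨y, h.pres_of (cast_ext_ne (r := 2) h2) (pres_of_B h.f h2 fun u v => by
    rw [← c.2.1, h4, h4, hg.B, c.2.1]), LinearMap.ext fun v => by
      simpa [res_pow] using LinearMap.congr_fun h6 v, fun p => by
    rw [← kd_congr h5, kd_res, rank_two hF]⟩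

theorem LQ.el_iff (p : ℕ) [hp : Fact p.Prime] [CharP F p] (hd : 3 ≤ finrank E V) (hr : r.Prime)
    (hΩ : r ∣ (SN E Φ).relIndex (commutator Φ.O)) : El Φ r (EO E Φ) ↔ r = 2 := by
  refine ⟨fun H => by_contra fun hr2 => ?_, fun e => e ▸ h.el_two hF h2 (by omega)⟩
  have a1 := h.rank hF
  have : Nontrivial V := Module.nontrivial_of_finrank_pos (R := E) (by omega)
  have a2 := hr.odd_of_ne_two hr2
  rw [el_odd (R := EO E Φ) h.f (by omega) a2 fun y => ⟨fun e => by simpa using e.neg, EO.neg⟩] at H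
  have key := fun g (hg : Pres Φ g) (h1 : g ^ r = 1) => h.of_eo hF h2 a2 hg h1
    ((eq_or_ne g 1).elim (fun e => e ▸ eo_one) (H g hg h1))
  by_cases hrp : r = p
  · subst hrp
    obtain ⟨g, a3, a4⟩ := h.f.real_uni h2 (μ := m3 (finrank F V - 3) 1 0) (ok_m3.2 (by simp))
      (by rw [m3_sum]; omega) (by simp [m3_even])
    obtain ⟨y, -, -, a5⟩ := key g a3 (pow_of_uni r a4 fun e he => by
      have := hr.two_le
      have := Nat.odd_iff.1 a2
      rw [mem_m3] at he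
      omega)
    have := a5 ((X - C 1) ^ 2)
    simp only [kd_eq_sum g, a4, uni, m3, Multiset.map_add, Multiset.map_replicate, gd_pow_pow,
      Multiset.sum_add, Multiset.sum_replicate, natDegree_X_sub_C, smul_eq_mul,
      show min 2 1 = 1 from rfl, show min 2 3 = 2 from rfl] at this
    omega
  have hr0 : (r : F) ≠ 0 := cast_ne_zero_of_ne p hr hrp
  have a3 := (mul_dvd_mul hΩ h.card_dvd).trans (relIndex_mul_dvd _ _)
  obtain ⟨j, a4, a5⟩ := h.exists_odd hF h2 (by omega) hr hr2 hr0 a3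
  have o1 : OP F r _ := ⟨hr, hr2, hr0, rfl⟩
  have o2 : OP E r _ := ⟨hr, hr2, cast_ext_ne hr0, rfl⟩
  have a6 := Odd.of_dvd_nat a4 ((orderOf_zmod_dvd_iff Fintype.card_pos _).2 a5)
  have a7 : orderOf (Fintype.card E : ZMod r) = orderOf (Fintype.card F : ZMod r) /
      (orderOf (Fintype.card F : ZMod r)).gcd 2 := by rw [hF, Nat.cast_pow, orderOf_pow' _ two_ne_zero]
  have a8 := o2.pos
  generalize orderOf (Fintype.card E : ZMod r) = k at *
  generalize orderOf (Fintype.card F : ZMod r) = i at *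
  have := Fact.mk hr
  have : Finite V := Module.finite_of_finite F
  have : Finite (V ≃ₗ[F] V) := DFunLike.finite _
  obtain ⟨x, hx⟩ := exists_prime_orderOf_dvd_card' r ((dvd_mul_right _ _).trans a3)
  obtain ⟨s, l, b1, b2⟩ := o1.exists_tr h.f.nd (pres_O x) (O_pow_eq_one.1 (hx ▸ pow_orderOf_eq_one x))
  have b3 := (o1.ad_iff h.f).1 (o1.ad h.f (pres_O x) b1 b2)
  have b4 : s.card ≠ 0 := fun e => hr.ne_one (by
    rw [← hx, O_eq_one.2 ((o1.one_iff b1.1 b2).2 e), orderOf_one])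
  obtain ⟨t, b5, b6⟩ := o1.exists_ts (u := 1 + i % 2) (by simp +contextual [Nat.odd_iff])
  obtain ⟨g, c, b7, b8⟩ := o1.real h.f b5 ((o1.ad_iff h.f).2 ⟨o1.even b5, by
    simp only [Nat.odd_iff, Nat.even_iff] at b3; omega⟩)
  obtain ⟨y, c1, c2, c3⟩ := key g b7 (pow_of_tr b5.1 b8)
  obtain ⟨s', l', c4, c5⟩ := o2.exists_tr h.e.nd c1 c2
  obtain ⟨w, c6⟩ := o2.even c4 a6
  have c7 := o1.deg b5.1 c
  have c8 := o2.deg c4.1 l'
  have c9 := c3 (X - C 1)
  rw [← b8, sum_natDegree_ed, b6] at c7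
  rw [← c5, sum_natDegree_ed, c6] at c8
  rw [kd_Tr hr b5.1 b8, Polynomial.map_sub, map_X, map_C, map_one, kd_Tr hr c4.1 c5] at c9
  have d1 : (1 + i % 2) * i = 2 * k := by
    rcases Nat.even_or_odd' i with ⟨z, rfl | rfl⟩ <;> simp [a7]
  rcases w with _ | w
  · omega
  · nlinarith

end H16.OX

namespace H16.OX

open Module Polynomial H23 H23.Form H14.Wall Matrix Cfsg.Geo

variable {ι : Type} [Fintype ι] [DecidableEq ι] {F : Type*} [Field F] [Fintype F]

theorem main (p : ℕ) [Fact p.Prime] [CharP F p] (hodd : Odd (Fintype.card F))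
    {Q : QuadraticForm F (ι → F)} (hΦ : QS (ofQuad Q)) (hd : 6 ≤ finrank F (ι → F))
    {K : Subalgebra F (Matrix ι ι F)} (hK : IsFieldSubalgebra 2 K)
    (hKf : IsSelfAdjointFor (QuadraticMap.polar Q) K) {r : ℕ} (hr : r.Prime)
    (hΩ : r ∣ (subalgebraNormalizer K).relIndex (omegaGL Q)) :
    (∀ x ∈ omegaGL Q, (∃ z : F, (x ^ r).1 = z • (1 : Matrix ι ι F)) →
      (∀ z : F, x.1 ≠ z • (1 : Matrix ι ι F)) →
      ∃ g ∈ omegaGL Q, g⁻¹ * x * g ∈ subalgebraNormalizer K) ↔ r = 2 := by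
  have : Nonempty ι := Fintype.card_pos_iff.1 (by simp at hd; omega)
  let := (As.IsFieldSubalgebra.isField hK).toField
  have : Finite K := Subtype.finite
  have := Fintype.ofFinite K
  have := Module.Finite.of_restrictScalars_finite F K (ι → F)
  have hF : Fintype.card K = Fintype.card F ^ 2 := hK.finrank_eq ▸ Module.card_eq_pow_finrank
  have h2 : (2 : F) ≠ 0 := cast_ne_zero_of_coprime (r := 2) (by simpa using hodd)
  obtain ⟨Ψ, h3, h4⟩ := AdjE.exists_lift_quad (E := K) (Φ := ofQuad Q)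
    ⟨hΦ.nd, inferInstance, fun k u v => hKf k k.2 u v⟩ rfl (cast_ext_ne (r := 2) h2)
  have h := LQ.of h2 hΦ ⟨h3.nondeg, h4⟩ h3.B_eq
  let f : (ofQuad Q).O →* GL ι F :=
    (Cfsg.isometryGroup F Q).subtype.comp (H22.isomEquiv Q).symm.toMonoidHom
  have f1 : ∀ g, toLin' (f g).1 = g.1.toLinearMap := fun g =>
    LinearMap.ext (H22.isomEquiv_symm_mulVec Q g)
  have f2 : omegaGL Q = (commutator _).map f := Subgroup.ext fun x =>
    ⟨fun ⟨g, a, b⟩ => ⟨_, H22.mem_Omega_iff.1 a, by simpa [f] using b⟩,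
      fun ⟨g, a, b⟩ => ⟨_, H22.mem_Omega_iff.2 (by simpa using a), b⟩⟩
  have f3 : ∀ g, f g ∈ subalgebraNormalizer K ↔ g ∈ SN K (ofQuad Q) := fun g => by
    rw [mem_norm_iff hK, f1]; rfl
  rw [f2, ← Subgroup.relIndex_comap, show (subalgebraNormalizer K).comap f = _ from
    Subgroup.ext f3] at hΩ
  rw [← h.el_iff hF h2 p (by have := h.rank hF; omega) hr hΩ, f2]
  simp only [Subgroup.mem_map, forall_exists_index, and_imp, forall_apply_eq_imp_iff₂,
    ← toLin'_eq_smul_iff, Units.val_pow_eq_pow_val, toLin'_pow, f1, Ne, exists_exists_and_eq_and,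
    ← map_inv, ← _root_.map_mul, f3, El]
  refine forall_congr' fun g => forall_congr' fun _ => forall_congr' fun _ => forall_congr' fun _ =>
    forall_congr' fun _ => exists_congr fun c => and_congr_right fun _ =>
      ⟨fun ⟨α, H⟩ => ⟨_, α, H, fun v => by simp⟩, fun ⟨y, α, H, H'⟩ => ⟨α, ?_⟩⟩
  convert H
  exact LinearMap.ext fun v => c.1.injective (by simp [H'])

end H16.OX
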