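import Cfsg.Agent.H16.PF12a
import Cfsg.Agent.H16.QNil
import Cfsg.Agent.H18.PF6b
import Cfsg.Agent.H2.BG23
import Cfsg.Agent.H9.Ctrl

/-! Peterfalvi (12.8)-(12.12): the local structure of a counterexample to (12.7). -/

set_option autoImplicit false
set_option linter.style.haveILetI false
set_option linter.unusedSectionVars false

namespace FT

open Subgroup hiding one
open _root_.Cfsg H1 H15 H16 _root_.FT H17 CF H18 H21
open scoped commutatorElement Pointwise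

variable {G : Type*} [Group G] [Finite G] {p q : ℕ} {E K L M N P T U U0 : Subgroup G} {g x : G}

theorem dvd_exp_of_dvd_card (hq : q.Prime) (h : q ∣ Nat.card U) : q ∣ Monoid.exponent U := by
  obtain ⟨a, ha, e⟩ := exists_orderOf hq h
  exact e ▸ (orderOf_mk a ha) ▸ Monoid.order_dvd_exponent (⟨a, ha⟩ : U)

theorem FCompl.dvd (h : FCompl M U U0) (hq : q.Prime) (hd : q ∣ Nat.card U) : q ∣ Nat.card U0 :=
  (h.exp ▸ dvd_exp_of_dvd_card hq hd).trans Group.exponent_dvd_nat_card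

theorem ncard_sharp' (H : Subgroup G) : ((H : Set G) \ {1}).ncard = Nat.card H - 1 := by
  rw [Set.ncard_sdiff_singleton_of_mem H.one_mem]; rfl

theorem E2.card_points (hT : E2 p T) (hp : p.Prime) :
    (fs {X : Subgroup G | X ≤ T ∧ Nat.card X = p}).card = p + 1 := by
  classical
  have h1 := Finset.card_eq_sum_card_fiberwise (f := fun t : G => zpowers t)
    (s := fs ((T : Set G) \ {1})) (t := fs {X : Subgroup G | X ≤ T ∧ Nat.card X = p}) fun t ht => by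
      have ht' := mem_fs.1 (Finset.mem_coe.1 ht)
      exact Finset.mem_coe.2 (mem_fs.2 ⟨zpowers_le.2 ht'.1,
        card_zpowers_of_pow hp (hT.1.2 t ht'.1) ht'.2⟩)
  rw [Finset.sum_congr rfl (g := fun _ => p - 1) fun X hX => ?_, card_fs, ncard_sharp', hT.2,
    Finset.sum_const, smul_eq_mul] at h1
  · refine Nat.eq_of_mul_eq_mul_right (m := p - 1) (by have := hp.two_le; omega) ?_
    rw [← h1, ← Nat.sq_sub_sq, one_pow]
  obtain ⟨h2, h3⟩ := mem_fs.1 hX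
  rw [← h3, ← ncard_sharp', ← card_fs]
  congr 1
  ext t
  simp only [Finset.mem_filter, mem_fs]
  exact ⟨fun h => ⟨h.2 ▸ mem_zpowers t, h.1.2⟩,
    fun h => ⟨⟨h2 h.1, h.2⟩, zpowers_eq_of_prime (h3 ▸ hp) h.1 h.2⟩⟩

theorem E2.two_mul_le (hT : E2 p T) (hp : p.Prime) (h2 : p ≠ 2) (hn : E ≤ N[T]) (hr : SReg T E)
    (ho : Odd (Nat.card E)) (hx : x ∈ T) (h : E ⊓ N[zpowers x] = ⊥) : 2 * Nat.card E ≤ p + 1 := by
  haveI := Fact.mk hp
  have hop := hp.odd_of_ne_two h2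
  by_cases h1 : ∃ a ∈ E, a ≠ 1 ∧ ∃ u ∈ T, u ≠ 1 ∧ a ∈ N[zpowers u]
  · obtain ⟨a, ha, a1, u, hu, u1, h1⟩ := h1
    obtain ⟨k, hk⟩ := mem_zpowers_iff.1 (H16.conj_mem h1 (mem_zpowers u))
    have c1 : ∀ s ∈ T, ∀ t ∈ T, Commute s t := fun s hs t ht => H16.mem_cent.1 (hT.le_cent ht) s hs
    have c2 : IsMulCommutative E := der_eq_bot.1 (eq_bot_of_le (hr.symm.cent le_rfl (hT.ne_bot hp))
      (le_inf (der_le E) (H2.bg2_6_abelian hT.1 hT.2.le hn
        (ho.of_dvd_nat (relIndex_dvd_card _ _))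
        (((sreg_coprime hn hr).coprime_dvd_left hT.dvd).symm.coprime_dvd_left
          (relIndex_dvd_card _ _)))))
    let X : Subgroup G :=
      { carrier := {t | t ∈ T ∧ a * t * a⁻¹ = t ^ k}
        mul_mem' := fun {s t} hs ht => ⟨mul_mem hs.1 ht.1, by
          rw [(c1 s hs.1 t ht.1).mul_zpow, ← hs.2, ← ht.2]; group⟩
        one_mem' := ⟨one_mem _, by simp⟩
        inv_mem' := fun {s} hs => ⟨inv_mem hs.1, by rw [inv_zpow, ← hs.2]; group⟩ }
    have c3 : X ≤ T := fun _ h => h.1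
    have c4 : X ≠ ⊥ := ne_bot_of_mem (x := u) ⟨hu, hk.symm⟩ u1
    have c5 : X ≠ T := fun e => a1 (eq_one_of_mem_bot h ⟨ha, H16.mem_norm_of_cj_le (by
      rw [← zpowers_cj, (show x ∈ X from e ▸ hx).2]
      exact zpowers_le.2 (zpow_mem (mem_zpowers x) k))⟩)
    have c6 := hT.card_of_lt hp (lt_of_le_of_ne c3 c5) c4
    have c7 : E ≤ N[X] := le_norm_iff.2 fun b hb t ht => ⟨H16.conj_mem (hn hb) ht.1, by
      have e := H16.mem_cent.1 (comm_iff.1 c2 ha) b hb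
      rw [conj_zpow, ← ht.2]
      calc _ = a * b * t * (a * b)⁻¹ := by group
        _ = _ := by rw [← e]; group⟩
    have := sreg_odd_le c7 (hr.of_le c3 le_rfl) c4 (c6 ▸ hop) ho
    omega
  obtain ⟨b, -, e⟩ := sum_free_action E (fun g (X : Subgroup G) => X :^ g) H16.cj_one
    (fun g h X => (H16.cj_cj X h g).symm) ⊤ (fun _ => (1 : ℕ)) (fun _ _ => rfl)
    (fs {X : Subgroup G | X ≤ T ∧ Nat.card X = p})
    (fun g hg X hX => mem_fs.2 ⟨cj_le_of_norm (hn hg) (mem_fs.1 hX).1,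
      (H16.card_cj X g).trans (mem_fs.1 hX).2⟩) (fun _ _ => trivial) fun g hg X hX e => by
      obtain ⟨a1, a2⟩ := mem_fs.1 hX
      obtain ⟨u, hu, u1⟩ := exists_ne_one (ne_bot_of_card hp a2)
      by_contra g1
      exact h1 ⟨g, hg, g1, u, a1 hu, u1, by
        rwa [zpowers_eq_of_prime (a2 ▸ hp) hu u1, ← cj_eq_self_iff]⟩
  rw [Finset.sum_const, smul_eq_mul, mul_one, E2.card_points hT hp, smul_eq_mul] at e
  have h3 : b ≠ 0 := fun e' => by simp [e'] at e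
  have h4 : b ≠ 1 := fun e' => by
    rw [e', mul_one] at e
    exact Nat.not_even_iff_odd.2 ho (e ▸ hop.add_one)
  rw [e, mul_comm]
  exact Nat.mul_le_mul_left _ (by omega)

/-- Peterfalvi (12.8), (12.9). -/
structure Cex (p : ℕ) (M P L : Subgroup G) (x : G) : Prop where
  prime : p.Prime
  min : ∀ q, q.Prime → q < p → ∀ N Q : Subgroup G, IsCoatom N → ftType N = 1 → Q ≤ N → Pg[q] Q →
    ¬ q ∣ Nat.card MF[N] → IsCyclic Q
  maxM : IsCoatom M
  oneM : ftType M = 1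
  sy : Sy[p] P M
  ndvd : ¬ p ∣ Nat.card MF[M]
  ncyc : ¬ IsCyclic P
  comm : IsMulCommutative P
  prk : PRankLE p 2 P
  maxL : IsCoatom L
  leL : P ≤ MS[L]
  mem : x ∈ P
  pow : x ^ p = 1
  ne : x ≠ 1
  ncent : ¬ MF[M] ⊓ C1[x] ≤ ⁅MF[M], MF[M]⁆
  um : UM C1[x] M

/-- The results of sections 10 and 11 that are used in section 12. -/
def PF11For12 (G : Type*) [Group G] : Prop :=
  ∀ L U W W1 W2 : Subgroup G, TypeP L U W W1 W2 → IsCoatom L → ftType L ≠ 2 →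
    ftType L ≠ 5 ∧ IsCyclic U

variable [hB : BGF G]

/-- Peterfalvi (12.9). -/
theorem exists_cex (hp : p.Prime) (hmin : ∀ q, q.Prime → q < p → ∀ N Q : Subgroup G, IsCoatom N →
      ftType N = 1 → Q ≤ N → Pg[q] Q → ¬ q ∣ Nat.card MF[N] → IsCyclic Q)
    (hM : IsCoatom M) (h1 : ftType M = 1) (hP : P ≤ M) (h2 : Pg[p] P) (h3 : ¬ p ∣ Nat.card MF[M])
    (h4 : ¬ IsCyclic P) : ∃ (P L : Subgroup G) (x : G), Cex p M P L x := by
  haveI := Fact.mk hp
  obtain ⟨S, hS, h5⟩ := sy_exists_ge hP h2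
  have h6 : ¬ IsCyclic S := fun e => h4 (cyclic_of_le e h5)
  have h7 := (hl_pi hS).coprime (isPi_compl_of_not_dvd h3)
  obtain ⟨U, h8, hU⟩ := exists_compl_ge hM ((ftDer_one h1).symm ▸ hS.1) h7
  obtain ⟨c1, c2⟩ := compl_sy hM (by omega) hU hp h8 (hl_pi hS)
  obtain ⟨L, hL, c3⟩ := exists_le_core hp (hl_pi hS) fun e => h6 (e ▸ cyclic_bot)
  obtain ⟨A, hA, c4⟩ := mFT_exists_E2 hp (hl_pi hS) h6
  have c5 := mt (cop_gen_cent1 (H := ⁅MF[M], MF[M]⁆) c4.comm (c4.not_cyclic hp)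
    (norm_Fcore (hA.trans hS.1)) (h7.coprime_dvd_left (card_dvd hA)))
    (not_le_der_of_sol (Fcore_sol M) (Fcore_ne_bot hM))
  push Not at c5
  obtain ⟨x, hx, x1, c5⟩ := c5
  exact ⟨S, L, x, hp, hmin, hM, h1, hS, h3, h6, c1, c2, hL, c3, hA hx, c4.1.2 x hx, x1, c5,
    compl_um1 hM (by omega) hU (h8 (hA hx)) x1 fun e => c5 (e ▸ bot_le)⟩

namespace Cex

omit hB

theorem pg (h : Cex p M P L x) : Pg[p] P := hl_pi h.sy
theorem dvd (h : Cex p M P L x) : p ∣ Nat.card P :=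
  h.pg.dvd_of_ne_bot (ne_bot_of_mem h.mem h.ne)
theorem order (h : Cex p M P L x) : orderOf x = p := orderOf_of_pow h.prime h.pow h.ne
theorem memM (h : Cex p M P L x) : x ∈ M := h.sy.1 h.mem
theorem nmemK (h : Cex p M P L x) : x ∉ MF[M] := fun e => h.ndvd (h.order ▸ orderOf_dvd_card e)
theorem ncj (h : Cex p M P L x) : NCj L M := fun g e => h.ndvd (by
  rw [← core_one h.oneM, ← H16.card_cj _ g, ← typeCore_cj, ← e]
  exact h.dvd.trans (card_dvd h.leL))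
theorem not_le (h : Cex p M P L x) : ¬ C1[x] ≤ L := fun e => h.ncj.ne (h.um.eq _ h.maxL e)
theorem memA1 (h : Cex p M P L x) : x ∈ typeA1 L := ⟨h.leL h.mem, h.ne⟩
theorem not_frob (h : Cex p M P L x) [BGF G] : ¬ FrobK M MF[M] := fun hF => by
  haveI := Fact.mk h.prime
  exact h.ncyc (sreg_cyclic (norm_Fcore h.sy.1) (hF.sreg_of_inf h.sy.1
    ((isPi_compl_of_not_dvd h.ndvd).inf_eq_bot' h.pg)) hF.neK (odd_of P) h.pg.nilpotent)

include hB

theorem ne_two (h : Cex p M P L x) : p ≠ 2 := mFT_ne_two h.dvd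
theorem norm_le (h : Cex p M P L x) : N[zpowers x] ≤ M :=
  h.um.le_of_ne_top (H16.cent_zpowers x ▸ H16.cent_le_norm _) (mFT_norm_proper (zpowers_ne_bot' h.ne)
    (mFT_comm_proper (H16.comm_of_cyclic (cyclic_zpowers x))))
theorem supp (h : Cex p M P L x) : SuppFacts L x M :=
  suppFacts h.maxL (A1_subset0 L h.memA1) h.not_le h.maxM h.um.le

theorem oneL (h : Cex p M P L x) (h11 : PF11For12 G) : ftType L = 1 := by
  haveI := Fact.mk h.prime
  by_contra h1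
  obtain ⟨U, W, W1, W2, hL⟩ := exists_typeP h1
  obtain ⟨h2, h3⟩ := h11 L U W W1 W2 hL h.maxL
    fun e => h.not_le (cent1_le_two h.maxL e (A1_subset0 L h.memA1))
  have h4 := h.leL.trans hL.core_le
  have h5 : p ∣ Nat.card MF[L] := by
    by_contra h5
    obtain ⟨g, -, h6⟩ := hL.defM'.conj_le (norm_Fcore (der_le L)) h4 hL.coprimeFU
      ((isPi_compl_of_not_dvd h5).coprime' h.pg) (Or.inl (Fcore_sol L))
    exact h.ncyc ((cyclic_cj g).1 (cyclic_of_le h3 h6))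
  exact h.not_le (norm_fitting_eq h.maxL ▸ ti_cent1 (hL.type24 h2).ti (Fcore_le_fitting L
    (le_Fcore_of_pi (h4.trans (der_le L)) (h.pg.mono_mem h5) h.mem)) h.ne)

theorem leH (h : Cex p M P L x) (h11 : PF11For12 G) : P ≤ MF[L] := core_one (h.oneL h11) ▸ h.leL

/-- Peterfalvi (12.10). -/
theorem frob (h : Cex p M P L x) (h11 : PF11For12 G) : FrobK L MF[L] := by
  haveI := Fact.mk h.prime
  have h1 := h.oneL h11
  have h2 := h.leH h11
  obtain ⟨U, hU⟩ := exists_typeI h.maxL h1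
  refine ((hU.toTypeF.frob_iff (odd_of U)).2 (zgroup_iff.2 fun q hq Q hQ hQq => ?_)).frobK
  by_cases h3 : Q = ⊥
  · exact h3 ▸ cyclic_bot
  have h4 : q ∣ Nat.card U := (hQq.dvd_of_ne_bot h3).trans (card_dvd hQ)
  refine h.min q hq ?_ L Q h.maxL h1 (hQ.trans hU.compl.le2) hQq fun e => hq.one_lt.ne'
    (Nat.eq_one_of_dvd_coprimes (Fcore_compl_coprime hU.compl le_rfl) e h4)
  obtain h5 | ⟨h5, h6, -⟩ | ⟨h5, -⟩ := hU.cases
  · exact absurd (norm_Fcore_eq h.maxL ▸ ti_cent1 h5 (h2 h.mem) h.ne) h.not_le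
  · obtain ⟨U0, h0⟩ := hU.fcompl
    obtain ⟨A, hA, c1⟩ := mFT_exists_E2 h.prime h.pg h.ncyc
    have c2 : A = Om[p] MF[L] := eq_of_le_of_card (le_om c1.1 (hA.trans h2))
      (c1.2 ▸ prk_iff.1 (h6 p h.prime) _ (om_le _ _) (ea_om h5))
    have c3 := sreg_dvd (K := A) (c2 ▸ norm_om (norm_Fcore (h0.le.trans hU.compl.le2)))
      (h0.reg.of_le (hA.trans h2) le_rfl)
    exact H9.lt_of_dvd_sq_sub_one h.ne_two hq (c1.2 ▸ (h0.dvd hq h4).trans c3)
  · have := Nat.le_of_dvd (by have := h.prime.two_le; omega)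
      ((dvd_exp_of_dvd_card hq h4).trans (h5 p h.prime (h.dvd.trans (card_dvd h2))))
    have := h.prime.two_le
    omega

/-- Peterfalvi (12.11). -/
theorem inf_le (h : Cex p M P L x) (h11 : PF11For12 G) : L ⊓ M ≤ MF[L] := by
  haveI := Fact.mk h.prime
  have hF := h.frob h11
  have h2 := h.leH h11
  refine le_Fcore_of_pi inf_le_left fun q hq hd => by_contra fun h3 => ?_
  obtain ⟨U0, h0⟩ := (typeI_of_compl h.maxM h.oneM h.supp.compl).fcompl
  obtain ⟨z, hz, oz⟩ := exists_orderOf hq (h0.dvd hq hd)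
  have c1 : U0 ≤ L := h0.le.trans inf_le_left
  have c2 : U0 ≤ N[MF[M]] := norm_Fcore (h0.le.trans inf_le_right)
  have c3 : L ≤ N[Op[{p}] MF[L]] := le_norm_piCoreOf _ (Fcore_norm L)
  have c4 := hl_inf_normal (Fcore_pcore_sy' h.prime (h.dvd.trans (card_dvd h2))) c1 c3
  have c5 := dvd_hl c4 h.prime rfl (h0.dvd h.prime
    (h.dvd.trans (card_dvd (le_inf (h2.trans (Fcore_le L)) h.sy.1))))
  set X := Om[p] (Op[{p}] MF[L] ⊓ U0)
  have c6 : X ≤ Op[{p}] MF[L] ⊓ U0 := om_le _ _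
  have c7 : X ≤ U0 := c6.trans inf_le_right
  have c8 : zpowers z ≤ U0 := zpowers_le.2 hz
  have c9 : SReg MF[L] (zpowers z) := hF.sreg_of_inf (c8.trans c1) (inf_bot_of_coprime
    (by rw [H16.card_zpowers, oz]; exact (hq.coprime_iff_not_dvd.2 h3).symm))
  have d1 : zpowers z ≠ ⊥ := ne_bot_of_card hq (by rw [H16.card_zpowers, oz])
  have d2 := H2.wielandt_frobenius (K := X) (R := zpowers z) (M := MF[M])
    (sub_sol h.maxL (c7.trans c1)) (c8.trans (norm_om (norm_inf (c1.trans c3) (le_norm _))))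
    (c9.of_le (c6.trans (inf_le_left.trans (piCoreOf_le _ _))) le_rfl) (Fcore_sol M) (c7.trans c2)
    (c8.trans c2) ((sreg_coprime c2 h0.reg).coprime_dvd_right (card_dvd c7))
    ((sreg_coprime c2 h0.reg).coprime_dvd_right (card_dvd c8))
  rw [h0.reg.cent c8 d1, h0.reg.cent c7 (om_ne_bot h.prime c5), card_bot, one_pow, one_mul] at d2
  exact Fcore_ne_bot h.maxM (card_eq_one.1 (Nat.eq_one_of_mul_eq_one_left d2))

/-- Peterfalvi (12.12). -/
theorem two_mul_le (h : Cex p M P L x) (h11 : PF11For12 G) : 2 * MF[L].relIndex L ≤ p + 1 := by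
  haveI := Fact.mk h.prime
  obtain ⟨E, hF⟩ := h.frob h11
  have h2 := h.leH h11
  set S := Op[{p}] MF[L]
  have c1 : P ≤ S := le_piCoreOf_of_nilpotent (Fcore_nil L) h2 h.pg
  have c2 : Pg[p] S := isPi_piCoreOf _ _
  have c3 : S ⊓ M = P := hl_max h.sy inf_le_right c2.inf_left (le_inf c1 h.sy.1)
  have c4 : E ≤ N[S] := le_norm_piCoreOf _ hF.normH
  set T := Om[p] (S ⊓ C[S])
  have c5 : T ≤ S ⊓ C[S] := om_le _ _
  have c6 : T ≤ P := c3 ▸ le_inf (c5.trans inf_le_left)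
    (c5.trans (inf_le_right.trans ((H16.cent_le_cent1 (c1 h.mem)).trans h.um.le)))
  have c7 : EA[p] T := ea_om (comm_center S)
  have c8 : T ≠ ⊥ := om_ne_bot h.prime (c2.inf_left.dvd_of_ne_bot
    (center_ne_bot c2.nilpotent (ne_bot_of_mem (c1 h.mem) h.ne)))
  have c9 : E ≤ N[T] := norm_om (norm_inf c4 (norm_cent c4))
  have d1 : SReg T E := hF.reg.of_le (c6.trans h2) le_rfl
  rw [hF.relIndexK]
  by_cases d2 : PRankLE p 1 T
  · have := sreg_odd_le c9 d1 c8 (odd_of T) (odd_of E)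
    rw [card_ea_of_prk1 h.prime c7 c8 le_rfl d2] at this
    omega
  obtain ⟨A, hA, d3⟩ := exists_E2 h.prime d2
  have d4 : A = T := eq_of_le_of_card hA (d3.2 ▸ prk_iff.1 h.prk T c6 c7)
  subst d4
  refine E2.two_mul_le d3 h.prime h.ne_two c9 d1 (odd_of E)
    ((d3.emax h.prk).mem c7 c6 h.mem (comm_cent h.comm le_rfl c6 h.mem) h.pow)
    (eq_bot_of_le hF.inf (le_inf ?_ inf_le_left))
  exact le_trans (inf_le_inf hF.leH h.norm_le) (h.inf_le h11)

/-- The last step of (12.16). -/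
theorem five_le (h : Cex p M P L x) : 5 ≤ ⁅MF[M], MF[M]⁆.relIndex MF[M] := by
  obtain ⟨U, hU⟩ := exists_typeI h.maxM h.oneM
  obtain ⟨U0, h0⟩ := hU.fcompl
  have hF := hU.toTypeF.frob0 h0
  have h1 := relIndex_dvd_sub_one hF.leK (der_le MF[M]) hF.leK (norm_der hF.norm) hF.norm
    fun k hk k1 y hy e => by_contra fun h2 => k1 (fpf_mod (hF.cent1_not_mem hy h2) (der_le _)
      (norm_der hF.norm hy) hk (by simpa [mul_assoc] using inv_mem e))
  rw [hF.relIndexK] at h1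
  have h2 : Odd (⁅MF[M], MF[M]⁆.relIndex MF[M]) := (odd_of _).of_dvd_nat (relIndex_dvd_card _ _)
  have h3 : ⁅MF[M], MF[M]⁆.relIndex MF[M] ≠ 1 := fun e =>
    not_le_der_of_sol (Fcore_sol M) (Fcore_ne_bot h.maxM) (relIndex_eq_one.1 e)
  have h4 : ⁅MF[M], MF[M]⁆.relIndex MF[M] ≠ 3 := fun e => by
    rw [e] at h1
    obtain e1 | e1 := (Nat.dvd_prime Nat.prime_two).1 h1
    · exact hF.neH (card_eq_one.1 e1)
    · exact absurd (e1 ▸ odd_of U0) (by decide)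
  obtain ⟨k, hk⟩ := h2
  omega

end Cex

end FT
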