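import Cfsg.Agent.H16.PF12b

/-! Peterfalvi (12.13)-(12.16): every maximal subgroup of type I is a Frobenius group. -/

set_option autoImplicit false
set_option linter.style.haveILetI false
set_option linter.unusedSectionVars false

namespace FT

open Subgroup hiding one
open _root_.Cfsg H1 H15 H16 _root_.FT H17 CF H18 H21
open scoped commutatorElement Pointwise

theorem num12_14 {a : ℤ} {h e p : ℕ} (h1 : p ^ 2 ≤ h) (h2 : 2 * e ≤ p + 1) (h3 : 3 ≤ p) (h4 : 0 < e)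
    (h5 : (0 : ℝ) ≤ (e : ℝ) - 1 - (((h : ℝ) - 1) * a ^ 2 - 2 * a * e) / e) : a = 0 := by
  have h6 : ((h : ℤ) - 1) * a ^ 2 - 2 * a * e ≤ (e - 1) * e := by
    have : (0 : ℝ) < e := by exact_mod_cast h4
    rw [sub_nonneg, div_le_iff₀ this] at h5
    exact_mod_cast h5
  by_contra h0
  have a1 : 1 ≤ a ^ 2 := by have := sq_pos_of_ne_zero h0; omega
  have a2 : a ≤ a ^ 2 := Int.le_self_sq a
  zify at h1 h2 h3 h4
  have a3 : (0 : ℤ) ≤ h - 1 - 2 * e := by nlinarith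
  have a4 : (h : ℤ) - 1 - 2 * e ≤ (e - 1) * e := by nlinarith
  nlinarith

theorem num12_16 {n : ℤ} {e p : ℕ} (h1 : (p : ℤ) ∣ e - n) (h2 : 2 * e ≤ p + 1) (h3 : 0 < e) :
    ((e : ℝ) - 1) ^ 2 ≤ (n : ℝ) ^ 2 := by
  obtain ⟨t, ht⟩ := h1
  zify at h2 h3
  have : ((e : ℤ) - 1) ^ 2 ≤ n ^ 2 := by
    rcases le_or_gt t 0 with h | h
    · have : (e : ℤ) ≤ n := by nlinarith
      nlinarith
    · have : n ≤ 1 - e := by nlinarith
      nlinarith
  exact_mod_cast this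

theorem num12_16' {e k c h m d s r : ℝ} (he : 3 ≤ e) (hk : 5 ≤ k) (hc : (e - 1) ^ 2 ≤ c) (hd : 0 < d)
    (hh : 0 < h) (hm0 : 0 < m) (hm : m ≤ d * k * h) (hs : m⁻¹ * ((d * k - d) * c) ≤ s)
    (hr : 1 - e / h ≤ r) (h1 : r + s ≤ 1) : False := by
  have a1 : m⁻¹ * ((d * k - d) * c) ≤ e / h := by linarith
  rw [inv_mul_le_iff₀ hm0, ← mul_div_assoc, le_div_iff₀ hh] at a1
  have a2 : (d * h) * ((k - 1) * c) ≤ (d * h) * (k * e) := by nlinarith
  have a3 := le_of_mul_le_mul_left a2 (mul_pos hd hh)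
  have a4 : 4 * e ≤ 3 * c := by nlinarith
  nlinarith

variable {G : Type*} [Group G] [Finite G] [hB : BGF G] {p : ℕ} {L M P : Subgroup G} {g x : G}
  {ζ : G → ℂ} {ν : (G → ℂ) →ₗ[ℂ] (G → ℂ)}

namespace Cex

/-- Peterfalvi (12.15), first part. -/
theorem invDade_eq (h : Cex p M P L x) (h11 : PF11For12 G)
    (hν : CohWith L (seqIndD MF[L] L MF[L] ⊥) (ftDade L) ν) (hζ : ζ ∈ seqIndD MF[L] L MF[L] ⊥)
    (hg : g ∈ MF[M]) (g1 : g ≠ 1) :
    invDade ((MF[M] : Set G) \ {1}) (supportR M) (ν ζ) g = ν ζ g := by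
  by_cases h1 : C1[g] ≤ M
  · exact invDade_of_bot _ ⟨hg, g1⟩ (supportR_of_le h1)
  obtain ⟨N, hN⟩ := exists_suppFacts h.maxM (F_subset0 M ⟨hg, g1⟩) h1
  have h2 : ftType N = 1 := by
    have := hN.type_le; have := (ftType_range N).1; have := mt hN.frob h.not_frob; omega
  have hF := h.frob h11
  have h3 : NCj N L := fun y e => hN.nmemA1 (by
    rw [A1_le_two hN.type_le, ← A_of_frob (by rw [e, Fcore_cj]; exact hF.cj y)]; exact hN.memA)
  refine invDade_of_const (by exact ⟨hg, g1⟩) fun u hu => ?_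
  rw [hN.R_eq] at hu
  exact (t1_coh_ortho h.maxL hF hN.um.1 h2 h3.symm hν hζ).const hN.um.1 h2 (vchar_cf (hν.vchar hζ))
    (A_mem hN.memA) (fun e => hN.nmemA1 (F_subset1 N ⟨e, g1⟩)) hu.1

/-- Peterfalvi (12.14). -/
theorem apply_mul (h : Cex p M P L x) (h11 : PF11For12 G)
    (hν : CohWith L (seqIndD MF[L] L MF[L] ⊥) (ftDade L) ν) (hζ : ζ ∈ seqIndD MF[L] L MF[L] ⊥)
    (h1 : ζ 1 = MF[L].relIndex L) (hg : g ∈ MF[M]) : ν ζ (x * g) = ζ x := by
  have hF := h.frob h11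
  have hν' : CohWith L (seqIndD MF[L] L MF[L] ⊥) (Dade ((MF[L] : Set G) \ {1}) L (supportR L)) ν :=
    hν.congr fun α hα e => (dadeF_eq h.maxL (Z_seqIndD_on_sharp hF.leK hF.norm hα e)).symm
  have hi := hF.seqInd_irr le_rfl hζ
  have hr := seqIndD_star_ne' hF.leK hF.norm le_rfl ζ hζ
  have hψ := vchar_cf (hν.vchar hζ)
  have key : ∀ g ∈ MF[M], ν ζ (x * g) = ν ζ x := fun g hg =>
    (t1_coh_ortho h.maxL hF h.maxM h.oneM h.ncj hν hζ).const h.maxM h.oneM hψ h.memM h.nmemK hg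
  have hx := h.leH h11 h.mem
  have a1 := invDade_eq_add_const (dadeF h.maxL) hν' hζ h1 hψ (irr_cf hi)
    (fun ξ hξ => hν.dot hζ hξ) hx h.ne
  obtain ⟨Γ, -, b1, -, -, a, b2, -, b3, -⟩ := Dade_Ind1_sub_lin (dadeF h.maxL) hν' hi hζ h1 hr
  obtain ⟨A, hA, c1⟩ := mFT_exists_E2 h.prime h.pg h.ncyc
  obtain rfl : a = 0 := num12_14 (c1.2 ▸ card_le (hA.trans (h.leH h11))) (h.two_mul_le h11)
    (mFT_three_le h.prime h.dvd) (CF.relIndex_pos _ _) (b3 ▸ nrm_nonneg Γ)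
  rw [invDade_of_const (by exact ⟨hx, h.ne⟩) (c := ν ζ x) fun u hu => key u (h.supp.R_eq ▸ hu).1, b2,
    Int.cast_zero, zero_smul, add_zero, dot_add_right, dot_sub_right, dot_sub_right,
    (Dade_Ind1_sub_lin_a (dadeF h.maxL) hν' hi hζ h1 hr).1 ζ hζ, hν.dot hζ hζ,
    dot_symm_zero (b1 ζ hζ), seqIndD_ortho_Ind1 hF.leK hF.norm le_rfl hζ] at a1
  rw [key g hg, a1]; ring

theorem false (h : Cex p M P L x) (h11 : PF11For12 G)
    (hc : Coherent L (seqIndD MF[L] L MF[L] ⊥) (ftDade L)) : False := by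
  obtain ⟨ν, hν⟩ := hc
  have hF := h.frob h11
  obtain ⟨ζ, hζ, h1⟩ := exists_lin_seqIndD (M := ⊥) hF.leK bot_le
    (by rw [sup_bot_eq]; exact not_le_der_of_sol (Fcore_sol L) hF.neK)
  have hν' : CohWith L (seqIndD MF[L] L MF[L] ⊥) (Dade ((MF[L] : Set G) \ {1}) L (supportR L)) ν :=
    hν.congr fun α hα e => (dadeF_eq h.maxL (Z_seqIndD_on_sharp hF.leK hF.norm hα e)).symm
  have hi := hF.seqInd_irr le_rfl hζ
  have hv := hν.vchar hζ
  have hψ := vchar_cf hv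
  obtain ⟨c, hc⟩ := (t1_coh_ortho h.maxL hF h.maxM h.oneM h.ncj hν hζ).invDade_const h.maxM h.oneM hψ
  have hc' : ∀ y ∈ MF[M], y ∉ ⁅MF[M], MF[M]⁆ → ν ζ y = c := fun y hy y1 =>
    (h.invDade_eq h11 hν hζ hy fun e => y1 (e ▸ one_mem _)).symm.trans (hc y hy y1)
  obtain ⟨g, hg, g1⟩ := SetLike.not_le_iff_exists.1 h.ncent
  obtain ⟨n, hn⟩ := (mem_vchar_top.1 hv).exists_int_of_pow (g := g) fun k hk => by
    rw [hc' g hg.1 g1, hc' _ (pow_mem hg.1 k) fun e => g1 (zpowers_le.2 e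
      (mem_zpowers_pow_iff.2 (hk.coprime_dvd_right (orderOf_dvd_natCard g))))]
  have hε := Complex.isPrimitiveRoot_exp p h.prime.ne_zero
  obtain ⟨w, hw, e1⟩ := vchar_sub_mod hv h.prime.ne_zero hε (mem_top x) (mem_top g) h.pow
    (H16.mem_cent1.1 hg.2).symm
  obtain ⟨w', hw', e2⟩ := vchar_sub_mod (irr_vchar hi) h.prime.ne_zero hε
    (hF.leK (h.leH h11 h.mem)) L.one_mem h.pow (by rw [mul_one, one_mul])
  rw [h.apply_mul h11 hν hζ h1 hg.1, hn] at e1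
  rw [mul_one, h1] at e2
  have a1 := num12_16 (int_dvd_of_mod h.prime hε (n := MF[L].relIndex L - n) (hw.sub hw')
    (by push_cast; linear_combination e1 - e2)) (h.two_mul_le h11) (CF.relIndex_pos _ _)
  obtain ⟨_, -, -, -, -, _, -, -, -, b1⟩ := Dade_Ind1_sub_lin (dadeF h.maxL) hν' hi hζ h1
    (seqIndD_star_ne' hF.leK hF.norm le_rfl ζ hζ)
  have a2 : 3 ≤ MF[L].relIndex L := by
    obtain ⟨k, hk⟩ : Odd (MF[L].relIndex L) := (odd_of L).of_dvd_nat (relIndex_dvd_card _ _)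
    have := mt relIndex_eq_one.1 hF.ltK.not_ge
    omega
  have a3 := nrm_invDade_le_supp (dadeF h.maxL) hψ
  have a4 := nrm_invDade_le_supp (dadeF h.maxM) hψ
  have a5 := tildeA1_disjoint h.maxM h.maxL h.ncj
  rw [tildeOf_eq, tildeOf_eq, A1_le_two (h.oneM.trans_le one_le_two),
    A1_le_two ((h.oneL h11).trans_le one_le_two)] at a5
  have a6 := nrm_eq (H := ⊤) (ν ζ)
  rw [hν.nrm hζ, nrm_irr hi, card_top] at a6
  have a7 := Finset.sum_le_sum_of_subset_of_nonneg (f := fun y => ‖ν ζ y‖ ^ 2)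
    (fs_mono (Set.subset_univ (DadeSupp ((MF[M] : Set G) \ {1}) (supportR M) ∪
      DadeSupp ((MF[L] : Set G) \ {1}) (supportR L)))) fun _ _ _ => by positivity
  rw [sum_fs_union a5] at a7
  have a8 := mul_le_mul_of_nonneg_left a7 (inv_nonneg.2 (Nat.cast_nonneg (α := ℝ) (Nat.card G)))
  have a9 := H16.card_mul_relIndex (der_le MF[M])
  refine num12_16' (k := (⁅MF[M], MF[M]⁆.relIndex MF[M] : ℕ)) (d := Nat.card ↥⁅MF[M], MF[M]⁆)
    (m := Nat.card M) (s := nrm M (invDade ((MF[M] : Set G) \ {1}) (supportR M) (ν ζ)))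
    (by exact_mod_cast a2) (by exact_mod_cast h.five_le) a1 (CF.card_pos' _) (CF.card_pos' _)
    (CF.card_pos' _) ?_ ?_ (b1 (odd_Frobenius_index_ler (odd_of L) hF)).1 ?_
  · have := Nat.mul_le_mul_left (Nat.card MF[M]) (card_le (h.inf_le h11))
    rw [h.supp.compl.card, ← a9] at this
    exact_mod_cast this
  · rw [nrm_eq]
    refine mul_le_mul_of_nonneg_left (le_trans (le_of_eq ?_) (Finset.sum_le_sum_of_subset_of_nonneg
      (fs_mono (A := (MF[M] : Set G) \ (⁅MF[M], MF[M]⁆ : Subgroup G)) fun _ hy => Fcore_le M hy.1)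
      fun _ _ _ => by positivity)) (by positivity)
    rw [sum_fs_congr (g := fun _ => (n : ℝ) ^ 2) fun y hy => by
        rw [hc y hy.1 hy.2, ← hc' g hg.1 g1, hn, Complex.norm_intCast, sq_abs], sum_fs_const,
      Set.ncard_sdiff (der_le MF[M]), Nat.cast_sub (Set.ncard_le_ncard (der_le MF[M]))]
    exact congrArg (fun t : ℝ => (t - _) * _) (by exact_mod_cast a9)
  · rw [coe_top] at a6
    linarith

end Cex

/-- Peterfalvi (12.7). -/
theorem type1_frob_of (h11 : PF11For12 G) (h6 : ∀ L : Subgroup G, IsCoatom L → FrobK L MF[L] →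
      Coherent L (seqIndD MF[L] L MF[L] ⊥) (ftDade L)) (hM : IsCoatom M) (h1 : ftType M = 1) :
    FrobK M MF[M] := by
  have key : ∀ p : ℕ, p.Prime → ∀ N Q : Subgroup G, IsCoatom N → ftType N = 1 → Q ≤ N → Pg[p] Q →
      ¬ p ∣ Nat.card MF[N] → IsCyclic Q := fun p => by
    induction p using Nat.strong_induction_on with
    | _ p ih =>
      intro hp N Q hN h2 h3 h4 h5
      by_contra h7
      obtain ⟨P, L, x, h⟩ := exists_cex hp (fun q hq e => ih q e hq) hN h2 h3 h4 h5 h7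
      exact h.false h11 (h6 L h.maxL (h.frob h11))
  obtain ⟨U, hU⟩ := exists_typeI hM h1
  refine ((hU.toTypeF.frob_iff (odd_of U)).2 (zgroup_iff.2 fun q hq Q hQ hQq => ?_)).frobK
  by_cases h3 : Q = ⊥
  · exact h3 ▸ cyclic_bot
  exact key q hq M Q hM h1 (hQ.trans hU.compl.le2) hQq fun e => hq.one_lt.ne'
    (Nat.eq_one_of_dvd_coprimes (Fcore_compl_coprime hU.compl le_rfl) e
      ((hQq.dvd_of_ne_bot h3).trans (card_dvd hQ)))

end FT
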